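import Cfsg.Agent.H7.BNPair

/-!
The Weyl group of a (B,N)-pair is a Coxeter group.
-/

set_option autoImplicit false

namespace Cfsg.Agent.H7.BN

open Cfsg

/-- alternating word `a b a b ...` of length `n` -/
def altL {α : Type*} : α → α → ℕ → List α
  | _, _, 0 => []
  | a, b, n + 1 => a :: altL b a n

theorem altL_length {α : Type*} (a b : α) (n : ℕ) : (altL a b n).length = n := by
  induction n generalizing a b with
  | zero => rfl
  | succ n ih => rw [altL, List.length_cons, ih]

theorem altL_map {α β : Type*} (f : α → β) (a b : α) (n : ℕ) : (altL a b n).map f = altL (f a) (f b) n := by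
  induction n generalizing a b with
  | zero => rfl
  | succ n ih => rw [altL, altL, List.map_cons, ih]

theorem altL_prefix {α : Type*} (a b : α) (n : ℕ) : altL a b n <+: altL a b (n + 1) := by
  induction n generalizing a b with
  | zero => exact List.nil_prefix
  | succ n ih =>
    rw [altL, altL, List.prefix_cons_inj]
    exact ih b a

theorem prefix_dropLast {α : Type*} {l m : List α} (h : l <+: m) (hlt : l.length < m.length) :
    l <+: m.dropLast := by
  rw [List.dropLast_eq_take]
  rw [List.prefix_iff_eq_take] at h
  rw [h]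
  exact List.take_prefix_take_left (by omega)

theorem mul_ba_pow {H : Type*} [Group H] (a b : H) (n : ℕ) : a * (b * a) ^ n = (a * b) ^ n * a := by
  induction n with
  | zero => simp
  | succ n ih => rw [pow_succ, ← mul_assoc, ih, pow_succ]; group

theorem altL_prod_mul {H : Type*} [Group H] {a b : H} (ha : a * a = 1) (hb : b * b = 1) (n : ℕ) :
    (altL a b n).prod * ((altL b a n).prod)⁻¹ = (a * b) ^ n := by
  have ha' : a⁻¹ = a := inv_eq_of_mul_eq_one_left ha
  have hb' : b⁻¹ = b := inv_eq_of_mul_eq_one_left hb
  induction n with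
  | zero => simp [altL]
  | succ n ih =>
    rw [altL, altL, List.prod_cons, List.prod_cons, mul_inv_rev, hb']
    have h1 : (altL b a n).prod * ((altL a b n).prod)⁻¹ = ((a * b) ^ n)⁻¹ := by
      rw [← ih]; group
    calc a * (altL b a n).prod * ((altL a b n).prod⁻¹ * b)
        = a * ((altL b a n).prod * ((altL a b n).prod)⁻¹) * b := by group
      _ = a * ((a * b) ^ n)⁻¹ * b := by rw [h1]
      _ = a * ((b * a) ^ n) * b := by rw [← inv_pow, mul_inv_rev, ha', hb']
      _ = (a * b) ^ (n + 1) := by
        rw [mul_ba_pow, pow_succ, mul_assoc]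

theorem altL_prod_eq_iff {H : Type*} [Group H] {a b : H} (ha : a * a = 1) (hb : b * b = 1) (n : ℕ) :
    (altL a b n).prod = (altL b a n).prod ↔ (a * b) ^ n = 1 := by
  rw [← altL_prod_mul ha hb, mul_inv_eq_one]

variable {G : Type*} [Group G] (P : BNPair G)

/-- the distinguished generators, indexed by `S` -/
def gen (s : P.S) : W P := mkW P s (P.subset s.2)

theorem gen_mem (s : P.S) : gen P s ∈ R P := ⟨s, s.2, rfl⟩

theorem gen_inj {s t : P.S} (h : gen P s = gen P t) : s = t := by
  rw [gen, gen, mkW_eq_iff] at h
  exact Subtype.ext (P.inj s s.2 t t.2 h)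

theorem isWord_map (l : List P.S) : IsWord P (l.map (gen P)) := by
  intro x hx
  obtain ⟨s, _, rfl⟩ := List.mem_map.1 hx
  exact gen_mem P s

theorem exists_lift_word {l : List (W P)} (hl : IsWord P l) : ∃ m : List P.S, m.map (gen P) = l := by
  induction l with
  | nil => exact ⟨[], rfl⟩
  | cons a l ih =>
    obtain ⟨m, hm⟩ := ih (fun x hx => hl x (List.mem_cons_of_mem _ hx))
    obtain ⟨s, hs, hsa⟩ := hl a List.mem_cons_self
    exact ⟨⟨s, hs⟩ :: m, by rw [List.map_cons, hm]; congr 1⟩

/-- the Coxeter matrix -/
noncomputable def cmat : CoxeterMatrix P.S where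
  M := fun s t => orderOf (gen P s * gen P t)
  isSymm := by
    ext s t
    change orderOf (gen P t * gen P s) = orderOf (gen P s * gen P t)
    rw [← orderOf_inv, mul_inv_rev, R_inv P (gen_mem P s), R_inv P (gen_mem P t)]
  diagonal := by
    intro s
    rw [R_sq P (gen_mem P s), orderOf_one]
  off_diagonal := by
    intro s t hst h
    change orderOf (gen P s * gen P t) = 1 at h
    rw [orderOf_eq_one_iff] at h
    apply hst
    apply gen_inj P
    rw [← R_inv P (gen_mem P t)]
    exact eq_inv_of_mul_eq_one_left h

abbrev MG : Type _ := (cmat P).Group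

theorem simple_sq' (s : P.S) : (cmat P).simple s * (cmat P).simple s = 1 :=
  (cmat P).toCoxeterSystem.simple_mul_simple_self s

theorem liftable : CoxeterMatrix.IsLiftable (cmat P) (gen P) := by
  intro s t
  exact pow_orderOf_eq_one _

/-- the natural map from the Coxeter group -/
noncomputable def toW : MG P →* W P := (cmat P).toCoxeterSystem.lift ⟨gen P, liftable P⟩

theorem toW_simple (s : P.S) : toW P ((cmat P).simple s) = gen P s :=
  (cmat P).toCoxeterSystem.lift_apply_simple (liftable P) s

/-- product in the Coxeter group -/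
noncomputable def F (l : List P.S) : MG P := (l.map (cmat P).simple).prod

theorem F_cons (s : P.S) (l : List P.S) : F P (s :: l) = (cmat P).simple s * F P l := by
  rw [F, List.map_cons, List.prod_cons]; rfl

theorem F_append (l m : List P.S) : F P (l ++ m) = F P l * F P m := by
  rw [F, List.map_append, List.prod_append]; rfl

/-- product in the Weyl group -/
def pr (l : List P.S) : W P := (l.map (gen P)).prod

theorem pr_cons (s : P.S) (l : List P.S) : pr P (s :: l) = gen P s * pr P l := by
  rw [pr, List.map_cons, List.prod_cons]; rfl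

theorem pr_append (l m : List P.S) : pr P (l ++ m) = pr P l * pr P m := by
  rw [pr, List.map_append, List.prod_append]; rfl

theorem toW_F (l : List P.S) : toW P (F P l) = pr P l := by
  induction l with
  | nil => rw [F, pr]; simp
  | cons a l ih => rw [F_cons, pr_cons, map_mul, toW_simple, ih]

/-- reduced words -/
def Red (l : List P.S) : Prop := len P (pr P l) = l.length

theorem len_pr_le (l : List P.S) : len P (pr P l) ≤ l.length := by
  have := len_prod_le P (isWord_map P l)
  rwa [List.length_map] at this

theorem Red.tail {a : P.S} {l : List P.S} (h : Red P (a :: l)) : Red P l := by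
  unfold Red at h ⊢
  rw [pr_cons, List.length_cons] at h
  have h1 := len_R_mul_le P (gen_mem P a) (pr P l)
  have h2 := len_pr_le P l
  omega

theorem Red.init {a : P.S} {l : List P.S} (h : Red P (l ++ [a])) : Red P l := by
  unfold Red at h ⊢
  rw [pr_append, List.length_append, List.length_singleton] at h
  have h0 : pr P [a] = gen P a := by rw [pr]; simp
  rw [h0] at h
  have h1 := len_mul_R_le P (gen_mem P a) (pr P l)
  have h2 := len_pr_le P l
  omega

/-- exchange condition for words in `S` -/
theorem exchangeS {s : P.S} {l : List P.S} (h : len P (gen P s * pr P l) < len P (pr P l)) :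
    ∃ j < l.length, gen P s * pr P l = pr P (l.eraseIdx j) := by
  obtain ⟨j, hj, hj'⟩ := exchange P (gen_mem P s) (l.map (gen P)) (isWord_map P l) h
  rw [List.length_map] at hj
  refine ⟨j, hj, ?_⟩
  rw [pr, hj', pr, List.eraseIdx_map]

/-- one step of Matsumoto's argument -/
theorem step {k : ℕ} (ih : ∀ u v : List P.S, u.length = k → v.length = k → Red P u → Red P v →
      pr P u = pr P v → F P u = F P v)
    {u v' : List P.S} {y : P.S} (hu : u.length = k + 1) (hv : (y :: v').length = k + 1) (hur : Red P u)
    (hvr : Red P (y :: v')) (huv : pr P u = pr P (y :: v')) (hF : F P u ≠ F P (y :: v')) :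
    (y :: u.dropLast).length = k + 1 ∧ Red P (y :: u.dropLast) ∧ pr P (y :: u.dropLast) = pr P u ∧
      F P (y :: u.dropLast) ≠ F P u := by
  obtain ⟨u₀, x, rfl⟩ : ∃ u₀ x, u = u₀ ++ [x] := by
    have : u ≠ [] := by rintro rfl; simp at hu
    exact ⟨_, _, (List.dropLast_append_getLast this).symm⟩
  rw [List.dropLast_concat]
  have hl0 : u₀.length = k := by simpa using hu
  have hlen : len P (gen P y * pr P (u₀ ++ [x])) < len P (pr P (u₀ ++ [x])) := by
    rw [hur, hu, huv, pr_cons, R_mul_cancel P (gen_mem P y)]
    have := len_pr_le P v'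
    rw [List.length_cons] at hv
    omega
  obtain ⟨j, hj, hj'⟩ := exchangeS P hlen
  have hlen1 : ((u₀ ++ [x]).eraseIdx j).length = k := by
    rw [List.length_eraseIdx_of_lt hj]; omega
  have hpr : pr P (y :: (u₀ ++ [x]).eraseIdx j) = pr P (u₀ ++ [x]) := by
    rw [pr_cons, ← hj', R_mul_cancel P (gen_mem P y)]
  have hred : Red P (y :: (u₀ ++ [x]).eraseIdx j) := by
    unfold Red
    rw [hpr, hur, List.length_cons, hlen1, hu]
  have hF1 : F P (y :: (u₀ ++ [x]).eraseIdx j) = F P (y :: v') := by
    rw [F_cons, F_cons]
    congr 1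
    apply ih _ _ hlen1 (by simpa using hv) hred.tail hvr.tail
    have := hpr.trans huv
    rw [pr_cons, pr_cons] at this
    exact mul_left_cancel this
  by_cases hjk : j < k
  · exfalso
    apply hF
    rw [← hF1]
    have e1 : (u₀ ++ [x]).eraseIdx j = u₀.eraseIdx j ++ [x] := by
      rw [List.eraseIdx_append_of_lt_length (by omega)]
    have e2 : y :: (u₀ ++ [x]).eraseIdx j = (y :: u₀.eraseIdx j) ++ [x] := by rw [e1]; rfl
    rw [e2] at hred hpr ⊢
    rw [F_append, F_append]
    congr 1
    apply ih
    · exact hl0
    · rw [List.length_cons, List.length_eraseIdx_of_lt (by omega)]; omega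
    · exact hur.init
    · exact hred.init
    · rw [pr_append, pr_append] at hpr
      exact (mul_right_cancel hpr).symm
  · have hjk' : j = k := by omega
    have e1 : (u₀ ++ [x]).eraseIdx j = u₀ := by
      rw [List.eraseIdx_append_of_length_le (by omega), hjk', hl0]
      simp
    rw [e1] at hred hpr hF1
    refine ⟨by rw [List.length_cons, hl0], hred, hpr, ?_⟩
    rw [hF1]
    exact fun h => hF h.symm

/-- Matsumoto's theorem for the Weyl group -/
theorem matsumoto (k : ℕ) : ∀ u v : List P.S, u.length = k → v.length = k → Red P u → Red P v →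
      pr P u = pr P v → F P u = F P v := by
  induction k with
  | zero =>
    intro u v hu hv _ _ _
    rw [List.length_eq_zero_iff] at hu hv
    rw [hu, hv]
  | succ k ih =>
    intro u v hu hv hur hvr huv
    by_contra hF
    have claim : ∀ n, n ≤ k → ∃ (a b : P.S) (u v : List P.S), u.length = k + 1 ∧ v.length = k + 1 ∧ Red P u ∧
        Red P v ∧ pr P u = pr P v ∧ F P u ≠ F P v ∧ altL a b (n + 1) <+: u ∧ altL b a (n + 1) <+: v := by
      intro n
      induction n with
      | zero =>
        intro _
        cases u with
        | nil => simp at hu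
        | cons a u' =>
          cases v with
          | nil => simp at hv
          | cons b v' =>
            refine ⟨a, b, a :: u', b :: v', hu, hv, hur, hvr, huv, hF, ?_, ?_⟩
            · simp [altL]
            · simp [altL]
      | succ n ihn =>
        intro hn
        obtain ⟨a, b, u, v, hu, hv, hur, hvr, huv, hF, hau, hbv⟩ := ihn (by omega)
        -- first step
        obtain ⟨v', rfl⟩ : ∃ v', v = b :: v' := by
          obtain ⟨t, rfl⟩ := hbv
          exact ⟨_, rfl⟩
        obtain ⟨h1, h2, h3, h4⟩ := step P ih hu hv hur hvr huv hF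
        obtain ⟨u', hu'⟩ : ∃ u', u = a :: u' := by
          obtain ⟨t, rfl⟩ := hau
          exact ⟨_, rfl⟩
        subst hu'
        obtain ⟨h5, h6, h7, h8⟩ := step P ih h1 hu h2 hur h3 h4
        have p1 : altL a b (n + 1) <+: (a :: u').dropLast := by
          apply prefix_dropLast hau
          rw [altL_length]
          omega
        have p2 : altL b a (n + 2) <+: b :: (a :: u').dropLast := by
          rw [altL, List.prefix_cons_inj]
          exact p1
        have p3 : altL b a (n + 1) <+: (b :: (a :: u').dropLast).dropLast := by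
          apply prefix_dropLast ((altL_prefix b a (n + 1)).trans p2)
          rw [altL_length]
          omega
        refine ⟨a, b, _, _, h5, h1, h6, h2, h7, h8, ?_, p2⟩
        rw [altL, List.prefix_cons_inj]
        exact p3
    obtain ⟨a, b, u, v, hu, hv, _, _, huv, hF, hau, hbv⟩ := claim k le_rfl
    have e1 : altL a b (k + 1) = u := hau.eq_of_length (by rw [altL_length, hu])
    have e2 : altL b a (k + 1) = v := hbv.eq_of_length (by rw [altL_length, hv])
    rw [← e1, ← e2, pr, pr, altL_map, altL_map,
      altL_prod_eq_iff (R_sq P (gen_mem P a)) (R_sq P (gen_mem P b))] at huv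
    apply hF
    rw [← e1, ← e2, F, F, altL_map, altL_map, altL_prod_eq_iff (simple_sq' P a) (simple_sq' P b)]
    have h1 : orderOf (gen P a * gen P b) ∣ k + 1 := orderOf_dvd_of_pow_eq_one huv
    obtain ⟨c, hc⟩ := h1
    have h2 : ((cmat P).simple a * (cmat P).simple b) ^ (orderOf (gen P a * gen P b)) = 1 :=
      (cmat P).toCoxeterSystem.simple_mul_simple_pow a b
    rw [hc, pow_mul, h2, one_pow]

theorem exists_red (l : List P.S) : ∃ m : List P.S, Red P m ∧ F P m = F P l ∧ pr P m = pr P l := by
  induction l with
  | nil => exact ⟨[], by unfold Red; rw [pr]; simp [len_one], rfl, rfl⟩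
  | cons a l ih =>
    obtain ⟨m, hm, hF, hp⟩ := ih
    by_cases h : len P (pr P m) < len P (gen P a * pr P m)
    · refine ⟨a :: m, ?_, by rw [F_cons, F_cons, hF], by rw [pr_cons, pr_cons, hp]⟩
      unfold Red at hm ⊢
      rw [pr_cons, List.length_cons]
      have := len_R_mul_le P (gen_mem P a) (pr P m)
      omega
    · have h1 : len P (gen P a * pr P m) < len P (pr P m) := by
        have := len_R_mul_ne P (w := pr P m) (gen_mem P a)
        omega
      obtain ⟨j, hj, hj'⟩ := exchangeS P h1
      have hl := List.length_eraseIdx_of_lt hj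
      have h2 : Red P (m.eraseIdx j) := by
        unfold Red at hm ⊢
        rw [← hj']
        have h3 := le_len_R_mul P (gen_mem P a) (pr P m)
        have h4 := len_pr_le P (m.eraseIdx j)
        rw [← hj'] at h4
        omega
      have h3 : pr P (a :: m.eraseIdx j) = pr P m := by
        rw [pr_cons, ← hj', R_mul_cancel P (gen_mem P a)]
      have h4 : Red P (a :: m.eraseIdx j) := by
        unfold Red at hm ⊢
        rw [h3, List.length_cons, hm, hl]
        omega
      have h5 := matsumoto P m.length (a :: m.eraseIdx j) m (by rw [List.length_cons, hl]; omega) rfl h4 hm h3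
      refine ⟨m.eraseIdx j, h2, ?_, by rw [← hj', pr_cons, hp]⟩
      rw [F_cons, ← hF, ← h5, F_cons, ← mul_assoc, simple_sq', one_mul]

theorem exists_F (x : MG P) : ∃ l : List P.S, F P l = x := by
  obtain ⟨l, hl⟩ := (cmat P).toCoxeterSystem.wordProd_surjective x
  exact ⟨l, hl⟩

theorem toW_bijective : Function.Bijective (toW P) := by
  constructor
  · rw [injective_iff_map_eq_one]
    intro x hx
    obtain ⟨l, rfl⟩ := exists_F P x
    obtain ⟨m, hm, hF, hp⟩ := exists_red P l
    rw [toW_F, ← hp] at hx
    unfold Red at hm
    rw [hx, len_one, eq_comm, List.length_eq_zero_iff] at hm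
    rw [← hF, hm]
    rfl
  · intro w
    obtain ⟨l, hl, rfl⟩ := exists_word P w
    obtain ⟨m, rfl⟩ := exists_lift_word P hl
    exact ⟨F P m, toW_F P m⟩

end Cfsg.Agent.H7.BN
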