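import Cfsg.Prelude.Def_LieExceptional

/-!
Groups with a (B,N)-pair: Weyl group, length function, Bruhat decomposition, exchange condition,
parabolic subgroups.
-/

set_option autoImplicit false

namespace Cfsg.Agent.H7.BN

open Cfsg

variable {G : Type*} [Group G] (P : BNPair G)

instance normalH : ((P.B ⊓ P.N).subgroupOf P.N).Normal := by
  constructor
  intro t ht n
  rw [Subgroup.mem_subgroupOf] at ht ⊢
  refine ⟨?_, (n * t * n⁻¹).2⟩
  exact P.conj_mem n n.2 t ht

/-- the Weyl group -/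
abbrev W : Type _ := P.N ⧸ (P.B ⊓ P.N).subgroupOf P.N

/-- the class of `n` in the Weyl group -/
abbrev mkW (n : G) (hn : n ∈ P.N) : W P := QuotientGroup.mk (⟨n, hn⟩ : P.N)

theorem mkW_mul {n m : G} (hn : n ∈ P.N) (hm : m ∈ P.N) :
    mkW P (n * m) (P.N.mul_mem hn hm) = mkW P n hn * mkW P m hm := rfl

theorem mkW_inv {n : G} (hn : n ∈ P.N) :
    mkW P n⁻¹ (P.N.inv_mem hn) = (mkW P n hn)⁻¹ := rfl

theorem mkW_eq_iff {n m : G} (hn : n ∈ P.N) (hm : m ∈ P.N) :
    mkW P n hn = mkW P m hm ↔ n⁻¹ * m ∈ P.B := by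
  rw [QuotientGroup.eq, Subgroup.mem_subgroupOf]
  constructor
  · intro h; exact h.1
  · intro h; exact ⟨h, P.N.mul_mem (P.N.inv_mem hn) hm⟩

theorem mkW_eq_one_iff {n : G} (hn : n ∈ P.N) :
    mkW P n hn = 1 ↔ n ∈ P.B := by
  have := mkW_eq_iff P P.N.one_mem hn
  rw [inv_one, one_mul] at this
  rw [← this]
  exact eq_comm

/-- the distinguished generators -/
def R : Set (W P) := {w | ∃ s, ∃ hs : s ∈ P.S, mkW P s (P.subset hs) = w}

theorem notMem_of_mem_S {s : G} (hs : s ∈ P.S) : s ∉ P.B := by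
  intro h
  apply P.conj_ne s hs
  ext x
  constructor
  · rintro ⟨b, hb, rfl⟩
    exact P.B.mul_mem (P.B.mul_mem h hb) h
  · intro hx
    exact ⟨s⁻¹ * x * s⁻¹, P.B.mul_mem (P.B.mul_mem (P.B.inv_mem h) hx) (P.B.inv_mem h), by group⟩

theorem R_sq {r : W P} (hr : r ∈ R P) : r * r = 1 := by
  obtain ⟨s, hs, rfl⟩ := hr
  rw [← mkW_mul, mkW_eq_one_iff]
  exact P.sq_mem s hs

theorem R_inv {r : W P} (hr : r ∈ R P) : r⁻¹ = r :=
  inv_eq_of_mul_eq_one_left (R_sq P hr)

theorem R_ne_one {r : W P} (hr : r ∈ R P) : r ≠ 1 := by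
  obtain ⟨s, hs, rfl⟩ := hr
  rw [Ne, mkW_eq_one_iff]
  exact notMem_of_mem_S P hs

theorem R_mul_cancel {r : W P} (hr : r ∈ R P) (w : W P) : r * (r * w) = w := by
  rw [← mul_assoc, R_sq P hr, one_mul]

theorem mul_R_cancel {r : W P} (hr : r ∈ R P) (w : W P) : w * r * r = w := by
  rw [mul_assoc, R_sq P hr, mul_one]

/-- words in the distinguished generators -/
def IsWord (l : List (W P)) : Prop := ∀ x ∈ l, x ∈ R P

theorem IsWord.nil : IsWord P [] := by intro x hx; simp at hx

variable {P} in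
theorem IsWord.cons {r : W P} {l : List (W P)} (hr : r ∈ R P) (hl : IsWord P l) : IsWord P (r :: l) := by
  intro x hx
  rcases List.mem_cons.1 hx with rfl | h
  · exact hr
  · exact hl x h

variable {P} in
theorem IsWord.append {l m : List (W P)} (hl : IsWord P l) (hm : IsWord P m) : IsWord P (l ++ m) := by
  intro x hx
  rcases List.mem_append.1 hx with h | h
  · exact hl x h
  · exact hm x h

variable {P} in
theorem IsWord.reverse {l : List (W P)} (hl : IsWord P l) : IsWord P l.reverse := by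
  intro x hx
  exact hl x (List.mem_reverse.1 hx)

theorem prod_reverse {l : List (W P)} (hl : IsWord P l) : l.reverse.prod = l.prod⁻¹ := by
  induction l with
  | nil => simp
  | cons a l ih =>
    have h1 : IsWord P l := fun x hx => hl x (List.mem_cons_of_mem _ hx)
    have h2 : a ∈ R P := hl a List.mem_cons_self
    rw [List.reverse_cons, List.prod_append, ih h1, List.prod_singleton, List.prod_cons (a := a) (l := l),
      mul_inv_rev, R_inv P h2]

/-- elements of `R` which come from `J` -/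
def RJ (J : Set G) : Set (W P) := {w | ∃ s, ∃ _ : s ∈ J, ∃ hs : s ∈ P.S, mkW P s (P.subset hs) = w}

/-- words in `J` -/
def IsWordJ (J : Set G) (l : List (W P)) : Prop := ∀ x ∈ l, x ∈ RJ P J

theorem RJ_sub {J : Set G} {x : W P} (hx : x ∈ RJ P J) : x ∈ R P := by
  obtain ⟨s, _, hs, rfl⟩ := hx
  exact ⟨s, hs, rfl⟩

theorem IsWordJ.isWord {J : Set G} {l : List (W P)} (h : IsWordJ P J l) : IsWord P l :=
  fun x hx => RJ_sub P (h x hx)

/-- the elements of `N` which are represented by words in `J` -/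
def wordSub (J : Set G) : Subgroup G where
  carrier := {n | ∃ hN : n ∈ P.N, ∃ l : List (W P), IsWordJ P J l ∧ l.prod = mkW P n hN}
  one_mem' := ⟨P.N.one_mem, [], by intro x hx; simp at hx, rfl⟩
  mul_mem' := by
    rintro x y ⟨hx, l, hl, hl'⟩ ⟨hy, m, hm, hm'⟩
    refine ⟨P.N.mul_mem hx hy, l ++ m, ?_, ?_⟩
    · intro z hz
      rcases List.mem_append.1 hz with h | h
      · exact hl z h
      · exact hm z h
    · rw [List.prod_append, hl', hm']; rfl
  inv_mem' := by
    rintro x ⟨hx, l, hl, hl'⟩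
    refine ⟨P.N.inv_mem hx, l.reverse, fun z hz => hl z (List.mem_reverse.1 hz), ?_⟩
    rw [prod_reverse P (IsWordJ.isWord P hl), hl']
    rfl

theorem le_wordSub {J : Set G} (hJ : J ⊆ P.S) : Subgroup.closure J ⊔ (P.B ⊓ P.N) ≤ wordSub P J := by
  refine sup_le ((Subgroup.closure_le _).2 ?_) ?_
  · intro x hx
    refine ⟨P.subset (hJ hx), [mkW P x (P.subset (hJ hx))], ?_, by simp⟩
    intro y hy
    rw [List.mem_singleton] at hy
    exact ⟨x, hx, hJ hx, hy.symm⟩
  · intro x hx
    refine ⟨hx.2, [], by intro x hx; simp at hx, ?_⟩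
    rw [List.prod_nil, eq_comm, mkW_eq_one_iff]
    exact hx.1

theorem exists_word (w : W P) : ∃ l : List (W P), IsWord P l ∧ l.prod = w := by
  obtain ⟨⟨n, hn⟩, rfl⟩ := QuotientGroup.mk_surjective w
  have h := hn
  rw [← P.closure_sup] at h
  obtain ⟨_, l, hl, hl'⟩ := le_wordSub P (le_refl _) h
  exact ⟨l, IsWordJ.isWord P hl, hl'⟩

/-- length -/
noncomputable def len (w : W P) : ℕ := sInf {k | ∃ l : List (W P), IsWord P l ∧ l.prod = w ∧ l.length = k}

theorem exists_reduced (w : W P) : ∃ l : List (W P), IsWord P l ∧ l.prod = w ∧ l.length = len P w := by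
  have : (len P w) ∈ {k | ∃ l : List (W P), IsWord P l ∧ l.prod = w ∧ l.length = k} := by
    apply Nat.sInf_mem
    obtain ⟨l, hl, hl'⟩ := exists_word P w
    exact ⟨l.length, l, hl, hl', rfl⟩
  exact this

theorem len_prod_le {l : List (W P)} (hl : IsWord P l) : len P l.prod ≤ l.length :=
  Nat.sInf_le ⟨l, hl, rfl, rfl⟩

theorem len_one : len P 1 = 0 := by
  have := len_prod_le P (IsWord.nil P)
  simpa using this

theorem eq_one_of_len {w : W P} (h : len P w = 0) : w = 1 := by
  obtain ⟨l, hl, hl', hlen⟩ := exists_reduced P w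
  rw [h, List.length_eq_zero_iff] at hlen
  rw [← hl', hlen, List.prod_nil]

theorem len_inv_le (w : W P) : len P w⁻¹ ≤ len P w := by
  obtain ⟨l, hl, hl', hlen⟩ := exists_reduced P w
  have := len_prod_le P hl.reverse
  rwa [prod_reverse P hl, hl', List.length_reverse, hlen] at this

theorem len_inv (w : W P) : len P w⁻¹ = len P w :=
  le_antisymm (len_inv_le P w) (by simpa using len_inv_le P w⁻¹)

theorem len_mul_le (v w : W P) : len P (v * w) ≤ len P v + len P w := by
  obtain ⟨l, hl, hl', hlen⟩ := exists_reduced P w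
  obtain ⟨m, hm, hm', hmen⟩ := exists_reduced P v
  have := len_prod_le P (hm.append hl)
  rwa [List.prod_append, hl', hm', List.length_append, hlen, hmen] at this

theorem len_R_le {r : W P} (hr : r ∈ R P) : len P r ≤ 1 := by
  have := len_prod_le P (IsWord.cons hr (IsWord.nil P))
  simpa using this

theorem len_R {r : W P} (hr : r ∈ R P) : len P r = 1 := by
  have h1 := len_R_le P hr
  have h2 : len P r ≠ 0 := fun h => R_ne_one P hr (eq_one_of_len P h)
  omega

theorem len_R_mul_le {r : W P} (hr : r ∈ R P) (w : W P) : len P (r * w) ≤ len P w + 1 := by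
  have := len_mul_le P r w
  rw [len_R P hr] at this
  omega

theorem le_len_R_mul {r : W P} (hr : r ∈ R P) (w : W P) : len P w ≤ len P (r * w) + 1 := by
  have := len_R_mul_le P hr (r * w)
  rwa [R_mul_cancel P hr] at this

theorem len_mul_R_le {r : W P} (hr : r ∈ R P) (w : W P) : len P (w * r) ≤ len P w + 1 := by
  have := len_mul_le P w r
  rw [len_R P hr] at this
  omega

theorem le_len_mul_R {r : W P} (hr : r ∈ R P) (w : W P) : len P w ≤ len P (w * r) + 1 := by
  have := len_mul_R_le P hr (w * r)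
  rwa [mul_R_cancel P hr] at this

theorem exists_left_descent {w : W P} (hw : w ≠ 1) : ∃ r ∈ R P, len P w = len P (r * w) + 1 := by
  obtain ⟨l, hl, hl', hlen⟩ := exists_reduced P w
  cases l with
  | nil => exact absurd hl'.symm hw
  | cons a l =>
    have h1 : IsWord P l := fun x hx => hl x (List.mem_cons_of_mem _ hx)
    have h2 : a ∈ R P := hl a List.mem_cons_self
    refine ⟨a, h2, ?_⟩
    rw [List.prod_cons] at hl'
    have h3 : a * w = l.prod := by rw [← hl', R_mul_cancel P h2]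
    have h4 := len_prod_le P h1
    have h5 := le_len_R_mul P h2 w
    rw [h3] at h5 ⊢
    rw [List.length_cons] at hlen
    omega

theorem exists_right_descent {w : W P} (hw : w ≠ 1) : ∃ r ∈ R P, len P w = len P (w * r) + 1 := by
  obtain ⟨r, hr, h⟩ := exists_left_descent P (inv_ne_one.2 hw)
  refine ⟨r, hr, ?_⟩
  rw [len_inv] at h
  rw [h, ← len_inv P (w * r), mul_inv_rev, R_inv P hr]

/-! ### double cosets -/

/-- the double coset attached to an element of the Weyl group -/
def C (w : W P) : Set G := {g | ∃ n, ∃ hn : n ∈ P.N, mkW P n hn = w ∧ ∃ b ∈ P.B, ∃ b' ∈ P.B, g = b * n * b'}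

theorem C_mk {n : G} (hn : n ∈ P.N) : C P (mkW P n hn) = DoubleCoset.doubleCoset n (P.B : Set G) P.B := by
  ext g
  rw [DoubleCoset.mem_doubleCoset]
  constructor
  · rintro ⟨m, hm, hmn, b, hb, b', hb', rfl⟩
    rw [mkW_eq_iff] at hmn
    refine ⟨b, hb, (m⁻¹ * n)⁻¹ * b', P.B.mul_mem (P.B.inv_mem hmn) hb', by group⟩
  · rintro ⟨b, hb, b', hb', rfl⟩
    exact ⟨n, hn, rfl, b, hb, b', hb', rfl⟩

theorem mem_C_self {n : G} (hn : n ∈ P.N) : n ∈ C P (mkW P n hn) :=
  ⟨n, hn, rfl, 1, P.B.one_mem, 1, P.B.one_mem, by group⟩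

theorem B_mul_C {b : G} (hb : b ∈ P.B) {g : G} {w : W P} (hg : g ∈ C P w) : b * g ∈ C P w := by
  obtain ⟨n, hn, rfl, x, hx, y, hy, rfl⟩ := hg
  exact ⟨n, hn, rfl, b * x, P.B.mul_mem hb hx, y, hy, by group⟩

theorem C_mul_B {b : G} (hb : b ∈ P.B) {g : G} {w : W P} (hg : g ∈ C P w) : g * b ∈ C P w := by
  obtain ⟨n, hn, rfl, x, hx, y, hy, rfl⟩ := hg
  exact ⟨n, hn, rfl, x, hx, y * b, P.B.mul_mem hy hb, by group⟩

theorem C_trans {g g' : G} {w : W P} (hg : g ∈ C P w) (hg' : g' ∈ C P w) :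
    ∃ b ∈ P.B, ∃ b' ∈ P.B, g' = b * g * b' := by
  obtain ⟨⟨n, hn⟩, rfl⟩ := QuotientGroup.mk_surjective w
  rw [C_mk, DoubleCoset.mem_doubleCoset] at hg hg'
  obtain ⟨x, hx, y, hy, rfl⟩ := hg
  obtain ⟨x', hx', y', hy', rfl⟩ := hg'
  exact ⟨x' * x⁻¹, P.B.mul_mem hx' (P.B.inv_mem hx), y⁻¹ * y', P.B.mul_mem (P.B.inv_mem hy) hy', by group⟩

theorem C_inv {g : G} {w : W P} (hg : g ∈ C P w) : g⁻¹ ∈ C P w⁻¹ := by
  obtain ⟨n, hn, rfl, x, hx, y, hy, rfl⟩ := hg
  exact ⟨n⁻¹, P.N.inv_mem hn, rfl, y⁻¹, P.B.inv_mem hy, x⁻¹, P.B.inv_mem hx, by group⟩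

theorem C_one : C P 1 = (P.B : Set G) := by
  have : C P 1 = C P (mkW P 1 P.N.one_mem) := rfl
  rw [this, C_mk]
  ext g
  rw [DoubleCoset.mem_doubleCoset]
  constructor
  · rintro ⟨b, hb, b', hb', rfl⟩
    exact P.B.mul_mem (P.B.mul_mem hb P.B.one_mem) hb'
  · intro hg
    exact ⟨g, hg, 1, P.B.one_mem, by group⟩

theorem mem_C_one {g : G} : g ∈ C P 1 ↔ g ∈ P.B := by
  rw [C_one]; rfl

theorem C_nonempty (w : W P) : (C P w).Nonempty := by
  obtain ⟨⟨n, hn⟩, rfl⟩ := QuotientGroup.mk_surjective w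
  exact ⟨n, mem_C_self P hn⟩

/-- two double cosets with a common element have the same elements -/
theorem C_sub_of_inter {g : G} {v w : W P} (h1 : g ∈ C P v) (h2 : g ∈ C P w) : C P v ⊆ C P w := by
  intro x hx
  obtain ⟨b, hb, b', hb', rfl⟩ := C_trans P h1 hx
  exact C_mul_B P hb' (B_mul_C P hb h2)

theorem R_mul_C {r w : W P} (hr : r ∈ R P) {g h : G} (hg : g ∈ C P r) (hh : h ∈ C P w) :
    g * h ∈ C P (r * w) ∨ g * h ∈ C P w := by
  obtain ⟨s, hs, rfl⟩ := hr
  obtain ⟨⟨n, hn⟩, rfl⟩ := QuotientGroup.mk_surjective w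
  have e : mkW P s (P.subset hs) * mkW P n hn = mkW P (s * n) (P.N.mul_mem (P.subset hs) hn) := rfl
  change g * h ∈ C P (mkW P s (P.subset hs) * mkW P n hn) ∨ g * h ∈ C P (mkW P n hn)
  rw [e]
  change h ∈ C P (mkW P n hn) at hh
  rw [C_mk, DoubleCoset.mem_doubleCoset] at hg hh
  obtain ⟨x, hx, y, hy, rfl⟩ := hg
  obtain ⟨x', hx', y', hy', rfl⟩ := hh
  have key := P.mul_mem_union s hs n hn (y * x') (P.B.mul_mem hy hx')
  have e2 : x * s * y * (x' * n * y') = x * (s * (y * x') * n) * y' := by group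
  rw [e2]
  rcases key with h | h
  · left
    rw [← C_mk P (P.N.mul_mem (P.subset hs) hn)] at h
    exact C_mul_B P hy' (B_mul_C P hx h)
  · right
    rw [← C_mk P hn] at h
    exact C_mul_B P hy' (B_mul_C P hx h)

theorem C_mul_R {r w : W P} (hr : r ∈ R P) {g h : G} (hg : g ∈ C P r) (hh : h ∈ C P w) :
    h * g ∈ C P (w * r) ∨ h * g ∈ C P w := by
  have h1 := C_inv P hg
  rw [R_inv P hr] at h1
  have h2 := C_inv P hh
  rcases R_mul_C P hr h1 h2 with h | h
  · left
    have := C_inv P h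
    rwa [mul_inv_rev, mul_inv_rev, inv_inv, inv_inv, inv_inv, R_inv P hr] at this
  · right
    have := C_inv P h
    rwa [mul_inv_rev, inv_inv, inv_inv, inv_inv] at this

/-- `C (v w) ⊆ C v * C w` -/
theorem exists_C_mul (v w : W P) {x : G} (hx : x ∈ C P (v * w)) :
    ∃ g ∈ C P v, ∃ h ∈ C P w, x = g * h := by
  obtain ⟨⟨n, hn⟩, rfl⟩ := QuotientGroup.mk_surjective v
  obtain ⟨⟨m, hm⟩, rfl⟩ := QuotientGroup.mk_surjective w
  change x ∈ C P (mkW P (n * m) (P.N.mul_mem hn hm)) at hx
  rw [C_mk, DoubleCoset.mem_doubleCoset] at hx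
  obtain ⟨a, ha, b, hb, rfl⟩ := hx
  exact ⟨a * n, B_mul_C P ha (mem_C_self P hn), m * b, C_mul_B P hb (mem_C_self P hm), by group⟩

/-- uniqueness in the Bruhat decomposition -/
theorem C_inj_aux (k : ℕ) : ∀ (v w : W P), len P v ≤ k → len P v ≤ len P w → ∀ g, g ∈ C P v → g ∈ C P w → v = w := by
  induction k with
  | zero =>
    intro v w hv _ g h1 h2
    have hv1 : v = 1 := eq_one_of_len P (by omega)
    subst hv1
    rw [mem_C_one] at h1
    obtain ⟨⟨n, hn⟩, rfl⟩ := QuotientGroup.mk_surjective w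
    change g ∈ C P (mkW P n hn) at h2
    rw [C_mk, DoubleCoset.mem_doubleCoset] at h2
    obtain ⟨a, ha, b, hb, rfl⟩ := h2
    rw [eq_comm]
    rw [mkW_eq_one_iff]
    rw [P.B.mul_mem_cancel_right hb, P.B.mul_mem_cancel_left ha] at h1
    exact h1
  | succ k ih =>
    intro v w hv hvw g h1 h2
    by_cases hv1 : v = 1
    · exact ih v w (by rw [hv1, len_one]; omega) hvw g h1 h2
    obtain ⟨r, hr, hlen⟩ := exists_left_descent P hv1
    -- r * v is shorter
    obtain ⟨x, hx⟩ := C_nonempty P (r * v)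
    obtain ⟨a, ha, b, hb, hab⟩ := exists_C_mul P r v hx
    obtain ⟨c, hc, d, hd, rfl⟩ := C_trans P h1 hb
    have h3 : c * g * d ∈ C P w := C_mul_B P hd (B_mul_C P hc h2)
    rcases R_mul_C P hr ha h3 with h | h
    · rw [← hab] at h
      have h5 := le_len_R_mul P hr w
      have := ih (r * v) (r * w) (by omega) (by omega) x hx h
      exact mul_left_cancel this
    · rw [← hab] at h
      have := ih (r * v) w (by omega) (by omega) x hx h
      rw [this] at hlen
      omega

theorem C_inj {v w : W P} {g : G} (h1 : g ∈ C P v) (h2 : g ∈ C P w) : v = w := by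
  rcases le_total (len P v) (len P w) with h | h
  · exact C_inj_aux P _ v w le_rfl h g h1 h2
  · exact (C_inj_aux P _ w v le_rfl h g h2 h1).symm

/-- if `r w` is not shorter than `w`, then `C r * C w ⊆ C (r w)` -/
theorem R_mul_C_of_le (w : W P) : ∀ r ∈ R P, len P w ≤ len P (r * w) → ∀ g ∈ C P r, ∀ h ∈ C P w,
    g * h ∈ C P (r * w) := by
  induction hk : len P w generalizing w with
  | zero =>
    intro r hr _ g hg h hh
    have hw1 : w = 1 := eq_one_of_len P hk
    subst hw1
    rw [mem_C_one] at hh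
    rw [mul_one]
    exact C_mul_B P hh hg
  | succ k ih =>
    intro r hr hle g hg h hh
    rcases R_mul_C P hr hg hh with h1 | h1
    · exact h1
    exfalso
    have hw1 : w ≠ 1 := by
      rintro rfl
      rw [len_one] at hk
      omega
    obtain ⟨t, ht, hlen⟩ := exists_right_descent P hw1
    set w₁ := w * t with hw₁
    have hww : w = w₁ * t := by rw [hw₁, mul_R_cancel P ht]
    have hh' := hh
    rw [hww] at hh'
    obtain ⟨x, hx, y, hy, hxy⟩ := exists_C_mul P w₁ t hh'
    -- g * x * y ∈ C w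
    have hy' := C_inv P hy
    rw [R_inv P ht] at hy'
    have h2 : g * x = (g * h) * y⁻¹ := by rw [hxy]; group
    have h3 : len P w₁ ≤ len P (r * w₁) := by
      have : r * w₁ = r * w * t := by rw [hw₁, mul_assoc]
      rw [this]
      have := le_len_mul_R P ht (r * w)
      omega
    have h4 : g * x ∈ C P (r * w₁) := ih w₁ (by omega) r hr (by omega) g hg x hx
    rcases C_mul_R P ht hy' h1 with h5 | h5
    · rw [← h2] at h5
      have := C_inj P h4 h5
      rw [← hw₁] at this
      exact R_ne_one P hr (mul_eq_right.1 this)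
    · rw [← h2] at h5
      have := C_inj P h4 h5
      have h6 : w₁ = r * w := by rw [← this, R_mul_cancel P hr]
      rw [← h6] at hle
      omega

theorem exists_mul_mem_C_R {r : W P} (hr : r ∈ R P) : ∃ g ∈ C P r, ∃ h ∈ C P r, g * h ∈ C P r := by
  by_contra hcon
  push Not at hcon
  obtain ⟨s, hs, rfl⟩ := hr
  have hr : mkW P s (P.subset hs) ∈ R P := ⟨s, hs, rfl⟩
  have hsC := mem_C_self P (P.subset hs)
  apply P.conj_ne s hs
  have key : ∀ b ∈ P.B, s * b * s ∈ P.B := by
    intro b hb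
    rcases R_mul_C P hr (C_mul_B P hb hsC) hsC with h | h
    · rw [R_sq P hr, mem_C_one] at h
      exact h
    · exact absurd h (hcon _ (C_mul_B P hb hsC) _ hsC)
  ext x
  constructor
  · rintro ⟨b, hb, rfl⟩
    exact key b hb
  · intro hx
    refine ⟨s⁻¹ * x * s⁻¹, ?_, by group⟩
    have h1 := key x hx
    have h2 := P.sq_mem s hs
    have : s⁻¹ * x * s⁻¹ = (s * s)⁻¹ * (s * x * s) * (s * s)⁻¹ := by group
    rw [this]
    exact P.B.mul_mem (P.B.mul_mem (P.B.inv_mem h2) h1) (P.B.inv_mem h2)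

/-- if `r w` is not longer than `w`, then `C r * C w` meets `C w` -/
theorem exists_mul_mem_C_of_le {r w : W P} (hr : r ∈ R P) (hle : len P (r * w) ≤ len P w) :
    ∃ g ∈ C P r, ∃ h ∈ C P w, g * h ∈ C P w := by
  obtain ⟨a, ha, b, hb, hab⟩ := exists_mul_mem_C_R P hr
  obtain ⟨h, hh⟩ := C_nonempty P (r * w)
  have h0 : len P (r * w) ≤ len P (r * (r * w)) := by rw [R_mul_cancel P hr]; exact hle
  have h1 := R_mul_C_of_le P (r * w) r hr h0 b hb h hh
  have h2 := R_mul_C_of_le P (r * w) r hr h0 (a * b) hab h hh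
  rw [R_mul_cancel P hr] at h1 h2
  exact ⟨a, ha, b * h, h1, by rw [← mul_assoc]; exact h2⟩

/-- strong form: every element of `C r` multiplies some elements of `C w` into `C w` -/
theorem len_R_mul_ne {r w : W P} (hr : r ∈ R P) : len P (r * w) ≠ len P w := by
  intro h
  obtain ⟨a, ha, b, hb, hab⟩ := exists_mul_mem_C_of_le P hr h.le
  have h1 := R_mul_C_of_le P w r hr h.ge a ha b hb
  have := C_inj P h1 hab
  exact R_ne_one P hr (mul_eq_right.1 this)

theorem len_mul_R_ne {r w : W P} (hr : r ∈ R P) : len P (w * r) ≠ len P w := by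
  have := len_R_mul_ne P (w := w⁻¹) hr
  rwa [len_inv, ← len_inv P (r * w⁻¹), mul_inv_rev, inv_inv, R_inv P hr] at this

/-- folding -/
theorem fold {r t w : W P} (hr : r ∈ R P) (ht : t ∈ R P) (h1 : len P w < len P (r * w))
    (h2 : len P (r * (w * t)) < len P (w * t)) : r * w = w * t := by
  obtain ⟨a, ha, b, hb, hab⟩ := exists_mul_mem_C_of_le P hr h2.le
  obtain ⟨x, hx, y, hy, rfl⟩ := exists_C_mul P w t hb
  have h3 := R_mul_C_of_le P w r hr h1.le a ha x hx
  have hy' := C_inv P hy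
  rw [R_inv P ht] at hy'
  have h4 : a * x = a * (x * y) * y⁻¹ := by group
  rcases C_mul_R P ht hy' hab with h | h
  · rw [← h4, mul_R_cancel P ht] at h
    have := C_inj P h3 h
    exact absurd (mul_eq_right.1 this) (R_ne_one P hr)
  · rw [← h4] at h
    exact C_inj P h3 h

theorem exchange_aux {r : W P} (hr : r ∈ R P) (l : List (W P)) (hl : IsWord P l) : ∀ v : W P,
    len P v < len P (r * v) → len P (r * (v * l.prod)) < len P (v * l.prod) →
    ∃ j < l.length, r * (v * l.prod) = v * (l.eraseIdx j).prod := by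
  induction l with
  | nil =>
    intro v h1 h2
    rw [List.prod_nil, mul_one] at h2
    omega
  | cons t l ih =>
    intro v h1 h2
    have h3 : IsWord P l := fun x hx => hl x (List.mem_cons_of_mem _ hx)
    have ht : t ∈ R P := hl t List.mem_cons_self
    rw [List.prod_cons, ← mul_assoc v t] at h2
    by_cases h4 : len P (v * t) < len P (r * (v * t))
    · obtain ⟨j, hj, hj'⟩ := ih h3 (v * t) h4 h2
      refine ⟨j + 1, by simpa using hj, ?_⟩
      rw [List.prod_cons, ← mul_assoc v t, hj', List.eraseIdx_cons_succ, List.prod_cons, mul_assoc]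
    · have h5 : len P (r * (v * t)) < len P (v * t) := by
        have := len_R_mul_ne P (w := v * t) hr
        omega
      have h6 := fold P hr ht h1 h5
      refine ⟨0, by simp, ?_⟩
      rw [List.prod_cons, List.eraseIdx_cons_zero, ← mul_assoc v t, ← mul_assoc, ← mul_assoc, h6,
        mul_R_cancel P ht]

/-- exchange condition -/
theorem exchange {r : W P} (hr : r ∈ R P) (l : List (W P)) (hl : IsWord P l)
    (h : len P (r * l.prod) < len P l.prod) :
    ∃ j < l.length, r * l.prod = (l.eraseIdx j).prod := by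
  obtain ⟨j, hj, hj'⟩ := exchange_aux P hr l hl 1 (by rw [len_one, mul_one, len_R P hr]; omega)
    (by rwa [one_mul])
  exact ⟨j, hj, by simpa using hj'⟩

/-- Bruhat decomposition, existence -/
theorem exists_mem_C (g : G) : ∃ w : W P, g ∈ C P w := by
  -- the union of all `C w` is a subgroup containing `B` and `N`
  have hmul : ∀ (w : W P) (l : List (W P)), IsWord P l → ∀ x ∈ C P l.prod, ∀ y ∈ C P w,
      ∃ v : W P, x * y ∈ C P v := by
    intro w l
    induction l generalizing w with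
    | nil =>
      intro _ x hx y hy
      rw [List.prod_nil, mem_C_one] at hx
      exact ⟨w, B_mul_C P hx hy⟩
    | cons a l ih =>
      intro hl x hx y hy
      have h3 : IsWord P l := fun x hx => hl x (List.mem_cons_of_mem _ hx)
      have ht : a ∈ R P := hl a List.mem_cons_self
      rw [List.prod_cons] at hx
      obtain ⟨u, hu, z, hz, rfl⟩ := exists_C_mul P _ _ hx
      obtain ⟨v, hv⟩ := ih w h3 z hz y hy
      rcases R_mul_C P ht hu hv with h | h
      · exact ⟨_, by rw [mul_assoc]; exact h⟩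
      · exact ⟨_, by rw [mul_assoc]; exact h⟩
  let U : Subgroup G :=
    { carrier := {g | ∃ w : W P, g ∈ C P w}
      one_mem' := ⟨1, by rw [mem_C_one]; exact P.B.one_mem⟩
      mul_mem' := by
        rintro x y ⟨v, hv⟩ ⟨w, hw⟩
        obtain ⟨l, hl, rfl⟩ := exists_word P v
        exact hmul w l hl x hv y hw
      inv_mem' := by
        rintro x ⟨v, hv⟩
        exact ⟨v⁻¹, C_inv P hv⟩ }
  have hU : U = ⊤ := by
    rw [eq_top_iff, ← P.sup_eq_top]
    refine sup_le ?_ ?_
    · intro b hb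
      exact ⟨1, by rw [mem_C_one]; exact hb⟩
    · intro n hn
      exact ⟨_, mem_C_self P hn⟩
  have : g ∈ U := by rw [hU]; trivial
  exact this

/-- Fundamental lemma: if a subgroup contains `B` and `n B n⁻¹`, it contains all letters of a word for `n`. -/
theorem word_of_conj_le (M : Subgroup G) (hB : P.B ≤ M) (w : W P) : ∀ g ∈ C P w,
    (∀ b ∈ P.B, g * b * g⁻¹ ∈ M) → ∃ l : List (W P), IsWordJ P (P.S ∩ M) l ∧ l.prod = w := by
  induction hk : len P w generalizing w with
  | zero =>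
    intro g _ _
    exact ⟨[], by intro x hx; simp at hx, by rw [List.prod_nil, eq_one_of_len P hk]⟩
  | succ k ih =>
    intro g hg hgM
    have hw1 : w ≠ 1 := by
      rintro rfl
      rw [len_one] at hk
      omega
    obtain ⟨r, hr, hlen⟩ := exists_left_descent P hw1
    obtain ⟨a, ha, b, hb, hab⟩ := exists_mul_mem_C_of_le P (w := w) hr (by omega)
    obtain ⟨c, hc, d, hd, rfl⟩ := C_trans P hg hb
    obtain ⟨c', hc', d', hd', h1⟩ := C_trans P hg hab
    have haM : a ∈ M := by
      have : a = c' * (g * (d' * d⁻¹) * g⁻¹) * c⁻¹ := by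
        have : a = (a * (c * g * d)) * (d⁻¹ * g⁻¹ * c⁻¹) := by group
        rw [this, h1]
        group
      rw [this]
      exact M.mul_mem (M.mul_mem (hB hc') (hgM _ (P.B.mul_mem hd' (P.B.inv_mem hd)))) (M.inv_mem (hB hc))
    obtain ⟨s, hs, hsr⟩ := hr
    have hsC : s ∈ C P r := by rw [← hsr]; exact mem_C_self P _
    have hr : r ∈ R P := ⟨s, hs, hsr⟩
    have hsM : s ∈ M := by
      obtain ⟨x, hx, y, hy, rfl⟩ := C_trans P ha hsC
      exact M.mul_mem (M.mul_mem (hB hx) haM) (hB hy)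
    -- the element s * (b0 g) in C (r w) for suitable b0
    obtain ⟨x, hx⟩ := C_nonempty P (r * w)
    obtain ⟨u, hu, v, hv, huv⟩ := exists_C_mul P r w hx
    obtain ⟨p, hp, q, hq, rfl⟩ := C_trans P hsC hu
    obtain ⟨p', hp', q', hq', rfl⟩ := C_trans P hg hv
    have hx' : s * q * p' * g ∈ C P (r * w) := by
      have : s * q * p' * g = p⁻¹ * x * q'⁻¹ := by rw [huv]; group
      rw [this]
      exact C_mul_B P (P.B.inv_mem hq') (B_mul_C P (P.B.inv_mem hp) hx)
    obtain ⟨l, hl, hl'⟩ := ih (r * w) (by omega) (s * q * p' * g) hx' (by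
      intro b hb
      have : s * q * p' * g * b * (s * q * p' * g)⁻¹ = (s * q * p') * (g * b * g⁻¹) * (s * q * p')⁻¹ := by
        group
      rw [this]
      have h : s * q * p' ∈ M := M.mul_mem (M.mul_mem hsM (hB hq)) (hB hp')
      exact M.mul_mem (M.mul_mem h (hgM b hb)) (M.inv_mem h))
    refine ⟨r :: l, ?_, ?_⟩
    · intro z hz
      rcases List.mem_cons.1 hz with rfl | h
      · exact ⟨s, ⟨hs, hsM⟩, hs, hsr⟩
      · exact hl z h
    · rw [List.prod_cons, hl', R_mul_cancel P hr]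

/-- elements of `C l.prod`, `l` a `J`-word, lie in every subgroup containing `B` and `J`. -/
theorem mem_of_wordJ (M : Subgroup G) (hB : P.B ≤ M) {J : Set G} (hJM : J ⊆ M) (l : List (W P)) (hl : IsWordJ P J l) :
    ∀ g ∈ C P l.prod, g ∈ M := by
  induction l with
  | nil =>
    intro g hg
    rw [List.prod_nil, mem_C_one] at hg
    exact hB hg
  | cons a l ih =>
    intro g hg
    have h3 : IsWordJ P J l := fun x hx => hl x (List.mem_cons_of_mem _ hx)
    obtain ⟨s, hs, hsS, rfl⟩ := hl a List.mem_cons_self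
    rw [List.prod_cons] at hg
    obtain ⟨u, hu, z, hz, rfl⟩ := exists_C_mul P _ _ hg
    obtain ⟨p, hp, q, hq, rfl⟩ := C_trans P (mem_C_self P (P.subset hsS)) hu
    exact M.mul_mem (M.mul_mem (M.mul_mem (hB hp) (hJM hs)) (hB hq)) (ih h3 z hz)

/-- the subgroup `B W_J B` -/
def parW (J : Set G) : Subgroup G where
  carrier := {g | ∃ l : List (W P), IsWordJ P J l ∧ g ∈ C P l.prod}
  one_mem' := ⟨[], by intro x hx; simp at hx, by rw [List.prod_nil, mem_C_one]; exact P.B.one_mem⟩
  mul_mem' := by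
    rintro x y ⟨l, hl, hx⟩ ⟨m, hm, hy⟩
    induction l generalizing x y m with
    | nil =>
      rw [List.prod_nil, mem_C_one] at hx
      exact ⟨m, hm, B_mul_C P hx hy⟩
    | cons a l ih =>
      have h3 : IsWordJ P J l := fun x hx => hl x (List.mem_cons_of_mem _ hx)
      have ha := hl a List.mem_cons_self
      rw [List.prod_cons] at hx
      obtain ⟨u, hu, z, hz, rfl⟩ := exists_C_mul P _ _ hx
      obtain ⟨k, hk, hk'⟩ := ih h3 hz m hm hy
      rw [mul_assoc]
      rcases R_mul_C P (RJ_sub P ha) hu hk' with h | h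
      · refine ⟨a :: k, ?_, ?_⟩
        · intro z hz
          rcases List.mem_cons.1 hz with rfl | h
          · exact ha
          · exact hk z h
        · rw [List.prod_cons]; exact h
      · exact ⟨k, hk, h⟩
  inv_mem' := by
    rintro x ⟨l, hl, hx⟩
    refine ⟨l.reverse, fun z hz => hl z (List.mem_reverse.1 hz), ?_⟩
    rw [prod_reverse P (IsWordJ.isWord P hl)]
    exact C_inv P hx

theorem B_le_parW (J : Set G) : P.B ≤ parW P J :=
  fun b hb => ⟨[], by intro x hx; simp at hx, by rw [List.prod_nil, mem_C_one]; exact hb⟩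

theorem parabolic_eq {J : Set G} (hJ : J ⊆ P.S) : P.parabolic J = parW P J := by
  apply le_antisymm
  · refine sup_le (B_le_parW P J) ((Subgroup.closure_le _).2 ?_)
    intro s hs
    refine ⟨[mkW P s (P.subset (hJ hs))], ?_, by rw [List.prod_singleton]; exact mem_C_self P _⟩
    intro x hx
    rw [List.mem_singleton] at hx
    exact ⟨s, hs, hJ hs, hx.symm⟩
  · rintro g ⟨l, hl, hg⟩
    exact mem_of_wordJ P (P.parabolic J) le_sup_left
      ((Subgroup.closure_le _).1 (le_sup_right : Subgroup.closure J ≤ P.parabolic J)) l hl g hg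

/-- deletion: every `J`-word can be replaced by a reduced `J`-word -/
theorem exists_reducedJ {J : Set G} (l : List (W P)) (hl : IsWordJ P J l) :
    ∃ l' : List (W P), IsWordJ P J l' ∧ l'.prod = l.prod ∧ l'.length = len P l.prod := by
  induction l with
  | nil => exact ⟨[], hl, rfl, by rw [List.prod_nil, len_one]; rfl⟩
  | cons a l ih =>
    have h3 : IsWordJ P J l := fun x hx => hl x (List.mem_cons_of_mem _ hx)
    have ha := hl a List.mem_cons_self
    obtain ⟨m, hm, hm', hmlen⟩ := ih h3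
    by_cases h : len P l.prod < len P (a * l.prod)
    · refine ⟨a :: m, ?_, by rw [List.prod_cons, List.prod_cons, hm'], ?_⟩
      · intro z hz
        rcases List.mem_cons.1 hz with rfl | h
        · exact ha
        · exact hm z h
      · rw [List.length_cons, List.prod_cons, hmlen]
        have := len_R_mul_le P (RJ_sub P ha) l.prod
        omega
    · have h' : len P (a * m.prod) < len P m.prod := by
        rw [hm']
        have := len_R_mul_ne P (w := l.prod) (RJ_sub P ha)
        omega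
      obtain ⟨j, hj, hj'⟩ := exchange P (RJ_sub P ha) m (IsWordJ.isWord P hm) h'
      refine ⟨m.eraseIdx j, fun x hx => hm x (List.mem_of_mem_eraseIdx hx), ?_, ?_⟩
      · rw [← hj', List.prod_cons, hm']
      · rw [List.length_eraseIdx_of_lt hj, List.prod_cons, hmlen, ← hm']
        have := le_len_R_mul P (RJ_sub P ha) m.prod
        omega

/-- a distinguished generator which is a `J`-word lies in `J` -/
theorem mem_of_wordJ_R {J : Set G} {s : G} (hs : s ∈ P.S) (l : List (W P)) (hl : IsWordJ P J l)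
    (h : l.prod = mkW P s (P.subset hs)) : s ∈ J := by
  obtain ⟨m, hm, hm', hmlen⟩ := exists_reducedJ P l hl
  rw [h, len_R P ⟨s, hs, rfl⟩] at hmlen
  obtain ⟨a, rfl⟩ := List.length_eq_one_iff.1 hmlen
  obtain ⟨t, ht, htS, rfl⟩ := hm a (List.mem_singleton.2 rfl)
  rw [List.prod_singleton, h, mkW_eq_iff] at hm'
  rw [← P.inj t htS s hs hm']
  exact ht

theorem mem_parabolic_S {J : Set G} (hJ : J ⊆ P.S) {s : G} (hs : s ∈ P.S) (h : s ∈ P.parabolic J) : s ∈ J := by
  rw [parabolic_eq P hJ] at h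
  obtain ⟨l, hl, hg⟩ := h
  exact mem_of_wordJ_R P hs l hl (C_inj P hg (mem_C_self P (P.subset hs)))

theorem S_inter_parabolic {J : Set G} (hJ : J ⊆ P.S) : P.S ∩ P.parabolic J = J := by
  ext s
  constructor
  · rintro ⟨hs, h⟩
    exact mem_parabolic_S P hJ hs h
  · intro hs
    exact ⟨hJ hs, Subgroup.mem_sup_right (Subgroup.subset_closure hs)⟩

theorem parabolic_mono {J K : Set G} (h : J ⊆ K) : P.parabolic J ≤ P.parabolic K :=
  sup_le_sup_left (Subgroup.closure_mono h) _

/-- every overgroup of `B` is a standard parabolic -/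
theorem eq_parabolic (M : Subgroup G) (hM : P.B ≤ M) : M = P.parabolic (P.S ∩ M) := by
  apply le_antisymm
  · intro g hg
    obtain ⟨w, hw⟩ := exists_mem_C P g
    obtain ⟨l, hl, hl'⟩ := word_of_conj_le P M hM w g hw
      (fun b hb => M.mul_mem (M.mul_mem hg (hM hb)) (M.inv_mem hg))
    rw [parabolic_eq P Set.inter_subset_left]
    exact ⟨l, hl, by rw [hl']; exact hw⟩
  · exact sup_le hM ((Subgroup.closure_le _).2 Set.inter_subset_right)

/-- if a subgroup contains `B` and `g B g⁻¹`, it contains `g` -/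
theorem mem_of_conj_le (M : Subgroup G) (hM : P.B ≤ M) {g : G} (h : ∀ b ∈ P.B, g * b * g⁻¹ ∈ M) : g ∈ M := by
  obtain ⟨w, hw⟩ := exists_mem_C P g
  obtain ⟨l, hl, hl'⟩ := word_of_conj_le P M hM w g hw h
  rw [eq_parabolic P M hM, parabolic_eq P Set.inter_subset_left]
  exact ⟨l, hl, by rw [hl']; exact hw⟩

end Cfsg.Agent.H7.BN
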