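import Cfsg.Agent.H7.SLCard
import Cfsg.Agent.H7.SpGen
import Cfsg.Agent.H7.SLSimple

set_option autoImplicit false
set_option linter.unusedSectionVars false

namespace Cfsg.Agent.H7.GL2

open Module Matrix Cfsg Cfsg.Agent.H7.Tv

variable {F : Type*} [Field F]

/-- the determinant form -/
def df (F : Type*) [Field F] : (Fin 2 → F) →ₗ[F] (Fin 2 → F) →ₗ[F] F :=
  LinearMap.mk₂ F (fun x y => x 0 * y 1 - x 1 * y 0)
    (fun x x' y => by simp only [Pi.add_apply]; ring)
    (fun c x y => by simp only [Pi.smul_apply, smul_eq_mul]; ring)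
    (fun x y y' => by simp only [Pi.add_apply]; ring)
    (fun c x y => by simp only [Pi.smul_apply, smul_eq_mul]; ring)

theorem df_apply (x y : Fin 2 → F) : df F x y = x 0 * y 1 - x 1 * y 0 := rfl

theorem df_alt : Alt (df F) := by
  constructor
  · intro v
    rw [df_apply]
    ring
  · intro v h
    have h0 := h ![1, 0]
    have h1 := h ![0, 1]
    rw [df_apply] at h0 h1
    simp at h0 h1
    funext i
    fin_cases i
    · simpa using h1
    · simpa using h0

theorem df_ap (g : GL (Fin 2) F) (x y : Fin 2 → F) : df F (ap g x) (ap g y) = (g : Matrix (Fin 2) (Fin 2) F).det * df F x y := by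
  rw [df_apply, df_apply, Matrix.det_fin_two]
  simp only [ap_def, Matrix.mulVec, dotProduct, Fin.sum_univ_two]
  ring

/-- orthogonality is proportionality -/
theorem df_zero {v : Fin 2 → F} (hv : v ≠ 0) {x : Fin 2 → F} (h : df F v x = 0) : ∃ c : F, x = c • v := by
  rw [df_apply] at h
  by_cases h0 : v 0 = 0
  · have h1 : v 1 ≠ 0 := by
      intro h1
      apply hv
      funext i
      fin_cases i
      · exact h0
      · exact h1
    refine ⟨x 1 / v 1, ?_⟩
    rw [h0, zero_mul, zero_sub, neg_eq_zero] at h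
    funext i
    fin_cases i
    · simp [h0, (mul_eq_zero.1 h).resolve_left h1]
    · simp [h1]
  · refine ⟨x 0 / v 0, ?_⟩
    funext i
    fin_cases i
    · simp [h0]
    · simp only [Fin.mk_one, Pi.smul_apply, smul_eq_mul]
      field_simp
      linear_combination h

/-- functionals vanishing on `v` -/
theorem dual_eq {v : Fin 2 → F} (hv : v ≠ 0) (l : Dual F (Fin 2 → F)) (h : l v = 0) : ∃ c : F, l = c • df F v := by
  obtain ⟨w, hw⟩ := df_alt.exists_rep (F := F) l
  have h1 : df F v w = 0 := by rw [← hw, h]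
  obtain ⟨c, rfl⟩ := df_zero hv h1
  refine ⟨-c, LinearMap.ext (fun x => ?_)⟩
  rw [hw, LinearMap.smul_apply, map_smul, df_alt.skew x v]
  simp

theorem df_ne_zero {v : Fin 2 → F} (hv : v ≠ 0) : ∃ y, df F v y = 1 := by
  obtain ⟨w, hw⟩ := df_alt.exists_ne (F := F) hv
  exact ⟨(df F v w)⁻¹ • w, by rw [map_smul, smul_eq_mul, inv_mul_cancel₀ hw]⟩

/-- the root group of the line `⟨v⟩` -/
def Uv (v : Fin 2 → F) : Subgroup (GL (Fin 2) F) where
  carrier := {g | ∃ c : F, IsTv g v (c • df F v)}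
  mul_mem' := by
    rintro a b ⟨c, hc⟩ ⟨d, hd⟩
    refine ⟨c + d, fun x => ?_⟩
    rw [ap_mul, hd, hc]
    simp only [map_add, map_smul, LinearMap.smul_apply, df_alt.alt, LinearMap.add_apply, add_smul, smul_eq_mul, mul_zero, add_zero]
    module
  one_mem' := ⟨0, fun x => by simp⟩
  inv_mem' := by
    rintro a ⟨c, hc⟩
    refine ⟨-c, ?_⟩
    have := hc.inv (by simp [df_alt.alt])
    intro x
    rw [this]
    simp

theorem mem_Uv {v : Fin 2 → F} {g : GL (Fin 2) F} : g ∈ Uv v ↔ ∃ c : F, IsTv g v (c • df F v) := Iff.rfl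

theorem exists_Uv (v : Fin 2 → F) (c : F) : ∃ g : GL (Fin 2) F, IsTv g v (c • df F v) :=
  exists_tv (by simp [df_alt.alt])

theorem Uv_fix {v : Fin 2 → F} {g : GL (Fin 2) F} (hg : g ∈ Uv v) : ap g v = v := by
  obtain ⟨c, hc⟩ := hg
  rw [hc]
  simp [df_alt.alt]

theorem Uv_det {v : Fin 2 → F} {g : GL (Fin 2) F} (hg : g ∈ Uv v) : (g : Matrix (Fin 2) (Fin 2) F).det = 1 := by
  obtain ⟨c, hc⟩ := hg
  rw [← mem_SL_iff]
  exact hc.mem_SL (by simp [df_alt.alt])

/-- unipotent elements -/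
theorem mem_Uv_of_fix {v : Fin 2 → F} (hv : v ≠ 0) {g : GL (Fin 2) F} (hg : ap g v = v)
    (hd : (g : Matrix (Fin 2) (Fin 2) F).det = 1) : g ∈ Uv v := by
  have h1 : ∀ x, ∃ c : F, ap g x = x + c • v := by
    intro x
    have h2 : df F v (ap g x - x) = 0 := by
      rw [map_sub, sub_eq_zero]
      conv_lhs => rw [← hg]
      rw [df_ap, hd, one_mul]
    obtain ⟨c, hc⟩ := df_zero hv h2
    exact ⟨c, by rw [← hc]; abel⟩
  obtain ⟨y, hy⟩ := df_ne_zero hv
  obtain ⟨c, hc⟩ := h1 y
  refine ⟨c, fun x => ?_⟩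
  have h3 : df F v (x - df F v x • y) = 0 := by rw [map_sub, map_smul, hy]; simp
  obtain ⟨d, hd'⟩ := df_zero hv h3
  have h4 : x = df F v x • y + d • v := by rw [← hd']; abel
  have h5 : ap g x = df F v x • ap g y + d • ap g v := by
    conv_lhs => rw [h4]
    rw [ap_add, ap_smul, ap_smul]
  rw [h5, hc, hg, LinearMap.smul_apply, smul_eq_mul]
  calc df F v x • (y + c • v) + d • v = (df F v x • y + d • v) + (c * df F v x) • v := by module
    _ = x + (c * df F v x) • v := by rw [← h4]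

theorem card_Uv [Fintype F] {v : Fin 2 → F} (hv : v ≠ 0) : Nat.card (Uv v) = Fintype.card F := by
  rw [← Nat.card_eq_fintype_card]
  symm
  refine Nat.card_congr (Equiv.ofBijective (fun c => ⟨(exists_Uv v c).choose, c, (exists_Uv v c).choose_spec⟩) ⟨?_, ?_⟩)
  · intro c d h
    have h1 := congrArg Subtype.val h
    dsimp at h1
    obtain ⟨y, hy⟩ := df_ne_zero hv
    have hc := (exists_Uv v c).choose_spec y
    have hd := (exists_Uv v d).choose_spec y
    rw [h1, hd] at hc
    simp only [LinearMap.smul_apply, hy, smul_eq_mul, mul_one, add_right_inj] at hc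
    exact (smul_left_injective F hv hc).symm
  · rintro ⟨g, c, hc⟩
    refine ⟨c, Subtype.ext ?_⟩
    exact (exists_Uv v c).choose_spec.unique hc

theorem Uv_smul {v : Fin 2 → F} {a : F} (ha : a ≠ 0) : Uv (a • v) = Uv v := by
  have key : ∀ (v : Fin 2 → F) (a : F), Uv (a • v) ≤ Uv v := by
    intro v a g hg
    obtain ⟨c, hc⟩ := hg
    refine ⟨a * a * c, fun x => ?_⟩
    rw [hc]
    simp only [LinearMap.smul_apply, map_smul, smul_eq_mul]
    module
  apply le_antisymm (key v a)
  have := key (a • v) a⁻¹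
  rwa [smul_smul, inv_mul_cancel₀ ha, one_smul] at this

/-- different lines give root groups which meet trivially -/
theorem Uv_inf {v w : Fin 2 → F} (h : df F v w ≠ 0) : Uv v ⊓ Uv w = ⊥ := by
  rw [eq_bot_iff]
  rintro g ⟨hg, hg'⟩
  rw [Subgroup.mem_bot]
  have hv : v ≠ 0 := by
    rintro rfl
    simp at h
  obtain ⟨c, hc⟩ := hg
  have h1 := Uv_fix hg'
  rw [hc] at h1
  have h2 : c * df F v w = 0 := by
    have : (c • df F v) w • v = 0 := by
      have h3 : w + (c • df F v) w • v = w + 0 := by rw [h1, add_zero]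
      exact add_left_cancel h3
    exact (smul_eq_zero.1 this).resolve_right hv
  have hc0 : c = 0 := (mul_eq_zero.1 h2).resolve_right h
  apply ap_ext
  intro x
  rw [hc, hc0]
  simp

theorem fixes_of_pgroup [Fintype F] (p : ℕ) [hp : Fact p.Prime] [CharP F p] {P : Subgroup (GL (Fin 2) F)} (hP : IsPGroup p P) :
    ∃ v : Fin 2 → F, v ≠ 0 ∧ P ≤ Uv v := by
  have h1 : p ∣ Nat.card (Fin 2 → F) := by
    obtain ⟨f, hf, hq⟩ := q_eq_pow (F := F) rfl p
    rw [Nat.card_eq_fintype_card, Fintype.card_fun, Fintype.card_fin, hq, ← pow_mul]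
    exact dvd_pow_self p (by positivity)
  obtain ⟨v, hv, hv0⟩ := hP.exists_fixed_point_of_prime_dvd_card_of_fixed_point (Fin 2 → F) h1 (a := 0)
    (fun g => smul_zero _)
  refine ⟨v, hv0.symm, fun g hg => mem_Uv_of_fix hv0.symm (hv ⟨g, hg⟩) ?_⟩
  obtain ⟨k, hk⟩ := hP ⟨g, hg⟩
  have h2 : g ^ p ^ k = 1 := congrArg Subtype.val hk
  have h3 : (g : Matrix (Fin 2) (Fin 2) F).det ^ p ^ k = 1 := by
    have := congrArg (fun x : GL (Fin 2) F => (x : Matrix (Fin 2) (Fin 2) F).det) h2
    simpa using this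
  have h4 : ((g : Matrix (Fin 2) (Fin 2) F).det - 1) ^ p ^ k = 0 := by
    rw [sub_pow_char_pow, h3, one_pow, sub_self]
  exact sub_eq_zero.1 (pow_eq_zero_iff (pow_ne_zero _ hp.1.ne_zero) |>.1 h4)

theorem sylow_eq_Uv [Fintype F] (p : ℕ) [hp : Fact p.Prime] [CharP F p] (P : Sylow p (GL (Fin 2) F)) :
    ∃ v : Fin 2 → F, v ≠ 0 ∧ (P : Subgroup (GL (Fin 2) F)) = Uv v := by
  obtain ⟨v, hv, hPv⟩ := fixes_of_pgroup p P.2
  obtain ⟨f, hf, hq⟩ := q_eq_pow (F := F) rfl p
  refine ⟨v, hv, ?_⟩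
  exact (P.3 (IsPGroup.of_card (p := p) (n := f) (by rw [card_Uv hv, hq])) hPv).symm

theorem card_sylow [Fintype F] (p : ℕ) [hp : Fact p.Prime] [CharP F p] (P : Sylow p (GL (Fin 2) F)) :
    Nat.card P = Fintype.card F := by
  obtain ⟨v, hv, h⟩ := sylow_eq_Uv p P
  rw [h, card_Uv hv]

/-- the Sylow subgroup of a line -/
noncomputable def toSylow [Fintype F] (p : ℕ) [hp : Fact p.Prime] [CharP F p] (x : Projectivization F (Fin 2 → F)) :
    Sylow p (GL (Fin 2) F) :=
  Sylow.ofCard (Uv x.rep) (by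
    obtain ⟨P⟩ : Nonempty (Sylow p (GL (Fin 2) F)) := inferInstance
    rw [card_Uv x.rep_nonzero, ← card_sylow p P, Sylow.card_eq_multiplicity])

theorem card_sylow_type [Fintype F] (p : ℕ) [hp : Fact p.Prime] [CharP F p] :
    Nat.card (Sylow p (GL (Fin 2) F)) = Fintype.card F + 1 := by
  have h1 : Nat.card (Projectivization F (Fin 2 → F)) = Nat.card F + 1 :=
    Projectivization.card_of_finrank_two F (Fin 2 → F) (by simp)
  rw [← Nat.card_eq_fintype_card (α := F), ← h1]
  symm
  refine Nat.card_congr (Equiv.ofBijective (toSylow p) ⟨?_, ?_⟩)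
  · intro x y h
    have h2 : Uv x.rep = Uv y.rep := congrArg (fun P : Sylow p (GL (Fin 2) F) => (P : Subgroup (GL (Fin 2) F))) h
    by_contra hxy
    have h3 : df F x.rep y.rep ≠ 0 := by
      intro h3
      obtain ⟨c, hc⟩ := df_zero x.rep_nonzero h3
      apply hxy
      rw [← x.mk_rep, ← y.mk_rep]
      symm
      rw [Projectivization.mk_eq_mk_iff']
      exact ⟨c, hc.symm⟩
    have h4 := Uv_inf h3
    rw [← h2, inf_idem] at h4
    have h5 := card_Uv (F := F) x.rep_nonzero
    rw [h4, Subgroup.card_bot] at h5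
    exact (Fintype.one_lt_card (α := F)).ne h5
  · intro P
    obtain ⟨v, hv, h⟩ := sylow_eq_Uv p P
    refine ⟨Projectivization.mk F v hv, ?_⟩
    apply Sylow.ext
    change Uv (Projectivization.mk F v hv).rep = _
    obtain ⟨a, ha⟩ := Projectivization.exists_smul_eq_mk_rep F v hv
    rw [← ha, h]
    exact Uv_smul a.ne_zero

end Cfsg.Agent.H7.GL2

namespace Cfsg.Agent.H7.GL2

open Module Matrix Cfsg Cfsg.Agent.H7.Tv

variable {F : Type*} [Field F]

theorem ap_scalar (c : Fˣ) (x : Fin 2 → F) : ap (GeneralLinearGroup.scalar (Fin 2) c) x = (c : F) • x := by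
  rw [ap_def, GeneralLinearGroup.coe_scalar, Matrix.scalar_apply, ← Matrix.smul_one_eq_diagonal, Matrix.smul_mulVec, Matrix.one_mulVec]

/-- the centraliser of a transvection -/
theorem card_centralizer [Fintype F] {v : Fin 2 → F} (hv : v ≠ 0) {a : GL (Fin 2) F} {c : F} (ha : IsTv a v (c • df F v))
    (hc : c ≠ 0) : Nat.card (Subgroup.centralizer ({a} : Set (GL (Fin 2) F))) = (Fintype.card F - 1) * Fintype.card F := by
  classical
  have h0 : (Fintype.card F - 1) * Fintype.card F = Nat.card (Fˣ × Uv v) := by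
    rw [Nat.card_prod, card_Uv hv, Nat.card_eq_fintype_card, Fintype.card_units]
  rw [h0]
  symm
  have hcen : ∀ (l : Fˣ) (u : Uv v), GeneralLinearGroup.scalar (Fin 2) l * (u : GL (Fin 2) F) ∈ Subgroup.centralizer ({a} : Set (GL (Fin 2) F)) := by
    rintro l ⟨u, d, hd⟩
    rw [Subgroup.mem_centralizer_singleton_iff]
    apply ap_ext
    intro x
    rw [ap_mul, ap_mul, ap_mul, ap_mul, ap_scalar, ap_scalar, hd, ha, hd, ha]
    simp only [map_add, map_smul, LinearMap.smul_apply, df_alt.alt, smul_eq_mul, mul_zero, smul_add, add_zero]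
    module
  refine Nat.card_congr (Equiv.ofBijective (fun z => ⟨GeneralLinearGroup.scalar (Fin 2) z.1 * (z.2 : GL (Fin 2) F), hcen z.1 z.2⟩) ⟨?_, ?_⟩)
  · rintro ⟨l, u⟩ ⟨l', u'⟩ h
    have h1 : GeneralLinearGroup.scalar (Fin 2) l * (u : GL (Fin 2) F) = GeneralLinearGroup.scalar (Fin 2) l' * (u' : GL (Fin 2) F) :=
      congrArg Subtype.val h
    have h2 := congrArg (fun g => ap g v) h1
    rw [ap_mul, ap_mul, ap_scalar, ap_scalar, Uv_fix u.2, Uv_fix u'.2] at h2
    have h3 : l = l' := Units.ext (smul_left_injective F hv h2)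
    subst h3
    rw [Prod.mk.injEq]
    exact ⟨rfl, Subtype.ext (mul_left_cancel h1)⟩
  · rintro ⟨g, hg⟩
    rw [Subgroup.mem_centralizer_singleton_iff] at hg
    obtain ⟨y, hy⟩ := df_ne_zero hv
    have h1 : ap (a * g) y = ap (g * a) y := by rw [hg]
    rw [ap_mul, ap_mul, ha, ha] at h1
    simp only [LinearMap.smul_apply, hy, smul_eq_mul, mul_one, ap_add, ap_smul] at h1
    have h2 : ap g v = df F v (ap g y) • v := by
      have h3 := add_left_cancel h1
      rw [mul_smul] at h3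
      exact ((smul_right_injective _ hc) h3).symm
    set l := df F v (ap g y) with hl
    have hdet : (g : Matrix (Fin 2) (Fin 2) F).det = l * l := by
      have h4 := df_ap g v y
      rw [h2, hy, mul_one, map_smul, LinearMap.smul_apply, ← hl, smul_eq_mul] at h4
      exact h4.symm
    have hl0 : l ≠ 0 := by
      rintro h0
      rw [h0, mul_zero] at hdet
      exact (Matrix.isUnits_det_units g).ne_zero hdet
    let lu : Fˣ := Units.mk0 l hl0
    have hmem : GeneralLinearGroup.scalar (Fin 2) lu⁻¹ * g ∈ Uv v := by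
      apply mem_Uv_of_fix hv
      · rw [ap_mul, h2, ap_scalar, smul_smul]
        simp [lu, hl0]
      · rw [Units.val_mul, Matrix.det_mul, hdet]
        have : ((GeneralLinearGroup.scalar (Fin 2) lu⁻¹ : GL (Fin 2) F) : Matrix (Fin 2) (Fin 2) F).det = l⁻¹ * l⁻¹ := by
          rw [GeneralLinearGroup.coe_scalar, Matrix.scalar_apply, Matrix.det_diagonal]
          simp [lu, pow_two]
        rw [this]
        field_simp
    refine ⟨(lu, ⟨_, hmem⟩), Subtype.ext ?_⟩
    change GeneralLinearGroup.scalar (Fin 2) lu * (GeneralLinearGroup.scalar (Fin 2) lu⁻¹ * g) = g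
    rw [map_inv, mul_inv_cancel_left]

end Cfsg.Agent.H7.GL2
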