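import Cfsg.Agent.H3.Basic

/-! Gleason's lemma -/

set_option autoImplicit false

namespace Cfsg.Agent.H7.Gleason

open MulAction

universe u v

theorem trans {p : ℕ} (hp : p.Prime) {k : ℕ} {α : Type u} [Fintype α] {G : Type v} [Group G] [Finite G] [MulAction G α]
    (hk : 1 ≤ k) (hkn : k < Fintype.card α)
    (h : ∀ s : Finset α, s.card = k → ∃ P : Subgroup G, IsPGroup p P ∧ fixedPoints P α = (s : Set α)) :
    IsPretransitive G α := by
  classical
  haveI : Fact p.Prime := ⟨hp⟩
  rw [isPretransitive_iff]
  intro a b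
  by_contra hab
  have hbO : b ∉ orbit G a := hab
  let O : Finset α := Finset.univ.filter (fun x => x ∈ orbit G a)
  have hO : ∀ x, x ∈ O ↔ x ∈ orbit G a := fun x => by simp [O]
  have key : ∀ s : Finset α, s.card = k → Nat.card (orbit G a) ≡ (s ∩ O).card [MOD p] := by
    intro s hs
    obtain ⟨P, hP, hfix⟩ := h s hs
    have h1 := hP.card_modEq_card_fixedPoints (orbit G a)
    have h2 : Nat.card (fixedPoints P (orbit G a)) = (s ∩ O).card := by
      rw [← Set.ncard_coe_finset (s ∩ O), ← Nat.card_coe_set_eq]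
      apply Nat.card_congr
      refine ⟨fun x => ⟨x.1.1, ?_⟩, fun x => ⟨⟨x.1, ?_⟩, ?_⟩, fun x => rfl, fun x => rfl⟩
      · rw [Finset.mem_coe, Finset.mem_inter, hO]
        refine ⟨?_, x.1.2⟩
        rw [← Finset.mem_coe, ← hfix]
        intro g
        exact congrArg Subtype.val (x.2 g)
      · have := x.2
        rw [Finset.mem_coe, Finset.mem_inter, hO] at this
        exact this.2
      · have := x.2
        rw [Finset.mem_coe, Finset.mem_inter, ← Finset.mem_coe, ← hfix] at this
        intro g
        exact Subtype.ext (this.1 g)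
    rw [h2] at h1
    exact h1
  have hab' : a ≠ b := fun h => hbO (h ▸ mem_orbit_self a)
  obtain ⟨s, hs1, hs2, hs3⟩ := Finset.exists_subsuperset_card_eq (s := {a}) (t := Finset.univ.erase b) (n := k)
    (by intro x hx; rw [Finset.mem_singleton.1 hx]; exact Finset.mem_erase.2 ⟨hab', Finset.mem_univ _⟩)
    (by rw [Finset.card_singleton]; exact hk)
    (by rw [Finset.card_erase_of_mem (Finset.mem_univ _), Finset.card_univ]; omega)
  have has : a ∈ s := hs1 (Finset.mem_singleton_self a)
  have hbs : b ∉ s := fun hb => (Finset.mem_erase.1 (hs2 hb)).1 rfl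
  have k1 := key s hs3
  have k2 := key (insert b (s.erase a)) (by
    rw [Finset.card_insert_of_notMem (fun hb => hbs (Finset.mem_of_mem_erase hb)), Finset.card_erase_of_mem has, hs3]; omega)
  have e1 : insert b (s.erase a) ∩ O = (s ∩ O).erase a := by
    ext x
    simp only [Finset.mem_inter, Finset.mem_insert, Finset.mem_erase, hO]
    constructor
    · rintro ⟨rfl | ⟨h1, h2⟩, h3⟩
      · exact absurd h3 hbO
      · exact ⟨h1, h2, h3⟩
    · rintro ⟨h1, h2, h3⟩
      exact ⟨Or.inr ⟨h1, h2⟩, h3⟩
  have haO : a ∈ s ∩ O := Finset.mem_inter.2 ⟨has, (hO a).2 (mem_orbit_self a)⟩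
  rw [e1, Finset.card_erase_of_mem haO] at k2
  have h3 := k1.symm.trans k2
  have h4 : 0 < (s ∩ O).card := Finset.card_pos.2 ⟨a, haO⟩
  have h5 := (Nat.modEq_iff_dvd' (by omega)).1 h3.symm
  have h6 : (s ∩ O).card - ((s ∩ O).card - 1) = 1 := by omega
  rw [h6] at h5
  exact hp.one_lt.ne' (Nat.dvd_one.1 h5)

theorem gleason {p : ℕ} (hp : p.Prime) (k : ℕ) : ∀ {α : Type u} [Fintype α] {G : Type v} [Group G] [Finite G] [MulAction G α],
    k + 1 < Fintype.card α →
    (∀ s : Finset α, s.card = k + 1 → ∃ P : Subgroup G, IsPGroup p P ∧ fixedPoints P α = (s : Set α)) →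
    IsMultiplyPretransitive G α (k + 1) := by
  classical
  induction k with
  | zero =>
    intro α _ G _ _ _ hkn h
    rw [zero_add, is_one_pretransitive_iff]
    exact trans hp le_rfl hkn h
  | succ k ih =>
    intro α _ G _ _ _ hkn h
    haveI : IsPretransitive G α := trans hp (by omega) hkn h
    have hne : Nonempty α := Fintype.card_pos_iff.1 (by omega)
    obtain ⟨a⟩ := hne
    have hiff := SubMulAction.ofStabilizer.isMultiplyPretransitive (G := G) (α := α) (n := k + 1) (a := a)
    change IsMultiplyPretransitive G α (k + 1).succ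
    rw [hiff]
    have hmem : ∀ x : α, x ∈ SubMulAction.ofStabilizer G a ↔ x ≠ a := fun x => Iff.rfl
    refine ih ?_ ?_
    · have h1 : Fintype.card (SubMulAction.ofStabilizer G a) = Fintype.card {x : α // x ≠ a} := Fintype.card_congr (Equiv.subtypeEquivRight hmem)
      rw [h1, Fintype.card_subtype_compl, Fintype.card_subtype_eq]
      omega
    · intro s hs
      have has : a ∉ s.map ⟨Subtype.val, Subtype.val_injective⟩ := by
        rw [Finset.mem_map]
        rintro ⟨x, _, hx⟩
        exact x.2 hx
      obtain ⟨P, hP, hfix⟩ := h (insert a (s.map ⟨Subtype.val, Subtype.val_injective⟩)) (by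
        rw [Finset.card_insert_of_notMem has, Finset.card_map, hs])
      have hPa : ∀ g ∈ P, g • a = a := by
        intro g hg
        have h1 : a ∈ fixedPoints P α := by rw [hfix]; exact Finset.mem_coe.2 (Finset.mem_insert_self _ _)
        exact h1 ⟨g, hg⟩
      refine ⟨P.subgroupOf (stabilizer G a), hP.comap_subtype, ?_⟩
      ext x
      constructor
      · intro hx
        have h1 : x.1 ∈ fixedPoints P α := by
          intro g
          exact congrArg Subtype.val (hx ⟨⟨g.1, hPa g.1 g.2⟩, Subgroup.mem_subgroupOf.2 g.2⟩)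
        rw [hfix, Finset.mem_coe, Finset.mem_insert] at h1
        rcases h1 with h1 | h1
        · exact absurd h1 x.2
        · obtain ⟨y, hy, hyx⟩ := Finset.mem_map.1 h1
          have : y = x := Subtype.ext hyx
          rw [← this]; exact hy
      · intro hx g
        have h1 : x.1 ∈ fixedPoints P α := by
          rw [hfix, Finset.mem_coe, Finset.mem_insert]
          exact Or.inr (Finset.mem_map.2 ⟨x, hx, rfl⟩)
        exact Subtype.ext (h1 ⟨g.1.1, Subgroup.mem_subgroupOf.1 g.2⟩)

end Cfsg.Agent.H7.Gleason
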