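import Cfsg.Agent.H3.Basic

/-! Jordan: normal subgroups of multiply transitive groups -/

set_option autoImplicit false
set_option linter.unusedSectionVars false

namespace Cfsg.Agent.H7.JordanN

open MulAction

variable {α : Type*} [Fintype α] [DecidableEq α] {G : Subgroup (Equiv.Perm α)}

def TT (N : Subgroup G) (m : ℕ) : Prop :=
  ∀ x y : Fin m → α, Function.Injective x → Function.Injective y → ∃ n ∈ N, ∀ i, n • x i = y i

theorem mt_of_TT {N : Subgroup G} {m : ℕ} (h : TT N m) : IsMultiplyPretransitive N α m := by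
  rw [isMultiplyPretransitive_iff]
  intro x y
  obtain ⟨n, hn, h1⟩ := h x y x.injective y.injective
  refine ⟨⟨n, hn⟩, ?_⟩
  ext i
  exact h1 i

theorem two {j : ℕ} (TG : IsMultiplyPretransitive G α (j + 2)) (x : Fin j → α) (hx : Function.Injective x) {p q r s : α}
    (hp : ∀ i, x i ≠ p) (hq : ∀ i, x i ≠ q) (hpq : p ≠ q) (hr : ∀ i, x i ≠ r) (hs : ∀ i, x i ≠ s) (hrs : r ≠ s) :
    ∃ g : G, (∀ i, g • x i = x i) ∧ g • p = r ∧ g • q = s := by
  have inj : ∀ p q : α, (∀ i, x i ≠ p) → (∀ i, x i ≠ q) → p ≠ q →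
      Function.Injective (Fin.cons p (Fin.cons q x : Fin (j + 1) → α) : Fin (j + 2) → α) := by
    intro p q hp hq hpq
    rw [Fin.cons_injective_iff, Fin.cons_injective_iff]
    refine ⟨?_, ?_, hx⟩
    · rintro ⟨i, hi⟩
      induction i using Fin.cases with
      | zero => exact hpq (by simpa using hi.symm)
      | succ i => exact hp i (by simpa using hi)
    · rintro ⟨i, hi⟩
      exact hq i hi
  obtain ⟨g, hg⟩ := TG.exists_smul_eq (⟨_, inj p q hp hq hpq⟩ : Fin (j + 2) ↪ α) (⟨_, inj r s hr hs hrs⟩ : Fin (j + 2) ↪ α)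
  have hg' : ∀ i, g • ((Fin.cons p (Fin.cons q x : Fin (j + 1) → α) : Fin (j + 2) → α) i) =
      (Fin.cons r (Fin.cons s x : Fin (j + 1) → α) : Fin (j + 2) → α) i := fun i => congrArg (fun e : Fin (j + 2) ↪ α => e i) hg
  refine ⟨g, fun i => ?_, ?_, ?_⟩
  · have := hg' i.succ.succ
    rwa [Fin.cons_succ, Fin.cons_succ, Fin.cons_succ, Fin.cons_succ] at this
  · have := hg' 0
    rwa [Fin.cons_zero, Fin.cons_zero] at this
  · have := hg' (Fin.succ 0)
    rwa [Fin.cons_succ, Fin.cons_zero, Fin.cons_succ, Fin.cons_zero] at this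

theorem step {j : ℕ} (TG : IsMultiplyPretransitive G α (j + 2)) (N : Subgroup G) [hNn : N.Normal] (hN : TT N j)
    (x0 : Fin j → α) (hx0 : Function.Injective x0) (n : G) (hn : n ∈ N) (hn1 : n ≠ 1) (hfix : ∀ i, n • x0 i = x0 i) : TT N (j + 1) := by
  obtain ⟨y, hy⟩ : ∃ y, n • y ≠ y := by
    by_contra hcon
    push Not at hcon
    exact hn1 (Subtype.ext (Equiv.ext hcon))
  have hy0 : ∀ i, x0 i ≠ y := fun i h => hy (by rw [← h]; exact hfix i)
  have hy1 : ∀ i, x0 i ≠ n • y := fun i h => hy0 i (smul_left_cancel n (by rw [hfix i, h]))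
  have tr : ∀ a b, (∀ i, x0 i ≠ a) → (∀ i, x0 i ≠ b) → ∃ m ∈ N, (∀ i, m • x0 i = x0 i) ∧ m • a = b := by
    intro a b ha hb
    by_cases hab : a = b
    · exact ⟨1, one_mem _, fun i => one_smul _ _, by rw [one_smul, hab]⟩
    · obtain ⟨g, hg, hgy, hgy'⟩ := two TG x0 hx0 (p := y) (q := n • y) (r := a) (s := b) hy0 hy1 (Ne.symm hy) ha hb hab
      refine ⟨g * n * g⁻¹, hNn.conj_mem n hn g, fun i => ?_, ?_⟩
      · have h1 : g⁻¹ • x0 i = x0 i := by rw [inv_smul_eq_iff, hg]
        rw [mul_smul, mul_smul, h1, hfix, hg]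
      · have h1 : g⁻¹ • a = y := by rw [inv_smul_eq_iff, hgy]
        rw [mul_smul, mul_smul, h1, hgy']
  intro x y' hx hy'
  obtain ⟨n1, hn1, h1⟩ := hN (fun i => x i.succ) x0 (hx.comp (Fin.succ_injective _)) hx0
  obtain ⟨n2, hn2, h2⟩ := hN (fun i => y' i.succ) x0 (hy'.comp (Fin.succ_injective _)) hx0
  obtain ⟨m, hm, hmx, hmab⟩ := tr (n1 • x 0) (n2 • y' 0)
    (fun i h => Fin.succ_ne_zero i (hx (smul_left_cancel n1 ((h1 i).trans h))))
    (fun i h => Fin.succ_ne_zero i (hy' (smul_left_cancel n2 ((h2 i).trans h))))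
  refine ⟨n2⁻¹ * m * n1, mul_mem (mul_mem (inv_mem hn2) hm) hn1, fun i => ?_⟩
  induction i using Fin.cases with
  | zero => rw [mul_smul, mul_smul, inv_smul_eq_iff, hmab]
  | succ i =>
    rw [mul_smul, mul_smul, inv_smul_eq_iff]
    have e1 : n1 • x i.succ = x0 i := h1 i
    have e2 : n2 • y' i.succ = x0 i := h2 i
    rw [e1, e2, hmx]

theorem sharp_big {i : ℕ} (TG : IsMultiplyPretransitive G α (i + 2 + 2)) (hc : i + 4 < Fintype.card α) (N : Subgroup G) [hNn : N.Normal]
    (hN : TT N (i + 2)) (hsh : ∀ x : Fin (i + 2) → α, Function.Injective x → ∀ n ∈ N, (∀ t, n • x t = x t) → n = 1) : False := by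
  obtain ⟨e⟩ : Nonempty (Fin (i + 4) ↪ α) := by
    rw [Function.Embedding.nonempty_iff_card_le, Fintype.card_fin]
    exact hc.le
  let x : Fin (i + 2) → α := fun t => e ⟨t.1 + 2, by omega⟩
  have hx : Function.Injective x := by
    intro s t hst
    have h1 := congrArg Fin.val (e.injective hst)
    exact Fin.ext (Nat.add_right_cancel h1)
  let σ : Equiv.Perm (Fin (i + 2)) := Equiv.swap 0 1
  have hσσ : ∀ t, σ (σ t) = t := fun t => Equiv.swap_apply_self 0 1 t
  obtain ⟨n, hn, hnx⟩ := hN x (fun t => x (σ t)) hx (hx.comp σ.injective)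
  have hn1 : n ≠ 1 := by
    rintro rfl
    have h1 := hnx 0
    rw [one_smul] at h1
    have h2 := hx h1
    change (0 : Fin (i + 2)) = Equiv.swap 0 1 0 at h2
    rw [Equiv.swap_apply_left] at h2
    exact absurd (congrArg Fin.val h2) (by simp)
  let w : Fin (i + 2) → α := fun t => e ⟨if t.1 < 2 then t.1 else t.1 + 2, by split_ifs <;> omega⟩
  have hw : Function.Injective w := by
    intro s t hst
    have h1 := congrArg Fin.val (e.injective hst)
    change (if s.1 < 2 then s.1 else s.1 + 2) = (if t.1 < 2 then t.1 else t.1 + 2) at h1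
    apply Fin.ext
    split_ifs at h1 <;> omega
  obtain ⟨y, hyx, hy⟩ : ∃ y, (∀ t, x t ≠ y) ∧ n • y ≠ y := by
    by_contra hcon
    push Not at hcon
    have h0 : n • e ⟨0, by omega⟩ = e ⟨0, by omega⟩ := hcon _ (fun t h => by
      have h1 := congrArg Fin.val (e.injective h)
      change t.1 + 2 = 0 at h1
      omega)
    have h1 : n • e ⟨1, by omega⟩ = e ⟨1, by omega⟩ := hcon _ (fun t h => by
      have h1 := congrArg Fin.val (e.injective h)
      change t.1 + 2 = 1 at h1
      omega)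
    apply hn1
    apply hsh w hw n hn
    intro t
    by_cases ht : t.1 < 2
    · have ht' : t.1 = 0 ∨ t.1 = 1 := by omega
      rcases ht' with ht' | ht'
      · have : w t = e ⟨0, by omega⟩ := by
          change e _ = e _
          congr 1
          apply Fin.ext
          simp [ht']
        rw [this, h0]
      · have : w t = e ⟨1, by omega⟩ := by
          change e _ = e _
          congr 1
          apply Fin.ext
          simp [ht']
        rw [this, h1]
    · have h2 : w t = x t := by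
        change e _ = e _
        congr 1
        apply Fin.ext
        simp [ht]
      have h3 : σ t = t := by
        apply Equiv.swap_apply_of_ne_of_ne
        · intro h; rw [h] at ht; simp at ht
        · intro h; rw [h] at ht; simp at ht
      rw [h2, hnx, h3]
  have hyx' : ∀ t, x t ≠ n • y := by
    intro t h
    have h1 : n • x (σ t) = x t := by rw [hnx, hσσ]
    exact hyx (σ t) (smul_left_cancel n (h1.trans h))
  obtain ⟨z, hz⟩ : ∃ z, z ∉ (Finset.univ.image x ∪ {y, n • y} : Finset α) := by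
    by_contra hcon
    push Not at hcon
    have h1 : (Finset.univ : Finset α) ⊆ Finset.univ.image x ∪ {y, n • y} := fun a _ => hcon a
    have h2 := Finset.card_le_card h1
    have h3 := Finset.card_union_le (Finset.univ.image x) {y, n • y}
    have h4 := Finset.card_image_le (s := (Finset.univ : Finset (Fin (i + 2)))) (f := x)
    have h5 := Finset.card_le_two (a := y) (b := n • y)
    rw [Finset.card_univ] at h2
    rw [Finset.card_univ, Fintype.card_fin] at h4
    omega
  simp only [Finset.mem_union, Finset.mem_image, Finset.mem_univ, true_and, Finset.mem_insert, Finset.mem_singleton, not_or, not_exists] at hz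
  obtain ⟨hz1, hz2, hz3⟩ := hz
  obtain ⟨g, hg, hgy, hgy'⟩ := two TG x hx (p := y) (q := n • y) (r := y) (s := z) hyx hyx' (Ne.symm hy) hyx hz1 (Ne.symm hz2)
  have hgi : ∀ t, g⁻¹ • x t = x t := fun t => by rw [inv_smul_eq_iff, hg]
  have hcn : n⁻¹ * (g * n * g⁻¹) = 1 := by
    apply hsh x hx _ (mul_mem (inv_mem hn) (hNn.conj_mem n hn g))
    intro t
    rw [mul_smul, mul_smul, mul_smul, hgi, inv_smul_eq_iff, hnx, hg]
  have hcn' : n = g * n * g⁻¹ := inv_mul_eq_one.1 hcn
  have h1 : g⁻¹ • y = y := by rw [inv_smul_eq_iff, hgy]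
  have h2 : n • y = z := by
    nth_rewrite 1 [hcn']
    rw [mul_smul, mul_smul, h1, hgy']
  exact hz3 h2.symm

theorem sharp_sq (TG : IsMultiplyPretransitive G α (1 + 2)) (hc : 3 < Fintype.card α) (N : Subgroup G) [hNn : N.Normal]
    (hsh : ∀ x : α, ∀ n ∈ N, n • x = x → n = 1) : ∀ n ∈ N, n ^ 2 = 1 := by
  intro n hn
  by_contra hn2
  obtain ⟨x⟩ : Nonempty α := Fintype.card_pos_iff.1 (by omega)
  have hn1 : n ≠ 1 := by rintro rfl; exact hn2 (one_pow 2)
  have hxy : x ≠ n • x := fun h => hn1 (hsh x n hn h.symm)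
  have hyy : n • x ≠ n • n • x := fun h => hn1 (hsh _ n hn h.symm)
  have hxy' : x ≠ n • n • x := fun h => hn2 (hsh x (n ^ 2) (pow_mem hn 2) (by rw [pow_two, mul_smul]; exact h.symm))
  obtain ⟨z, hz⟩ : ∃ z, z ∉ ({x, n • x, n • n • x} : Finset α) := by
    by_contra hcon
    push Not at hcon
    have h1 : (Finset.univ : Finset α) ⊆ {x, n • x, n • n • x} := fun a _ => hcon a
    have h2 := Finset.card_le_card h1
    have h3 := Finset.card_le_three (a := x) (b := n • x) (c := n • n • x)
    rw [Finset.card_univ] at h2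
    omega
  simp only [Finset.mem_insert, Finset.mem_singleton, not_or] at hz
  obtain ⟨hz1, hz2, hz3⟩ := hz
  obtain ⟨g, hg, hgy, hgy'⟩ := two TG (fun _ : Fin 1 => x) (fun a b _ => Subsingleton.elim a b) (p := n • x) (q := n • n • x) (r := n • x) (s := z)
    (fun _ => hxy) (fun _ => hxy') hyy (fun _ => hxy) (fun _ => Ne.symm hz1) (Ne.symm hz2)
  have hg0 : g • x = x := hg 0
  have hgi : g⁻¹ • x = x := by rw [inv_smul_eq_iff, hg0]
  have hcn : n⁻¹ * (g * n * g⁻¹) = 1 := by
    apply hsh x _ (mul_mem (inv_mem hn) (hNn.conj_mem n hn g))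
    rw [mul_smul, mul_smul, mul_smul, hgi, inv_smul_eq_iff, hgy]
  have hcn' : n = g * n * g⁻¹ := inv_mul_eq_one.1 hcn
  have h1 : g⁻¹ • n • x = n • x := by rw [inv_smul_eq_iff, hgy]
  have h2 : n • n • x = z := by
    nth_rewrite 1 [hcn']
    rw [mul_smul, mul_smul, h1, hgy']
  exact hz3 h2.symm

theorem sharp_four (TG : IsMultiplyPretransitive G α (2 + 2)) (hc : 4 < Fintype.card α) (N : Subgroup G) [hNn : N.Normal] (hN : N ≠ ⊥)
    (hsh : ∀ x : α, ∀ n ∈ N, n • x = x → n = 1) (hsq : ∀ n ∈ N, n ^ 2 = 1) : False := by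
  obtain ⟨⟨n, hn⟩, hn1'⟩ := Subgroup.ne_bot_iff_exists_ne_one.1 hN
  have hn1 : n ≠ 1 := fun h => hn1' (Subtype.ext h)
  obtain ⟨x⟩ : Nonempty α := Fintype.card_pos_iff.1 (by omega)
  have hnn : ∀ a : α, n • n • a = a := fun a => by rw [← mul_smul, ← pow_two, hsq n hn, one_smul]
  have hmov : ∀ a : α, a ≠ n • a := fun a h => hn1 (hsh a n hn h.symm)
  obtain ⟨w, hw⟩ : ∃ z, z ∉ ({x, n • x} : Finset α) := by
    by_contra hcon
    push Not at hcon
    have h1 : (Finset.univ : Finset α) ⊆ {x, n • x} := fun a _ => hcon a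
    have h2 := Finset.card_le_card h1
    have h3 := Finset.card_le_two (a := x) (b := n • x)
    rw [Finset.card_univ] at h2
    omega
  obtain ⟨z, hz⟩ : ∃ z, z ∉ ({x, n • x, w, n • w} : Finset α) := by
    by_contra hcon
    push Not at hcon
    have h1 : (Finset.univ : Finset α) ⊆ {x, n • x, w, n • w} := fun a _ => hcon a
    have h2 := Finset.card_le_card h1
    have h3 := Finset.card_le_four (a := x) (b := n • x) (c := w) (d := n • w)
    rw [Finset.card_univ] at h2
    omega
  simp only [Finset.mem_insert, Finset.mem_singleton, not_or] at hz hw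
  obtain ⟨hz1, hz2, hz3, hz4⟩ := hz
  obtain ⟨hw1, hw2⟩ := hw
  have hxinj : Function.Injective (![x, n • x] : Fin 2 → α) := by
    intro a b hab
    fin_cases a <;> fin_cases b
    · rfl
    · exact absurd hab (hmov x)
    · exact absurd hab.symm (hmov x)
    · rfl
  have hall : ∀ a : α, a ≠ x → a ≠ n • x → ∀ t, (![x, n • x] : Fin 2 → α) t ≠ a := by
    intro a h1 h2 t
    fin_cases t
    · exact Ne.symm h1
    · exact Ne.symm h2
  have hw1' : n • w ≠ x := fun h => hw2 (by rw [← h, hnn])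
  have hw2' : n • w ≠ n • x := fun h => hw1 (smul_left_cancel n h)
  obtain ⟨g, hg, hgy, hgy'⟩ := two TG ![x, n • x] hxinj (p := w) (q := n • w) (r := w) (s := z)
    (hall w hw1 hw2) (hall _ hw1' hw2') (hmov w) (hall w hw1 hw2) (hall z hz1 hz2) (Ne.symm hz3)
  have hg0 : g • x = x := hg 0
  have hg1 : g • n • x = n • x := hg 1
  have hgi : g⁻¹ • x = x := by rw [inv_smul_eq_iff, hg0]
  have hcn : n⁻¹ * (g * n * g⁻¹) = 1 := by
    apply hsh x _ (mul_mem (inv_mem hn) (hNn.conj_mem n hn g))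
    rw [mul_smul, mul_smul, mul_smul, hgi, inv_smul_eq_iff, hg1]
  have hcn' : n = g * n * g⁻¹ := inv_mul_eq_one.1 hcn
  have h1 : g⁻¹ • w = w := by rw [inv_smul_eq_iff, hgy]
  have h2 : n • w = z := by
    nth_rewrite 1 [hcn']
    rw [mul_smul, mul_smul, h1, hgy']
  exact hz4 h2.symm

theorem main {k : ℕ} (hk : 1 < k) (hdeg : k < Fintype.card α) (hG : IsMultiplyPretransitive G α k) (N : Subgroup G) [hNn : N.Normal]
    (hN : N ≠ ⊥) : IsMultiplyPretransitive N α (k - 1) ∨ (k = 3 ∧ IsMulCommutative N ∧ ∀ n ∈ N, n ^ 2 = 1) := by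
  classical
  have TG : ∀ m, m ≤ k → IsMultiplyPretransitive G α m := fun m hm =>
    isMultiplyPretransitive_of_le (n := k) hm (by rw [Nat.card_eq_fintype_card]; exact hdeg.le)
  have key : ∀ j, j + 1 ≤ k → TT N j ∨ ∃ j', 1 ≤ j' ∧ j' + 2 ≤ k ∧ TT N j' ∧
      ∀ x : Fin j' → α, Function.Injective x → ∀ n ∈ N, (∀ t, n • x t = x t) → n = 1 := by
    intro j
    induction j with
    | zero =>
      intro _
      left
      intro x y _ _
      exact ⟨1, one_mem _, fun i => i.elim0⟩
    | succ j ih =>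
      intro hj
      rcases ih (by omega) with h1 | h1
      · by_cases hsh : ∀ x : Fin j → α, Function.Injective x → ∀ n ∈ N, (∀ t, n • x t = x t) → n = 1
        · right
          have hj1 : 1 ≤ j := by
            by_contra hcon
            have hj0 : j = 0 := by omega
            subst hj0
            apply hN
            rw [eq_bot_iff]
            intro n hn
            rw [Subgroup.mem_bot]
            exact hsh (fun i => i.elim0) (fun i => i.elim0) n hn (fun i => i.elim0)
          exact ⟨j, hj1, by omega, h1, hsh⟩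
        · left
          push Not at hsh
          obtain ⟨x0, hx0, n, hn, hfix, hn1⟩ := hsh
          exact step (TG (j + 2) (by omega)) N h1 x0 hx0 n hn hn1 hfix
      · exact Or.inr h1
  rcases key (k - 1) (by omega) with h1 | ⟨j', hj1, hj2, hT, hsh⟩
  · exact Or.inl (mt_of_TT h1)
  · right
    rcases Nat.lt_or_ge j' 2 with h2 | h2
    · have hj' : j' = 1 := by omega
      subst hj'
      have hsh1 : ∀ x : α, ∀ n ∈ N, n • x = x → n = 1 := fun x n hn h =>
        hsh (fun _ => x) (fun a b _ => Subsingleton.elim a b) n hn (fun _ => h)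
      have hsq := sharp_sq (TG 3 (by omega)) (by omega) N hsh1
      have hk3 : k = 3 := by
        by_contra hcon
        exact sharp_four (TG 4 (by omega)) (by omega) N hN hsh1 hsq
      refine ⟨hk3, ⟨⟨fun a b => ?_⟩⟩, hsq⟩
      apply Subtype.ext
      have ha : a.1⁻¹ = a.1 := by rw [inv_eq_iff_mul_eq_one, ← pow_two]; exact hsq _ a.2
      have hb : b.1⁻¹ = b.1 := by rw [inv_eq_iff_mul_eq_one, ← pow_two]; exact hsq _ b.2
      have hab : (a.1 * b.1)⁻¹ = a.1 * b.1 := by rw [inv_eq_iff_mul_eq_one, ← pow_two]; exact hsq _ (mul_mem a.2 b.2)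
      change a.1 * b.1 = b.1 * a.1
      rw [← hab, mul_inv_rev, ha, hb]
    · exfalso
      obtain ⟨i, rfl⟩ : ∃ i, j' = i + 2 := ⟨j' - 2, by omega⟩
      exact sharp_big (TG (i + 2 + 2) (by omega)) (by omega) N hT hsh

end Cfsg.Agent.H7.JordanN
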