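import Cfsg.Agent.H3.Basic

/-! Regular normal subgroups of doubly/triply primitive groups -/

set_option autoImplicit false

namespace Cfsg.Agent.H7.RegN

open MulAction
open scoped Pointwise

variable {G : Type*} [Group G] {X : Type*} [MulAction G X]

theorem twoBlock (s : Set X) (h : IsPreprimitive (fixingSubgroup G s) (SubMulAction.ofFixingSubgroup G s)) (b c : X)
    (hbc : b ≠ c) (hb : b ∉ s) (hc : c ∉ s)
    (hblock : ∀ g ∈ fixingSubgroup G s, (g • b = b ∨ g • b = c ∨ g • c = b ∨ g • c = c) →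
      (g • b = b ∧ g • c = c) ∨ (g • b = c ∧ g • c = b)) : ∀ x, x ∉ s → x = b ∨ x = c := by
  classical
  let b' : SubMulAction.ofFixingSubgroup G s := ⟨b, hb⟩
  let c' : SubMulAction.ofFixingSubgroup G s := ⟨c, hc⟩
  have hB : IsBlock (fixingSubgroup G s) ({b', c'} : Set (SubMulAction.ofFixingSubgroup G s)) := by
    rw [isBlock_iff_smul_eq_of_mem]
    intro g a ha hga
    have h1 : (g.1 • b = b ∨ g.1 • b = c ∨ g.1 • c = b ∨ g.1 • c = c) := by
      rcases ha with rfl | ha
      · rcases hga with h2 | h2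
        · exact Or.inl (congrArg Subtype.val h2)
        · exact Or.inr (Or.inl (congrArg Subtype.val (Set.mem_singleton_iff.1 h2)))
      · rw [Set.mem_singleton_iff.1 ha] at hga
        rcases hga with h2 | h2
        · exact Or.inr (Or.inr (Or.inl (congrArg Subtype.val h2)))
        · exact Or.inr (Or.inr (Or.inr (congrArg Subtype.val (Set.mem_singleton_iff.1 h2))))
    rw [Set.smul_set_insert, Set.smul_set_singleton]
    rcases hblock g.1 g.2 h1 with ⟨h2, h3⟩ | ⟨h2, h3⟩
    · have e1 : g • b' = b' := Subtype.ext h2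
      have e2 : g • c' = c' := Subtype.ext h3
      rw [e1, e2]
    · have e1 : g • b' = c' := Subtype.ext h2
      have e2 : g • c' = b' := Subtype.ext h3
      rw [e1, e2, Set.pair_comm]
  intro x hx
  rcases h.isTrivialBlock_of_isBlock hB with h1 | h1
  · exfalso
    exact hbc (congrArg Subtype.val (h1 (Set.mem_insert b' {c'}) (Set.mem_insert_of_mem b' (Set.mem_singleton c'))))
  · have h2 : (⟨x, hx⟩ : SubMulAction.ofFixingSubgroup G s) ∈ ({b', c'} : Set (SubMulAction.ofFixingSubgroup G s)) := by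
      rw [h1]; trivial
    rcases h2 with h2 | h2
    · exact Or.inl (congrArg Subtype.val h2)
    · exact Or.inr (congrArg Subtype.val (Set.mem_singleton_iff.1 h2))

theorem reg_inj (N : Subgroup G) (hreg : ∀ x : X, stabilizer N x = ⊥) (x0 : X) {n m : G} (hn : n ∈ N) (hm : m ∈ N)
    (h : n • x0 = m • x0) : n = m := by
  have h1 : (⟨m⁻¹ * n, mul_mem (inv_mem hm) hn⟩ : N) ∈ stabilizer N x0 := by
    rw [mem_stabilizer_iff]
    change (m⁻¹ * n) • x0 = x0
    rw [mul_smul, h, inv_smul_smul]
  rw [hreg, Subgroup.mem_bot] at h1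
  have h2 : m⁻¹ * n = 1 := congrArg Subtype.val h1
  exact (inv_mul_eq_one.1 h2).symm

theorem main2 [Fintype X] (hX : 2 ≤ Fintype.card X) (h2 : IsMultiplyPreprimitive G X 2) (N : Subgroup G) [N.Normal]
    (htrans : IsPretransitive N X) (hreg : ∀ x : X, stabilizer N x = ⊥) :
    Fintype.card X = 3 ∨ (∀ n ∈ N, n ^ 2 = 1) := by
  classical
  obtain ⟨x0⟩ : Nonempty X := Fintype.card_pos_iff.1 (by omega)
  by_cases hall : ∀ n ∈ N, n ^ 2 = 1
  · exact Or.inr hall
  left
  push Not at hall
  obtain ⟨n, hn, hn2⟩ := hall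
  have hn1 : n ≠ 1 := by rintro rfl; exact hn2 (one_pow 2)
  have hninv : n ≠ n⁻¹ := by
    intro h
    apply hn2
    rw [pow_two]
    nth_rewrite 2 [h]
    exact mul_inv_cancel n
  have hconj : ∀ g ∈ fixingSubgroup G ({x0} : Set X), ∀ m : G, g • m • x0 = (g * m * g⁻¹) • x0 := by
    intro g hg m
    have h1 : g • x0 = x0 := (mem_fixingSubgroup_iff G).1 hg x0 rfl
    have h3 : g⁻¹ • x0 = x0 := by rw [inv_smul_eq_iff, h1]
    rw [mul_smul, mul_smul, h3]
  have hprim := h2.isPreprimitive_ofFixingSubgroup (M := G) (n := 2) (s := {x0}) (by rw [Set.encard_singleton]; norm_num)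
  have hne : ∀ m ∈ N, m ≠ 1 → m • x0 ≠ x0 := by
    intro m hm hm1 h
    exact hm1 (reg_inj N hreg x0 hm (one_mem N) (by rw [h, one_smul]))
  have key := twoBlock ({x0} : Set X) hprim (n • x0) (n⁻¹ • x0)
    (fun h => hninv (reg_inj N hreg x0 hn (inv_mem hn) h))
    (fun h => hne n hn hn1 h)
    (fun h => hne n⁻¹ (inv_mem hn) (inv_ne_one.2 hn1) h)
    (by
      intro g hg h
      rw [hconj g hg, hconj g hg] at h ⊢
      have hgn : g * n * g⁻¹ ∈ N := (inferInstance : N.Normal).conj_mem n hn g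
      have hgn' : g * n⁻¹ * g⁻¹ ∈ N := (inferInstance : N.Normal).conj_mem _ (inv_mem hn) g
      have e1 : g * n⁻¹ * g⁻¹ = (g * n * g⁻¹)⁻¹ := by group
      rcases h with h | h | h | h
      · have h3 := reg_inj N hreg x0 hgn hn h
        left
        rw [e1, h3]; exact ⟨rfl, rfl⟩
      · have h3 := reg_inj N hreg x0 hgn (inv_mem hn) h
        right
        rw [e1, h3, inv_inv]; exact ⟨rfl, rfl⟩
      · have h3 := reg_inj N hreg x0 hgn' hn h
        rw [e1, inv_eq_iff_eq_inv] at h3
        right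
        rw [e1, h3, inv_inv]; exact ⟨rfl, rfl⟩
      · have h3 := reg_inj N hreg x0 hgn' (inv_mem hn) h
        rw [e1, inv_inj] at h3
        left
        rw [e1, h3]; exact ⟨rfl, rfl⟩)
  have huniv : (Finset.univ : Finset X) = {x0, n • x0, n⁻¹ • x0} := by
    ext x
    simp only [Finset.mem_univ, Finset.mem_insert, Finset.mem_singleton, true_iff]
    by_cases hx : x = x0
    · exact Or.inl hx
    · exact Or.inr (key x (fun h => hx h))
  rw [← Finset.card_univ, huniv]
  rw [Finset.card_insert_of_notMem, Finset.card_insert_of_notMem, Finset.card_singleton]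
  · rw [Finset.mem_singleton]
    exact fun h => hninv (reg_inj N hreg x0 hn (inv_mem hn) h)
  · rw [Finset.mem_insert, Finset.mem_singleton]
    rintro (h | h)
    · exact hne n hn hn1 h.symm
    · exact hne n⁻¹ (inv_mem hn) (inv_ne_one.2 hn1) h.symm

theorem comm_of_sq {N : Subgroup G} (h : ∀ n ∈ N, n ^ 2 = 1) : ∀ a ∈ N, ∀ b ∈ N, a * b = b * a := by
  intro a ha b hb
  have h1 := h _ (mul_mem ha hb)
  have ha' : a⁻¹ = a := by
    rw [inv_eq_iff_mul_eq_one, ← pow_two]; exact h a ha
  have hb' : b⁻¹ = b := by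
    rw [inv_eq_iff_mul_eq_one, ← pow_two]; exact h b hb
  have h3 : (a * b)⁻¹ = a * b := by
    rw [inv_eq_iff_mul_eq_one, ← pow_two]; exact h1
  rw [← h3, mul_inv_rev, ha', hb']

theorem main3 [Fintype X] (hX : 3 ≤ Fintype.card X) (h3 : IsMultiplyPreprimitive G X 3) (N : Subgroup G) [N.Normal]
    (htrans : IsPretransitive N X) (hreg : ∀ x : X, stabilizer N x = ⊥) :
    Fintype.card X = 3 ∨ Fintype.card X = 4 := by
  classical
  have h2 : IsMultiplyPreprimitive G X 2 := isMultiplyPreprimitive_of_le G X h3 (by norm_num) (by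
    rw [ENat.card_eq_coe_fintype_card]; exact_mod_cast hX)
  rcases main2 (by omega) h2 N htrans hreg with h4 | hsq
  · exact Or.inl h4
  by_cases hX3 : Fintype.card X = 3
  · exact Or.inl hX3
  right
  obtain ⟨x0⟩ : Nonempty X := Fintype.card_pos_iff.1 (by omega)
  have hcomm := comm_of_sq hsq
  obtain ⟨y1, hy1⟩ : ∃ y, y ≠ x0 := by
    haveI : Nontrivial X := Fintype.one_lt_card_iff_nontrivial.1 (by omega)
    exact exists_ne x0
  obtain ⟨y2, hy2⟩ : ∃ y, y ∉ ({x0, y1} : Finset X) := by
    by_contra hcon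
    push Not at hcon
    have h5 : (Finset.univ : Finset X) ⊆ {x0, y1} := fun y _ => hcon y
    have h6 := Finset.card_le_card h5
    rw [Finset.card_univ] at h6
    have h7 := Finset.card_le_two (a := x0) (b := y1)
    omega
  rw [Finset.mem_insert, Finset.mem_singleton, not_or] at hy2
  obtain ⟨⟨n, hn⟩, hny⟩ := htrans.exists_smul_eq x0 y1
  obtain ⟨⟨m, hm⟩, hmy⟩ := htrans.exists_smul_eq x0 y2
  have hny' : n • x0 = y1 := hny
  have hmy' : m • x0 = y2 := hmy
  have hn1 : n ≠ 1 := by
    rintro rfl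
    rw [one_smul] at hny'
    exact hy1 hny'.symm
  have hm1 : m ≠ 1 := by
    rintro rfl
    rw [one_smul] at hmy'
    exact hy2.1 hmy'.symm
  have hmn : m ≠ n := by
    rintro rfl
    exact hy2.2 (hmy'.symm.trans hny')
  have hnn : n * n = 1 := by rw [← pow_two]; exact hsq n hn
  have hmnn : m * n * n = m := by rw [mul_assoc, hnn, mul_one]
  have hinj := fun {a b : G} (ha : a ∈ N) (hb : b ∈ N) (h : a • x0 = b • x0) => reg_inj N hreg x0 ha hb h
  have hne : ∀ a ∈ N, a ≠ 1 → a • x0 ≠ x0 := by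
    intro a ha ha1 h
    exact ha1 (hinj ha (one_mem N) (by rw [h, one_smul]))
  have hne2 : ∀ a ∈ N, a ≠ 1 → a ≠ n → a • x0 ∉ ({x0, n • x0} : Set X) := by
    intro a ha ha1 han h
    rcases h with h | h
    · exact hne a ha ha1 h
    · exact han (hinj ha hn h)
  have hmnN := mul_mem hm hn
  have hmn1 : m * n ≠ 1 := by
    intro h
    apply hmn
    have : m * n = n * n := by rw [h, hnn]
    exact mul_right_cancel this
  have hmnn' : m * n ≠ n := by
    intro h
    exact hm1 (mul_eq_right.1 h)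
  have hprim := h3.isPreprimitive_ofFixingSubgroup (M := G) (n := 3) (s := {x0, n • x0}) (by
    rw [Set.encard_pair (fun h => hne n hn hn1 h.symm)]; norm_num)
  have key := twoBlock ({x0, n • x0} : Set X) hprim (m • x0) ((m * n) • x0)
    (fun h => hn1 (by
      have := hinj hm hmnN h
      exact (mul_eq_left.1 this.symm)))
    (hne2 m hm hm1 hmn) (hne2 _ hmnN hmn1 hmnn')
    (by
      intro g hg h
      have h1 : g • x0 = x0 := (mem_fixingSubgroup_iff G).1 hg x0 (Set.mem_insert _ _)
      have h3 : g⁻¹ • x0 = x0 := by rw [inv_smul_eq_iff, h1]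
      have hconj : ∀ a : G, g • a • x0 = (g * a * g⁻¹) • x0 := by
        intro a
        rw [mul_smul, mul_smul, h3]
      have h4 : g • n • x0 = n • x0 := (mem_fixingSubgroup_iff G).1 hg _ (Set.mem_insert_of_mem _ rfl)
      rw [hconj] at h4
      have hN : ∀ a ∈ N, g * a * g⁻¹ ∈ N := fun a ha => (inferInstance : N.Normal).conj_mem a ha g
      have h5 := hinj (hN n hn) hn h4
      have h6 : g * (m * n) * g⁻¹ = g * m * g⁻¹ * n := by
        calc g * (m * n) * g⁻¹ = (g * m * g⁻¹) * (g * n * g⁻¹) := by group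
          _ = _ := by rw [h5]
      rw [hconj, hconj, h6] at h ⊢
      have hgm := hN m hm
      have hgmn := mul_mem hgm hn
      rcases h with h | h | h | h
      · have h7 := hinj hgm hm h
        left
        rw [h7]; exact ⟨rfl, rfl⟩
      · have h7 := hinj hgm hmnN h
        right
        rw [h7, hmnn]; exact ⟨rfl, rfl⟩
      · have h7 := hinj hgmn hm h
        right
        have h8 : g * m * g⁻¹ = m * n := by
          calc g * m * g⁻¹ = g * m * g⁻¹ * n * n := by rw [mul_assoc _ n n, hnn, mul_one]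
            _ = _ := by rw [h7]
        rw [h8, hmnn]; exact ⟨rfl, rfl⟩
      · have h7 := hinj hgmn hmnN h
        left
        rw [mul_right_cancel h7]; exact ⟨rfl, rfl⟩)
  have huniv : (Finset.univ : Finset X) = {x0, n • x0, m • x0, (m * n) • x0} := by
    ext x
    simp only [Finset.mem_univ, Finset.mem_insert, Finset.mem_singleton, true_iff]
    by_cases hx : x ∈ ({x0, n • x0} : Set X)
    · rcases hx with hx | hx
      · exact Or.inl hx
      · exact Or.inr (Or.inl hx)
    · exact Or.inr (Or.inr (key x hx))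
  have hle : Fintype.card X ≤ 4 := by
    rw [← Finset.card_univ, huniv]
    exact Finset.card_le_four
  omega

end Cfsg.Agent.H7.RegN
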