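import Cfsg.Agent.H7.JordanN
import Cfsg.Agent.H7.RegN

/-! normal subgroups of multiply primitive groups -/

set_option autoImplicit false
set_option linter.unusedSectionVars false

namespace Cfsg.Agent.H7.JordanN

open MulAction

variable {α : Type*} [Fintype α] [DecidableEq α] {G : Subgroup (Equiv.Perm α)}

theorem step' {j : ℕ} (N : Subgroup G) (hN : TT N j)
    (x0 : Fin j → α) (hx0 : Function.Injective x0)
    (tr : ∀ a b, (∀ i, x0 i ≠ a) → (∀ i, x0 i ≠ b) → ∃ m ∈ N, (∀ i, m • x0 i = x0 i) ∧ m • a = b) : TT N (j + 1) := by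
  intro x y' hx hy'
  obtain ⟨n1, hn1, h1⟩ := hN (fun i => x i.succ) x0 (hx.comp (Fin.succ_injective _)) hx0
  obtain ⟨n2, hn2, h2⟩ := hN (fun i => y' i.succ) x0 (hy'.comp (Fin.succ_injective _)) hx0
  obtain ⟨m, hm, hmx, hmab⟩ := tr (n1 • x 0) (n2 • y' 0)
    (fun i h => Fin.succ_ne_zero i (hx (smul_left_cancel n1 ((h1 i).trans h))))
    (fun i h => Fin.succ_ne_zero i (hy' (smul_left_cancel n2 ((h2 i).trans h))))
  refine ⟨n2⁻¹ * m * n1, mul_mem (mul_mem (inv_mem hn2) hm) hn1, fun i => ?_⟩
  induction i using Fin.cases with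
  | zero => rw [mul_smul, mul_smul, inv_smul_eq_iff, hmab]
  | succ i =>
    rw [mul_smul, mul_smul, inv_smul_eq_iff]
    have e1 : n1 • x i.succ = x0 i := h1 i
    have e2 : n2 • y' i.succ = x0 i := h2 i
    rw [e1, e2, hmx]

theorem swapper {i : ℕ} (hc : i + 4 ≤ Fintype.card α) (N : Subgroup G)
    (hN : TT N (i + 2)) (hsh : ∀ x : Fin (i + 2) → α, Function.Injective x → ∀ n ∈ N, (∀ t, n • x t = x t) → n = 1) :
    ∃ (x : Fin (i + 2) → α) (n : G) (σ : Equiv.Perm (Fin (i + 2))) (y : α), Function.Injective x ∧ n ∈ N ∧ (∀ t, n • x t = x (σ t)) ∧ (∀ t, σ (σ t) = t) ∧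
      (∀ t, x t ≠ y) ∧ n • y ≠ y := by
  obtain ⟨e⟩ : Nonempty (Fin (i + 4) ↪ α) := by
    rw [Function.Embedding.nonempty_iff_card_le, Fintype.card_fin]
    exact hc
  let x : Fin (i + 2) → α := fun t => e ⟨t.1 + 2, by omega⟩
  have hx : Function.Injective x := by
    intro s t hst
    have h1 := congrArg Fin.val (e.injective hst)
    exact Fin.ext (Nat.add_right_cancel h1)
  let σ : Equiv.Perm (Fin (i + 2)) := Equiv.swap 0 1
  have hσσ : ∀ t, σ (σ t) = t := fun t => Equiv.swap_apply_self 0 1 t
  obtain ⟨n, hn, hnx⟩ := hN x (fun t => x (σ t)) hx (hx.comp σ.injective)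
  have hn1 : n ≠ 1 := by
    rintro rfl
    have h1 := hnx 0
    rw [one_smul] at h1
    have h2 := hx h1
    change (0 : Fin (i + 2)) = Equiv.swap 0 1 0 at h2
    rw [Equiv.swap_apply_left] at h2
    exact absurd (congrArg Fin.val h2) (by simp)
  let w : Fin (i + 2) → α := fun t => e ⟨if t.1 < 2 then t.1 else t.1 + 2, by split_ifs <;> omega⟩
  have hw : Function.Injective w := by
    intro s t hst
    have h1 := congrArg Fin.val (e.injective hst)
    change (if s.1 < 2 then s.1 else s.1 + 2) = (if t.1 < 2 then t.1 else t.1 + 2) at h1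
    apply Fin.ext
    split_ifs at h1 <;> omega
  obtain ⟨y, hyx, hy⟩ : ∃ y, (∀ t, x t ≠ y) ∧ n • y ≠ y := by
    by_contra hcon
    push Not at hcon
    have h0 : n • e ⟨0, by omega⟩ = e ⟨0, by omega⟩ := hcon _ (fun t h => by
      have h1 := congrArg Fin.val (e.injective h)
      change t.1 + 2 = 0 at h1
      omega)
    have h1 : n • e ⟨1, by omega⟩ = e ⟨1, by omega⟩ := hcon _ (fun t h => by
      have h1 := congrArg Fin.val (e.injective h)
      change t.1 + 2 = 1 at h1
      omega)
    apply hn1
    apply hsh w hw n hn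
    intro t
    by_cases ht : t.1 < 2
    · have ht' : t.1 = 0 ∨ t.1 = 1 := by omega
      rcases ht' with ht' | ht'
      · have : w t = e ⟨0, by omega⟩ := by
          change e _ = e _
          congr 1
          apply Fin.ext
          simp [ht']
        rw [this, h0]
      · have : w t = e ⟨1, by omega⟩ := by
          change e _ = e _
          congr 1
          apply Fin.ext
          simp [ht']
        rw [this, h1]
    · have h2 : w t = x t := by
        change e _ = e _
        congr 1
        apply Fin.ext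
        simp [ht]
      have h3 : σ t = t := by
        apply Equiv.swap_apply_of_ne_of_ne
        · intro h; rw [h] at ht; simp at ht
        · intro h; rw [h] at ht; simp at ht
      rw [h2, hnx, h3]
  exact ⟨x, n, σ, y, hx, hn, hnx, hσσ, hyx, hy⟩

theorem mainP {k : ℕ} (hk : 1 ≤ k) (hkn : k ≤ Fintype.card α) (hG : IsMultiplyPreprimitive G α k) (htop : G ≠ ⊤) (N : Subgroup G) [hNn : N.Normal]
    (hN : N ≠ ⊥) (hnr : ∃ a : α, stabilizer N a ≠ ⊥) : IsMultiplyPretransitive N α k := by
  classical
  have hGk : IsMultiplyPretransitive G α k := hG.isMultiplyPretransitive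
  have TG : ∀ m, m ≤ k → IsMultiplyPretransitive G α m := fun m hm =>
    isMultiplyPretransitive_of_le (n := k) hm (by rw [Nat.card_eq_fintype_card]; exact hkn)
  have hcard : k + 2 ≤ Fintype.card α := by
    by_contra hcon
    apply htop
    apply Equiv.Perm.eq_top_of_isMultiplyPretransitive
    exact isMultiplyPretransitive_of_le (n := k) (by rw [Nat.card_eq_fintype_card]; omega) (by rw [Nat.card_eq_fintype_card]; exact hkn) |> fun h => h
  have hnreg : ¬ ∀ x : α, ∀ n ∈ N, n • x = x → n = 1 := by
    intro h
    obtain ⟨a, ha⟩ := hnr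
    apply ha
    rw [eq_bot_iff]
    intro n hn
    rw [Subgroup.mem_bot]
    exact Subtype.ext (h a n.1 n.2 hn)
  have key : ∀ j, j + 1 ≤ k → TT N j := by
    intro j
    induction j with
    | zero =>
      intro _ x y _ _
      exact ⟨1, one_mem _, fun i => i.elim0⟩
    | succ j ih =>
      intro hj
      have h1 := ih (by omega)
      by_cases hsh : ∀ x : Fin j → α, Function.Injective x → ∀ n ∈ N, (∀ t, n • x t = x t) → n = 1
      · exfalso
        rcases Nat.lt_or_ge j 2 with h2 | h2
        · have h3 : j = 0 ∨ j = 1 := by omega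
          rcases h3 with rfl | rfl
          · apply hN
            rw [eq_bot_iff]
            intro n hn
            rw [Subgroup.mem_bot]
            exact hsh (fun i => i.elim0) (fun i => i.elim0) n hn (fun i => i.elim0)
          · exact hnreg (fun x n hn h => hsh (fun _ => x) (fun a b _ => Subsingleton.elim a b) n hn (fun _ => h))
        · obtain ⟨i, rfl⟩ : ∃ i, j = i + 2 := ⟨j - 2, by omega⟩
          exact sharp_big (TG (i + 2 + 2) (by omega)) (by omega) N h1 hsh
      · push Not at hsh
        obtain ⟨x0, hx0, n, hn, hfix, hn1⟩ := hsh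
        exact step (TG (j + 2) (by omega)) N h1 x0 hx0 n hn hn1 hfix
  obtain ⟨j, rfl⟩ : ∃ j, k = j + 1 := ⟨k - 1, by omega⟩
  have hT := key j le_rfl
  have hprim : ∀ x : Fin j → α, Function.Injective x → IsPreprimitive (fixingSubgroup G (Set.range x)) (SubMulAction.ofFixingSubgroup G (Set.range x)) := by
    intro x hx
    apply hG.isPreprimitive_ofFixingSubgroup
    rw [← Set.image_univ, hx.encard_image, Set.encard_univ, ENat.card_eq_coe_fintype_card, Fintype.card_fin]
    norm_cast
  by_cases hsh : ∀ x : Fin j → α, Function.Injective x → ∀ n ∈ N, (∀ t, n • x t = x t) → n = 1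
  · exfalso
    rcases Nat.lt_or_ge j 2 with h2 | h2
    · have h3 : j = 0 ∨ j = 1 := by omega
      rcases h3 with rfl | rfl
      · apply hN
        rw [eq_bot_iff]
        intro n hn
        rw [Subgroup.mem_bot]
        exact hsh (fun i => i.elim0) (fun i => i.elim0) n hn (fun i => i.elim0)
      · exact hnreg (fun x n hn h => hsh (fun _ => x) (fun a b _ => Subsingleton.elim a b) n hn (fun _ => h))
    · obtain ⟨i, rfl⟩ : ∃ i, j = i + 2 := ⟨j - 2, by omega⟩
      obtain ⟨x, n, σ, y, hx, hn, hnx, hσσ, hyx, hy⟩ := swapper (i := i) (by omega) N hT hsh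
      have hyx' : ∀ t, x t ≠ n • y := by
        intro t h
        have h1 : n • x (σ t) = x t := by rw [hnx, hσσ]
        exact hyx (σ t) (smul_left_cancel n (h1.trans h))
      have hn2 : n * n = 1 := by
        apply hsh x hx _ (mul_mem hn hn)
        intro t
        rw [mul_smul, hnx, hnx, hσσ]
      have hcomm : ∀ g ∈ fixingSubgroup G (Set.range x), ∀ a : α, g • n • a = n • g • a := by
        intro g hg a
        have hgx : ∀ t, g • x t = x t := fun t => (mem_fixingSubgroup_iff G).1 hg _ ⟨t, rfl⟩
        have hgi : ∀ t, g⁻¹ • x t = x t := fun t => by rw [inv_smul_eq_iff, hgx]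
        have hcn : n⁻¹ * (g * n * g⁻¹) = 1 := by
          apply hsh x hx _ (mul_mem (inv_mem hn) (hNn.conj_mem n hn g))
          intro t
          rw [mul_smul, mul_smul, mul_smul, hgi, inv_smul_eq_iff, hnx, hgx]
        have hcn' : n = g * n * g⁻¹ := inv_mul_eq_one.1 hcn
        nth_rewrite 2 [hcn']
        rw [mul_smul, mul_smul, inv_smul_smul]
      have hnny : n • n • y = y := by rw [← mul_smul, hn2, one_smul]
      have h1 := Cfsg.Agent.H7.RegN.twoBlock (Set.range x) (hprim x hx) y (n • y) (Ne.symm hy)
        (by rintro ⟨t, ht⟩; exact hyx t ht) (by rintro ⟨t, ht⟩; exact hyx' t ht)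
        (by
          intro g hg h
          have hc := hcomm g hg y
          rcases h with h | h | h | h
          · left; exact ⟨h, by rw [hc, h]⟩
          · right; exact ⟨h, by rw [hc, h, hnny]⟩
          · right
            rw [hc] at h
            have h2 : g • y = n • y := by
              have h3 : n • n • g • y = n • y := by rw [h]
              rwa [← mul_smul, hn2, one_smul] at h3
            exact ⟨h2, by rw [hc, h2, hnny]⟩
          · left
            rw [hc] at h
            have h2 := smul_left_cancel n h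
            exact ⟨h2, by rw [hc, h2]⟩)
      have h3 : (Finset.univ : Finset α) ⊆ Finset.univ.image x ∪ {y, n • y} := by
        intro a _
        rw [Finset.mem_union]
        by_cases ha : a ∈ Set.range x
        · left
          obtain ⟨t, ht⟩ := ha
          exact Finset.mem_image.2 ⟨t, Finset.mem_univ _, ht⟩
        · right
          rcases h1 a ha with h4 | h4
          · rw [h4]; exact Finset.mem_insert_self _ _
          · rw [h4]; exact Finset.mem_insert_of_mem (Finset.mem_singleton_self _)
      have h4 := Finset.card_le_card h3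
      have h5 := Finset.card_union_le (Finset.univ.image x) {y, n • y}
      have h6 := Finset.card_image_le (s := (Finset.univ : Finset (Fin (i + 2)))) (f := x)
      have h7 := Finset.card_le_two (a := y) (b := n • y)
      rw [Finset.card_univ] at h4
      rw [Finset.card_univ, Fintype.card_fin] at h6
      omega
  · push Not at hsh
    obtain ⟨x0, hx0, n, hn, hfix, hn1⟩ := hsh
    apply mt_of_TT
    refine step' N hT x0 hx0 ?_
    intro a b ha hb
    have hP := hprim x0 hx0
    let K := fixingSubgroup G (Set.range x0)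
    let N' : Subgroup K := N.subgroupOf K
    haveI : N'.Normal := inferInstance
    have hnK : n ∈ K := by
      rw [mem_fixingSubgroup_iff]
      rintro _ ⟨t, rfl⟩
      exact hfix t
    have hne : fixedPoints N' (SubMulAction.ofFixingSubgroup G (Set.range x0)) ≠ Set.univ := by
      intro hu
      apply hn1
      apply Subtype.ext
      apply Equiv.ext
      intro y
      by_cases hy : y ∈ Set.range x0
      · obtain ⟨t, rfl⟩ := hy
        exact hfix t
      · have h1 : (⟨y, hy⟩ : SubMulAction.ofFixingSubgroup G (Set.range x0)) ∈ fixedPoints N' (SubMulAction.ofFixingSubgroup G (Set.range x0)) := by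
          rw [hu]; trivial
        exact congrArg Subtype.val (h1 ⟨⟨n, hnK⟩, Subgroup.mem_subgroupOf.2 hn⟩)
    have hQ : IsPretransitive N' (SubMulAction.ofFixingSubgroup G (Set.range x0)) := IsQuasiPreprimitive.isPretransitive_of_normal hne
    obtain ⟨m, hm⟩ := hQ.exists_smul_eq ⟨a, fun ⟨t, ht⟩ => ha t ht⟩ ⟨b, fun ⟨t, ht⟩ => hb t ht⟩
    refine ⟨m.1.1, Subgroup.mem_subgroupOf.1 m.2, fun t => (mem_fixingSubgroup_iff G).1 m.1.2 _ ⟨t, rfl⟩, congrArg Subtype.val hm⟩

end Cfsg.Agent.H7.JordanN
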