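import Cfsg.Agent.H7.KF5

/-!
Characteristic two.
-/

set_option autoImplicit false
set_option linter.unusedSectionVars false

namespace Cfsg.Agent.H7.KF

open Matrix
open Cfsg Cfsg.Agent.H7.SL2 Cfsg.Agent.H7.IsoCl

variable {F : Type*} [Field F]

theorem neg_eq_self (h2 : (2 : F) = 0) (g : SL F) : -g = g := by
  obtain ⟨a, b, c, d, h, rfl⟩ := exists_S g
  rw [S_neg]
  apply S_eq
  · linear_combination -a * h2
  · linear_combination -b * h2
  · linear_combination -c * h2
  · linear_combination -d * h2

theorem pr_inj (h2 : (2 : F) = 0) : Function.Injective (pr F) := by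
  rw [injective_iff_map_eq_one]
  intro g hg
  rcases (pr_eq_one g).1 hg with h | h
  · exact h
  · rw [h, neg_eq_self h2]

theorem sq_iff_even (h2 : (2 : F) = 0) (g : SL F) : g * g = 1 ↔ tr g = 0 := by
  obtain ⟨a, b, c, d, h, rfl⟩ := exists_S g
  rw [S_mul, S_one, tr_S]
  constructor
  · intro e
    obtain ⟨e1, e2, e3, e4⟩ := S_inj e
    by_contra hne
    have hb : b = 0 := by
      have : b * (a + d) = 0 := by linear_combination e2
      exact (mul_eq_zero.1 this).resolve_right hne
    have hc : c = 0 := by
      have : c * (a + d) = 0 := by linear_combination e3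
      exact (mul_eq_zero.1 this).resolve_right hne
    subst hb hc
    apply hne
    have h3 : (a + d) ^ 2 = 0 := by linear_combination e1 + e4 + (a * d + 1) * h2
    exact pow_eq_zero_iff (two_ne_zero) |>.1 h3
  · intro e
    apply S_eq
    · linear_combination a * e - h - b * 0 + (-1 + 1) * h2 - (h - h) + (0 : F) + (1 - 1) * e - h2
    · linear_combination b * e
    · linear_combination c * e
    · linear_combination d * e - h - h2

end Cfsg.Agent.H7.KF
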