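import Cfsg.Agent.H3.Basic
import Cfsg.Prelude.Def_Perm

/-!
Sharply two-transitive finite groups and near-fields.
-/

set_option autoImplicit false
set_option linter.unusedSectionVars false

namespace Cfsg.Agent.H7.NF

open MulAction

/-- sharply two-transitive, with two base points -/
structure Sh (K β : Type*) [Group K] [MulAction K β] where
  z : β
  o : β
  hzo : z ≠ o
  tr : ∀ a b c d : β, a ≠ b → c ≠ d → ∃ g : K, g • a = c ∧ g • b = d
  sharp : ∀ (g : K) (a b : β), a ≠ b → g • a = a → g • b = b → g = 1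

variable {K β : Type*} [Group K] [MulAction K β]

/-- fixed point free -/
def Fpf (β : Type*) {K : Type*} [Group K] [MulAction K β] (g : K) : Prop := ∀ x : β, g • x ≠ x

theorem fpf_conj {g : K} (hg : Fpf β g) (h : K) : Fpf β (h * g * h⁻¹) := by
  intro x hx
  apply hg (h⁻¹ • x)
  rw [mul_smul, mul_smul] at hx
  rw [eq_inv_smul_iff]
  exact hx

/-- translations -/
def T (β : Type*) {K : Type*} [Group K] [MulAction K β] (g : K) : Prop := g = 1 ∨ Fpf β g

variable (S : Sh K β)

namespace Sh

include S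

theorem uniq {g h : K} {a b : β} (hab : a ≠ b) (h1 : g • a = h • a) (h2 : g • b = h • b) : g = h := by
  have := S.sharp (h⁻¹ * g) a b hab (by rw [mul_smul, h1, inv_smul_smul]) (by rw [mul_smul, h2, inv_smul_smul])
  exact (inv_mul_eq_one.1 this).symm

variable [Fintype β] [Finite K]

/-- the fixed point free elements -/
theorem exists_unique_fpf {y : β} (hy : y ≠ S.z) : ∃! g : K, g • S.z = y ∧ Fpf β g := by
  classical
  haveI : Fintype K := Fintype.ofFinite K
  -- elements mapping z to y
  let E : Finset K := Finset.univ.filter (fun g => g • S.z = y)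
  have hE : E.card = Fintype.card β - 1 := by
    rw [← Finset.card_univ, ← Finset.card_erase_of_mem (Finset.mem_univ y)]
    refine Finset.card_bij (fun g _ => g • S.o) ?_ ?_ ?_
    · intro g hg
      have h1 := (Finset.mem_filter.1 hg).2
      refine Finset.mem_erase.2 ⟨?_, Finset.mem_univ _⟩
      intro h
      exact S.hzo (smul_left_cancel g (h1.trans h.symm))
    · intro g hg h hh e
      have h1 := (Finset.mem_filter.1 hg).2
      have h2 := (Finset.mem_filter.1 hh).2
      exact S.uniq S.hzo (h1.trans h2.symm) e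
    · intro w hw
      obtain ⟨g, h1, h2⟩ := S.tr S.z S.o y w S.hzo (Ne.symm (Finset.ne_of_mem_erase hw))
      exact ⟨g, Finset.mem_filter.2 ⟨Finset.mem_univ _, h1⟩, h2⟩
  have hex : ∀ w : {w : β // w ≠ S.z ∧ w ≠ y}, ∃ g : K, g • S.z = y ∧ g • w.1 = w.1 := fun w =>
    S.tr S.z w.1 y w.1 (Ne.symm w.2.1) (Ne.symm w.2.2)
  choose f hf1 hf2 using hex
  have hfinj : Function.Injective f := by
    intro w w' h
    by_contra hne
    have h1 : w.1 ≠ w'.1 := fun e => hne (Subtype.ext e)
    have h2 := hf2 w'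
    rw [← h] at h2
    have h3 := S.sharp (f w) w.1 w'.1 h1 (hf2 w) h2
    have h4 := hf1 w
    rw [h3, one_smul] at h4
    exact hy h4.symm
  have hcard : (E \ Finset.univ.image f).card = 1 := by
    rw [Finset.card_sdiff_of_subset, hE, Finset.card_image_of_injective _ hfinj, Finset.card_univ, Fintype.card_subtype]
    · have h1 : (Finset.univ.filter (fun w : β => w ≠ S.z ∧ w ≠ y)) = (Finset.univ.erase S.z).erase y := by
        ext w
        simp only [Finset.mem_filter, Finset.mem_univ, true_and, Finset.mem_erase, and_true]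
        tauto
      rw [h1, Finset.card_erase_of_mem, Finset.card_erase_of_mem (Finset.mem_univ _), Finset.card_univ]
      · have h2 : 1 < Fintype.card β := Fintype.one_lt_card_iff.2 ⟨S.z, S.o, S.hzo⟩
        omega
      · exact Finset.mem_erase.2 ⟨hy, Finset.mem_univ _⟩
    · intro g hg
      obtain ⟨w, -, rfl⟩ := Finset.mem_image.1 hg
      exact Finset.mem_filter.2 ⟨Finset.mem_univ _, hf1 w⟩
  have hmem : ∀ g, g ∈ E \ Finset.univ.image f ↔ g • S.z = y ∧ Fpf β g := by
    intro g
    rw [Finset.mem_sdiff]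
    constructor
    · rintro ⟨h1, h2⟩
      have h1' := (Finset.mem_filter.1 h1).2
      refine ⟨h1', ?_⟩
      intro x hx
      apply h2
      have hxz : x ≠ S.z := by
        rintro rfl
        exact hy (h1'.symm.trans hx)
      have hxy : x ≠ y := by
        rintro rfl
        exact hy (smul_left_cancel g (hx.trans h1'.symm))
      refine Finset.mem_image.2 ⟨⟨x, hxz, hxy⟩, Finset.mem_univ _, ?_⟩
      exact S.uniq (Ne.symm hxz) ((hf1 _).trans h1'.symm) ((hf2 ⟨x, hxz, hxy⟩).trans hx.symm)
    · rintro ⟨h1, h2⟩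
      refine ⟨Finset.mem_filter.2 ⟨Finset.mem_univ _, h1⟩, ?_⟩
      intro h
      obtain ⟨w, -, rfl⟩ := Finset.mem_image.1 h
      exact h2 w.1 (hf2 w)
  obtain ⟨g, hg⟩ := Finset.card_eq_one.1 hcard
  refine ⟨g, (hmem g).1 (by rw [hg]; exact Finset.mem_singleton_self _), ?_⟩
  intro h hh
  have := (hmem h).2 hh
  rw [hg] at this
  exact Finset.mem_singleton.1 this

theorem card_K : Nat.card K = Fintype.card β * (Fintype.card β - 1) := by
  classical
  let f : K → {t : β × β // t.1 ≠ t.2} := fun g => ⟨(g • S.z, g • S.o), fun h => S.hzo (smul_left_cancel g h)⟩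
  have hf : Function.Bijective f := by
    constructor
    · intro g h e
      have e1 := congrArg (fun t => t.1.1) e
      have e2 := congrArg (fun t => t.1.2) e
      exact S.uniq S.hzo e1 e2
    · rintro ⟨⟨a, b⟩, hab⟩
      obtain ⟨g, h1, h2⟩ := S.tr S.z S.o a b S.hzo hab
      exact ⟨g, Subtype.ext (Prod.ext h1 h2)⟩
  rw [Nat.card_congr (Equiv.ofBijective f hf), Nat.card_eq_fintype_card, Fintype.card_subtype]
  have : (Finset.univ.filter (fun t : β × β => t.1 ≠ t.2)) = (Finset.univ : Finset β).offDiag := by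
    ext t
    simp [Finset.mem_offDiag]
  rw [this, Finset.offDiag_card, Finset.card_univ, Nat.mul_sub, mul_one]

theorem commute_of_fpf {x y : K} (hx : Fpf β x) (hy : Fpf β y) : x * y = y * x := by
  classical
  haveI : Fintype K := Fintype.ofFinite K
  let n := Fintype.card β
  have hn : 1 < Fintype.card β := Fintype.one_lt_card_iff.2 ⟨S.z, S.o, S.hzo⟩
  let Φ : Finset K := Finset.univ.filter (fun g => Fpf β g)
  have hΦ : Φ.card = Fintype.card β - 1 := by
    rw [← Finset.card_univ, ← Finset.card_erase_of_mem (Finset.mem_univ S.z)]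
    refine Finset.card_bij (fun g _ => g • S.z) ?_ ?_ ?_
    · intro g hg
      exact Finset.mem_erase.2 ⟨(Finset.mem_filter.1 hg).2 _, Finset.mem_univ _⟩
    · intro g hg h hh e
      obtain ⟨w, _, hw⟩ := S.exists_unique_fpf ((Finset.mem_filter.1 hg).2 S.z)
      rw [hw g ⟨rfl, (Finset.mem_filter.1 hg).2⟩, hw h ⟨e.symm, (Finset.mem_filter.1 hh).2⟩]
    · intro w hw
      obtain ⟨g, hg, _⟩ := S.exists_unique_fpf (Finset.ne_of_mem_erase hw)
      exact ⟨g, Finset.mem_filter.2 ⟨Finset.mem_univ _, hg.2⟩, hg.1⟩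
  let C : Finset K := Finset.univ.filter (fun g => g * x = x * g)
  have hsub : C ⊆ insert 1 Φ := by
    intro g hg
    have h1 := (Finset.mem_filter.1 hg).2
    by_cases h2 : Fpf β g
    · exact Finset.mem_insert_of_mem (Finset.mem_filter.2 ⟨Finset.mem_univ _, h2⟩)
    · rw [Fpf] at h2
      push Not at h2
      obtain ⟨w, hw⟩ := h2
      have h3 : g = 1 := by
        apply S.sharp g w (x • w) (Ne.symm (hx w)) hw
        rw [← mul_smul, h1, mul_smul, hw]
      rw [h3]
      exact Finset.mem_insert_self _ _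
  have h1Φ : (1 : K) ∉ Φ := by
    intro h
    exact (Finset.mem_filter.1 h).2 S.z (one_smul _ _)
  have hcls : Nat.card {g : K // IsConj x g} ≤ Fintype.card β - 1 := by
    rw [← hΦ, Nat.card_eq_fintype_card, Fintype.card_subtype]
    apply Finset.card_le_card
    intro g hg
    obtain ⟨c, rfl⟩ := isConj_iff.1 (Finset.mem_filter.1 hg).2
    exact Finset.mem_filter.2 ⟨Finset.mem_univ _, fpf_conj hx c⟩
  have hC : C.card = Nat.card (Subgroup.centralizer ({x} : Set K)) := by
    rw [Nat.card_eq_fintype_card, ← Fintype.card_coe]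
    apply Fintype.card_congr
    refine Equiv.subtypeEquivRight ?_
    intro g
    rw [Subgroup.mem_centralizer_singleton_iff]
    exact ⟨fun h => (Finset.mem_filter.1 h).2, fun h => Finset.mem_filter.2 ⟨Finset.mem_univ _, h⟩⟩
  have hidx : Nat.card {g : K // IsConj x g} = (Subgroup.centralizer ({x} : Set K)).index := Cfsg.Agent.H3.card_isConj x
  have hmul := Subgroup.index_mul_card (Subgroup.centralizer ({x} : Set K))
  rw [← hidx, ← hC, S.card_K] at hmul
  have hge : Fintype.card β ≤ C.card := by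
    by_contra h
    push Not at h
    have h1 : Nat.card {g : K // IsConj x g} * C.card ≤ (Fintype.card β - 1) * C.card := Nat.mul_le_mul_right _ hcls
    have h2 : (Fintype.card β - 1) * C.card < (Fintype.card β - 1) * Fintype.card β := Nat.mul_lt_mul_of_pos_left h (by omega)
    rw [hmul, mul_comm (Fintype.card β)] at h1
    omega
  have heq : C = insert 1 Φ := by
    apply Finset.eq_of_subset_of_card_le hsub
    rw [Finset.card_insert_of_notMem h1Φ, hΦ]
    omega
  have h2 : y ∈ C := by
    rw [heq]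
    exact Finset.mem_insert_of_mem (Finset.mem_filter.2 ⟨Finset.mem_univ _, hy⟩)
  exact (Finset.mem_filter.1 h2).2.symm

theorem T_comm {x y : K} (hx : T β x) (hy : T β y) : x * y = y * x := by
  rcases hx with rfl | hx
  · rw [one_mul, mul_one]
  · rcases hy with rfl | hy
    · rw [one_mul, mul_one]
    · exact S.commute_of_fpf hx hy

theorem T_mul {x y : K} (hx : T β x) (hy : T β y) : T β (x * y) := by
  rcases hx with rfl | hx
  · rwa [one_mul]
  · by_cases h : Fpf β (x * y)
    · exact Or.inr h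
    · left
      rw [Fpf] at h
      push Not at h
      obtain ⟨w, hw⟩ := h
      apply S.sharp (x * y) w (x • w) (Ne.symm (hx w)) hw
      have h1 : x * y * x = x * (x * y) := by
        rw [mul_assoc, S.T_comm hy (Or.inr hx)]
      rw [← mul_smul, h1, mul_smul, hw]

theorem T_conj {x : K} (hx : T β x) (h : K) : T β (h * x * h⁻¹) := by
  rcases hx with rfl | hx
  · left; group
  · exact Or.inr (fpf_conj hx h)

theorem T_uniq {x y : K} (hx : T β x) (hy : T β y) (h : x • S.z = y • S.z) : x = y := by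
  rcases hx with rfl | hx
  · rcases hy with rfl | hy
    · rfl
    · rw [one_smul] at h
      exact absurd h.symm (hy _)
  · rcases hy with rfl | hy
    · rw [one_smul] at h
      exact absurd h (hx _)
    · obtain ⟨w, _, hw⟩ := S.exists_unique_fpf (hx S.z)
      rw [hw x ⟨rfl, hx⟩, hw y ⟨h.symm, hy⟩]

theorem exists_tau (y : β) : ∃ g : K, g • S.z = y ∧ T β g := by
  by_cases hy : y = S.z
  · exact ⟨1, by rw [one_smul, hy], Or.inl rfl⟩
  · obtain ⟨g, hg, _⟩ := S.exists_unique_fpf hy
    exact ⟨g, hg.1, Or.inr hg.2⟩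

/-- the translation -/
noncomputable def tau (y : β) : K := (S.exists_tau y).choose

theorem tau_z (y : β) : S.tau y • S.z = y := (S.exists_tau y).choose_spec.1

theorem tau_T (y : β) : T β (S.tau y) := (S.exists_tau y).choose_spec.2

theorem tau_zero : S.tau S.z = 1 := S.T_uniq (S.tau_T _) (Or.inl rfl) (by rw [S.tau_z, one_smul])

theorem tau_eq {g : K} (hg : T β g) {y : β} (h : g • S.z = y) : S.tau y = g :=
  S.T_uniq (S.tau_T _) hg (by rw [S.tau_z, h])

theorem exists_sig (a : β) : ∃ g : K, a ≠ S.z → g • S.z = S.z ∧ g • S.o = a := by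
  by_cases h : a = S.z
  · exact ⟨1, fun h' => absurd h h'⟩
  · obtain ⟨g, h1, h2⟩ := S.tr S.z S.o S.z a S.hzo (Ne.symm h)
    exact ⟨g, fun _ => ⟨h1, h2⟩⟩

/-- the multiplication -/
noncomputable def sig (a : β) : K := (S.exists_sig a).choose

theorem sig_z {a : β} (h : a ≠ S.z) : S.sig a • S.z = S.z := ((S.exists_sig a).choose_spec h).1

theorem sig_o {a : β} (h : a ≠ S.z) : S.sig a • S.o = a := ((S.exists_sig a).choose_spec h).2

theorem sig_eq {a : β} (h : a ≠ S.z) {g : K} (h1 : g • S.z = S.z) (h2 : g • S.o = a) : S.sig a = g :=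
  S.uniq S.hzo (by rw [S.sig_z h, h1]) (by rw [S.sig_o h, h2])

/-- the multiplication -/
noncomputable def mu (x a : β) : β := by
  classical exact if a = S.z then S.z else S.sig a • x

theorem mu_z (x : β) : S.mu x S.z = S.z := by rw [mu, if_pos rfl]

theorem mu_of {x a : β} (h : a ≠ S.z) : S.mu x a = S.sig a • x := by rw [mu, if_neg h]

theorem sig_smul_ne {a b : β} (ha : a ≠ S.z) (hb : b ≠ S.z) : S.sig b • a ≠ S.z := by
  intro h
  apply ha
  have h1 := S.sig_z hb
  exact smul_left_cancel (S.sig b) (h.trans h1.symm)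

theorem mu_assoc (x a b : β) : S.mu (S.mu x a) b = S.mu x (S.mu a b) := by
  by_cases hb : b = S.z
  · rw [hb, S.mu_z, S.mu_z, S.mu_z]
  · by_cases ha : a = S.z
    · rw [ha, S.mu_z, S.mu_of hb, S.sig_z hb, S.mu_z]
    · rw [S.mu_of hb, S.mu_of ha, S.mu_of hb (x := a), S.mu_of (S.sig_smul_ne ha hb), ← mul_smul]
      congr 1
      symm
      apply S.sig_eq (S.sig_smul_ne ha hb)
      · rw [mul_smul, S.sig_z ha, S.sig_z hb]
      · rw [mul_smul, S.sig_o ha]

theorem sig_one : S.sig S.o = 1 := S.sig_eq (Ne.symm S.hzo) (one_smul _ _) (one_smul _ _)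

theorem mu_distrib (x y c : β) : S.mu (S.tau y • x) c = S.tau (S.mu y c) • S.mu x c := by
  by_cases hc : c = S.z
  · rw [hc, S.mu_z, S.mu_z, S.mu_z, S.tau_z]
  · rw [S.mu_of hc, S.mu_of hc, S.mu_of hc]
    have h1 : S.tau (S.sig c • y) = S.sig c * S.tau y * (S.sig c)⁻¹ := by
      apply S.tau_eq (S.T_conj (S.tau_T y) _)
      rw [mul_smul, mul_smul]
      have h2 : (S.sig c)⁻¹ • S.z = S.z := by rw [inv_smul_eq_iff, S.sig_z hc]
      rw [h2, S.tau_z]
    rw [h1, mul_smul, inv_smul_smul, mul_smul]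

/-- the near-field -/
noncomputable def nf : Cfsg.NearField β :=
  letI iA : Add β := ⟨fun a b => S.tau b • a⟩
  letI iN : Neg β := ⟨fun a => (S.tau a)⁻¹ • S.z⟩
  letI iZ : Zero β := ⟨S.z⟩
  letI iG : AddGroup β := AddGroup.ofLeftAxioms
    (fun a b c => by
      change S.tau c • (S.tau b • a) = S.tau (S.tau c • b) • a
      rw [← mul_smul]
      congr 1
      symm
      apply S.tau_eq (S.T_mul (S.tau_T c) (S.tau_T b))
      rw [mul_smul, S.tau_z])
    (fun a => S.tau_z a)
    (fun a => by
      change S.tau a • ((S.tau a)⁻¹ • S.z) = S.z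
      rw [smul_inv_smul])
  { toAddGroup := iG
    mul := S.mu
    one := S.o
    mul_assoc := S.mu_assoc
    one_mul := fun a => by
      change S.mu S.o a = a
      by_cases ha : a = S.z
      · rw [ha, S.mu_z]
      · rw [S.mu_of ha, S.sig_o ha]
    mul_one := fun a => by
      change S.mu a S.o = a
      rw [S.mu_of (Ne.symm S.hzo), S.sig_one, one_smul]
    right_distrib := fun x y c => S.mu_distrib x y c
    mul_zero := fun a => S.mu_z a
    zero_ne_one := S.hzo
    exists_inv := fun a ha => by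
      have ha' : a ≠ S.z := ha
      have h0 : (S.sig a)⁻¹ • S.z = S.z := by rw [inv_smul_eq_iff, S.sig_z ha']
      have hb : (S.sig a)⁻¹ • S.o ≠ S.z := by
        intro h
        exact S.hzo (smul_left_cancel (S.sig a)⁻¹ (h0.trans h.symm))
      refine ⟨(S.sig a)⁻¹ • S.o, ?_, ?_⟩
      · change S.mu a ((S.sig a)⁻¹ • S.o) = S.o
        rw [S.mu_of hb, S.sig_eq hb h0 rfl, inv_smul_eq_iff, S.sig_o ha']
      · change S.mu ((S.sig a)⁻¹ • S.o) a = S.o
        rw [S.mu_of ha', smul_inv_smul] }

end Sh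

end Cfsg.Agent.H7.NF
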