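import Cfsg.Prelude.Def_LieExceptional
import Mathlib.GroupTheory.GroupAction.MultipleTransitivity
import Mathlib.GroupTheory.Perm.Cycle.Type
import Mathlib.GroupTheory.Sylow

/-!
Zassenhaus groups: elementary facts.
-/

set_option autoImplicit false
set_option linter.unusedSectionVars false

namespace Cfsg.Agent.H7.Zas3

open Cfsg MulAction

variable {G Ω : Type*} [Group G] [Finite G] [MulAction G Ω] [Fintype Ω]

theorem two_tr (hZ : IsZassenhausGroup G Ω) {a b c d : Ω} (hab : a ≠ b) (hcd : c ≠ d) : ∃ g : G, g • a = c ∧ g • b = d :=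
  (is_two_pretransitive_iff.1 hZ.2.1) hab hcd

theorem three (hZ : IsZassenhausGroup G Ω) {g : G} {a b c : Ω} (h1 : a ≠ b) (h2 : a ≠ c) (h3 : b ≠ c) (ha : g • a = a) (hb : g • b = b)
    (hc : g • c = c) : g = 1 := hZ.2.2.1 g a b c h1 h3 h2 ha hb hc

theorem exists_moved (hZ : IsZassenhausGroup G Ω) {g : G} (hg : g ≠ 1) : ∃ x : Ω, g • x ≠ x := by
  by_contra hcon
  push Not at hcon
  haveI := hZ.1
  apply hg
  apply FaithfulSMul.eq_of_smul_eq_smul (α := Ω)
  intro x
  rw [hcon, one_smul]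

theorem mem_stab {g : G} {a b : Ω} : g ∈ stabilizer G a ⊓ stabilizer G b ↔ g • a = a ∧ g • b = b := by
  rw [Subgroup.mem_inf, mem_stabilizer_iff, mem_stabilizer_iff]

/-- involutions in the two-point stabilisers -/
theorem exists_inv (hZ : IsZassenhausGroup G Ω) {a b : Ω} (hab : a ≠ b)
    (heven : Even (Nat.card ↥(stabilizer G a ⊓ stabilizer G b))) {x y : Ω} (hxy : x ≠ y) :
    ∃ t : G, t ≠ 1 ∧ t * t = 1 ∧ t • x = x ∧ t • y = y := by
  obtain ⟨z, hz⟩ := exists_prime_orderOf_dvd_card' (G := ↥(stabilizer G a ⊓ stabilizer G b)) 2 heven.two_dvd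
  have hz1 : z.1 ≠ 1 := by
    intro h
    have : z = 1 := Subtype.ext h
    rw [this, orderOf_one] at hz
    norm_num at hz
  have hz2 : z.1 * z.1 = 1 := by
    have h1 : z ^ 2 = 1 := by rw [← hz, pow_orderOf_eq_one]
    have := congrArg Subtype.val h1
    rw [← pow_two]
    exact this
  have hz3 := mem_stab.1 z.2
  obtain ⟨g, hg1, hg2⟩ := two_tr hZ hab hxy
  refine ⟨g * z.1 * g⁻¹, ?_, ?_, ?_, ?_⟩
  · intro h
    apply hz1
    calc z.1 = g⁻¹ * (g * z.1 * g⁻¹) * g := by group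
      _ = 1 := by rw [h]; group
  · calc g * z.1 * g⁻¹ * (g * z.1 * g⁻¹) = g * (z.1 * z.1) * g⁻¹ := by group
      _ = 1 := by rw [hz2]; group
  · rw [mul_smul, mul_smul, inv_smul_eq_iff.2 hg1.symm, hz3.1, hg1]
  · rw [mul_smul, mul_smul, inv_smul_eq_iff.2 hg2.symm, hz3.2, hg2]

/-- an involution fixing a point and swapping two others -/
theorem exists_fix_swap (hZ : IsZassenhausGroup G Ω) {a b : Ω} (hab : a ≠ b)
    (heven : Even (Nat.card ↥(stabilizer G a ⊓ stabilizer G b))) {α u v : Ω} (hu : u ≠ α) (hv : v ≠ α) (huv : u ≠ v) :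
    ∃ t : G, t ≠ 1 ∧ t * t = 1 ∧ t • α = α ∧ t • u = v ∧ t • v = u := by
  classical
  let T := {x : Ω × Ω // x.1 ≠ α ∧ x.2 ≠ α ∧ x.1 ≠ x.2}
  have key : ∀ x : Ω, ∃ t : G, x ≠ α → t ≠ 1 ∧ t * t = 1 ∧ t • α = α ∧ t • x = x := by
    intro x
    by_cases hx : x = α
    · exact ⟨1, fun h => absurd hx h⟩
    · obtain ⟨t, h1, h2, h3, h4⟩ := exists_inv hZ hab heven (Ne.symm hx)
      exact ⟨t, fun _ => ⟨h1, h2, h3, h4⟩⟩
  choose z hz using key
  have hne : ∀ x u : Ω, x ≠ α → u ≠ α → x ≠ u → z x • u ≠ α ∧ u ≠ z x • u := by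
    intro x u hx hu hxu
    obtain ⟨h1, h2, h3, h4⟩ := hz x hx
    constructor
    · intro h
      apply hu
      have : z x • (z x • u) = z x • α := by rw [h]
      rwa [← mul_smul, h2, one_smul, h3] at this
    · intro h
      exact h1 (three hZ (Ne.symm hx) (Ne.symm hu) hxu h3 h4 h.symm)
  let F : T → T := fun x => ⟨(x.1.2, z x.1.1 • x.1.2), x.2.2.1, (hne _ _ x.2.1 x.2.2.1 x.2.2.2).1, (hne _ _ x.2.1 x.2.2.1 x.2.2.2).2⟩
  have hF : Function.Injective F := by
    rintro ⟨⟨x, u⟩, hx, hu, hxu⟩ ⟨⟨y, w⟩, hy, hw, hyw⟩ e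
    have e1 := congrArg (fun t : T => t.1.1) e
    have e2 := congrArg (fun t : T => t.1.2) e
    change u = w at e1
    change z x • u = z y • w at e2
    subst e1
    dsimp only at hx hu hxu hy hyw
    obtain ⟨h1, h2, h3, h4⟩ := hz x hx
    obtain ⟨k1, k2, k3, k4⟩ := hz y hy
    have h5 := hne x u hx hu hxu
    have e3 : (z y * z x) • u = u := by
      rw [mul_smul, e2, ← mul_smul, k2, one_smul]
    have e4 : (z y * z x) • (z x • u) = z x • u := by
      rw [mul_smul, ← mul_smul (z x) (z x), h2, one_smul, e2]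
    have e5 : (z y * z x) • α = α := by rw [mul_smul, h3, k3]
    have e6 := three hZ (Ne.symm hu) (Ne.symm h5.1) h5.2 e5 e3 e4
    have e7 : z x = z y := by
      have : z y * (z y * z x) = z y * 1 := by rw [e6]
      rwa [← mul_assoc, k2, one_mul, mul_one] at this
    by_cases hxy : x = y
    · subst hxy; rfl
    · exfalso
      rw [← e7] at k4
      exact h1 (three hZ (Ne.symm hx) (Ne.symm hy) hxy h3 h4 k4)
  have hsur := Finite.surjective_of_injective hF
  obtain ⟨⟨⟨x, w⟩, hx, hw, hxw⟩, e⟩ := hsur ⟨(u, v), hu, hv, huv⟩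
  have e1 := congrArg (fun t : T => t.1.1) e
  have e2 := congrArg (fun t : T => t.1.2) e
  change w = u at e1
  change z x • w = v at e2
  subst e1
  obtain ⟨h1, h2, h3, h4⟩ := hz x hx
  refine ⟨z x, h1, h2, h3, e2, ?_⟩
  rw [← e2, ← mul_smul, h2, one_smul]

theorem card_swap {a b : Ω} {s : G} (h1 : s • a = b) (h2 : s • b = a) :
    Nat.card {t : G // t • a = b ∧ t • b = a} = Nat.card ↥(stabilizer G a ⊓ stabilizer G b) := by
  refine Nat.card_congr ⟨fun t => ⟨s⁻¹ * t.1, ?_⟩, fun h => ⟨s * h.1, ?_, ?_⟩, ?_, ?_⟩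
  · rw [mem_stab]
    constructor
    · rw [mul_smul, t.2.1, inv_smul_eq_iff, h1]
    · rw [mul_smul, t.2.2, inv_smul_eq_iff, h2]
  · rw [mul_smul, (mem_stab.1 h.2).1, h1]
  · rw [mul_smul, (mem_stab.1 h.2).2, h2]
  · intro t
    apply Subtype.ext
    change s * (s⁻¹ * t.1) = t.1
    rw [mul_inv_cancel_left]
  · intro t
    apply Subtype.ext
    change s⁻¹ * (s * t.1) = t.1
    rw [inv_mul_cancel_left]

theorem large (hZ : IsZassenhausGroup G Ω) {a b : Ω} (hab : a ≠ b)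
    (heven : Even (Nat.card ↥(stabilizer G a ⊓ stabilizer G b))) :
    Fintype.card Ω - 2 ≤ 2 * Nat.card ↥(stabilizer G a ⊓ stabilizer G b) := by
  classical
  haveI : Fintype {t : G // t • a = b ∧ t • b = a} := Fintype.ofFinite _
  obtain ⟨s, hs1, hs2⟩ := two_tr hZ hab (Ne.symm hab)
  have key : ∀ x : {x : Ω // x ≠ a ∧ x ≠ b}, ∃ t : G, t • x.1 = x.1 ∧ t • a = b ∧ t • b = a := by
    intro x
    obtain ⟨t, _, _, h3, h4, h5⟩ := exists_fix_swap hZ hab heven (α := x.1) (u := a) (v := b) (Ne.symm x.2.1) (Ne.symm x.2.2) hab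
    exact ⟨t, h3, h4, h5⟩
  choose T hT1 hT2 using key
  let T' : {x : Ω // x ≠ a ∧ x ≠ b} → {t : G // t • a = b ∧ t • b = a} := fun x => ⟨T x, hT2 x⟩
  have h1 := Finset.card_le_mul_card_image (f := T') Finset.univ 2 (by
    intro t _
    by_contra hcon
    push Not at hcon
    obtain ⟨x, hx, y, hy, w, hw, hxy, hxw, hyw⟩ := Finset.two_lt_card.1 hcon
    have fx : ∀ x, x ∈ Finset.univ.filter (fun x => T' x = t) → t.1 • x.1 = x.1 := by
      intro x hx
      rw [← (Finset.mem_filter.1 hx).2]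
      exact hT1 x
    have ne : ∀ x y : {x : Ω // x ≠ a ∧ x ≠ b}, x ≠ y → x.1 ≠ y.1 := fun x y h1 h2 => h1 (Subtype.ext h2)
    have h4 := three hZ (ne x y hxy) (ne x w hxw) (ne y w hyw) (fx x hx) (fx y hy) (fx w hw)
    have h5 := t.2.1
    rw [h4, one_smul] at h5
    exact hab h5)
  have h2 : Fintype.card {x : Ω // x ≠ a ∧ x ≠ b} = Fintype.card Ω - 2 := by
    rw [Fintype.card_subtype]
    have : (Finset.univ.filter (fun x => x ≠ a ∧ x ≠ b)) = (Finset.univ.erase a).erase b := by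
      ext x
      simp only [Finset.mem_filter, Finset.mem_univ, true_and, Finset.mem_erase, and_true]
      tauto
    rw [this, Finset.card_erase_of_mem, Finset.card_erase_of_mem (Finset.mem_univ _), Finset.card_univ]
    · omega
    · rw [Finset.mem_erase]
      exact ⟨Ne.symm hab, Finset.mem_univ _⟩
  rw [Finset.card_univ, h2] at h1
  have h3 : (Finset.univ.image T').card ≤ Fintype.card {t : G // t • a = b ∧ t • b = a} := Finset.card_le_univ _
  rw [← Nat.card_eq_fintype_card, card_swap hs1 hs2] at h3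
  omega

theorem exists_swap_inv (hZ : IsZassenhausGroup G Ω) {a b : Ω} (hab : a ≠ b) : ∃ s : G, s ≠ 1 ∧ s * s = 1 ∧ s • a = b ∧ s • b = a := by
  obtain ⟨g, hg1, hg2⟩ := two_tr hZ hab (Ne.symm hab)
  have hodd : ∀ n : ℕ, Odd n → g ^ n • a = b := by
    rintro _ ⟨k, rfl⟩
    have h1 : ∀ k : ℕ, g ^ (2 * k) • a = a := by
      intro k
      induction k with
      | zero => simp
      | succ k ih =>
        rw [show 2 * (k + 1) = 2 * k + 1 + 1 by ring, pow_succ, pow_succ, mul_smul, mul_smul, hg1, hg2, ih]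
    rw [pow_succ', mul_smul, h1, hg1]
  have h2 : 2 ∣ orderOf g := by
    rw [← even_iff_two_dvd, ← Nat.not_odd_iff_even]
    intro h
    have := hodd _ h
    rw [pow_orderOf_eq_one, one_smul] at this
    exact hab this
  obtain ⟨t, ht⟩ := exists_prime_orderOf_dvd_card' (G := G) 2 (h2.trans (orderOf_dvd_natCard g))
  have ht1 : t ≠ 1 := by
    rintro rfl
    rw [orderOf_one] at ht
    norm_num at ht
  have ht2 : t * t = 1 := by rw [← pow_two, ← ht, pow_orderOf_eq_one]
  obtain ⟨x, hx⟩ := exists_moved hZ ht1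
  obtain ⟨k, hk1, hk2⟩ := two_tr hZ (Ne.symm hx) hab
  refine ⟨k * t * k⁻¹, ?_, ?_, ?_, ?_⟩
  · intro h
    apply ht1
    calc t = k⁻¹ * (k * t * k⁻¹) * k := by group
      _ = 1 := by rw [h]; group
  · calc k * t * k⁻¹ * (k * t * k⁻¹) = k * (t * t) * k⁻¹ := by group
      _ = 1 := by rw [ht2]; group
  · rw [mul_smul, mul_smul, inv_smul_eq_iff.2 hk1.symm, hk2]
  · rw [mul_smul, mul_smul, inv_smul_eq_iff.2 hk2.symm, ← mul_smul t t, ht2, one_smul, hk1]

theorem orderOf_two_iff {s : G} : orderOf s = 2 ↔ s ≠ 1 ∧ s * s = 1 := by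
  constructor
  · intro h
    constructor
    · rintro rfl
      rw [orderOf_one] at h
      norm_num at h
    · rw [← pow_two, ← h, pow_orderOf_eq_one]
  · rintro ⟨h1, h2⟩
    exact orderOf_eq_prime (by rw [pow_two, h2]) h1

theorem card_fixedBy_le (hZ : IsZassenhausGroup G Ω) {s : G} (hs : s ≠ 1) : Nat.card (fixedBy Ω s) ≤ 2 := by
  classical
  by_contra hcon
  push Not at hcon
  have h1 : 2 < (Finset.univ.filter (fun x : Ω => s • x = x)).card := by
    rw [← Fintype.card_subtype, ← Nat.card_eq_fintype_card]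
    exact hcon
  obtain ⟨x, hx, y, hy, w, hw, hxy, hxw, hyw⟩ := Finset.two_lt_card.1 h1
  exact hs (three hZ hxy hxw hyw (Finset.mem_filter.1 hx).2 (Finset.mem_filter.1 hy).2 (Finset.mem_filter.1 hw).2)

theorem card_fixedBy_mod {s : G} (hs : s * s = 1) : Fintype.card Ω % 2 = Nat.card (fixedBy Ω s) % 2 := by
  classical
  haveI : Fact (Nat.Prime 2) := ⟨Nat.prime_two⟩
  have h1 : (MulAction.toPermHom G Ω s) ^ 2 ^ 1 = 1 := by
    rw [← map_pow, pow_one, pow_two, hs, map_one]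
  have h2 := Equiv.Perm.card_compl_support_modEq (p := 2) h1
  have h3 : (Equiv.Perm.support (MulAction.toPermHom G Ω s))ᶜ.card = Nat.card (fixedBy Ω s) := by
    rw [Nat.card_eq_fintype_card, ← Set.toFinset_card]
    congr 1
    ext x
    rw [Finset.mem_compl, Equiv.Perm.mem_support, not_not, Set.mem_toFinset, mem_fixedBy]
    rfl
  rw [h3] at h2
  exact h2.symm

end Cfsg.Agent.H7.Zas3
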