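import Cfsg.Agent.H7.NF
import Cfsg.Agent.H7.Zas3
import Mathlib.Topology.Compactification.OnePoint.ProjectiveLine

/-!
Sharply three-transitive groups of degree `2^f + 1`.
-/

set_option autoImplicit false
set_option linter.unusedSectionVars false

namespace Cfsg.Agent.H7.NF

open MulAction OnePoint Matrix

/-- a commutative near-field -/
noncomputable def Sh.fld {K β : Type*} [Group K] [MulAction K β] [Fintype β] [Finite K] (S : Sh K β)
    (hc : ∀ x a : β, S.mu x a = S.mu a x) : Field β := by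
  classical
  letI N := S.nf
  exact
  { N with
    add_comm := fun a b => by
      change S.tau b • a = S.tau a • b
      have h1 : S.tau b • S.tau a • S.z = S.tau a • S.tau b • S.z := by
        rw [← mul_smul, ← mul_smul, S.T_comm (S.tau_T _) (S.tau_T _)]
      rwa [S.tau_z, S.tau_z] at h1
    left_distrib := fun a b c => by
      change S.mu a (b + c) = S.mu a b + S.mu a c
      rw [hc a, hc a, hc a]
      exact N.right_distrib b c a
    right_distrib := N.right_distrib
    zero_mul := fun a => by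
      change S.mu S.z a = S.z
      rw [hc]
      exact S.mu_z a
    mul_zero := N.mul_zero
    mul_comm := hc
    exists_pair_ne := ⟨S.z, S.o, S.hzo⟩
    inv := fun x => if x = S.z then S.z else (S.sig x)⁻¹ • S.o
    mul_inv_cancel := fun a ha => by
      have ha' : a ≠ S.z := ha
      change S.mu a (if a = S.z then S.z else (S.sig a)⁻¹ • S.o) = S.o
      rw [if_neg ha', hc, S.mu_of ha', smul_inv_smul]
    inv_zero := by
      change (if S.z = S.z then S.z else (S.sig S.z)⁻¹ • S.o) = S.z
      rw [if_pos rfl]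
    nnqsmul := _
    nnqsmul_def := fun _ _ => rfl
    qsmul := _
    qsmul_def := fun _ _ => rfl }

section three

variable {α : Type} [Fintype α] [DecidableEq α] {G : Type*} [Group G] [Finite G] [MulAction G α]

/-- the action of a stabiliser -/
instance stabAct (e : α) : MulAction (stabilizer G e) {x : α // x ≠ e} where
  smul g x := ⟨g.1 • x.1, fun h => x.2 (by
    have h1 : g.1 • e = e := g.2
    exact smul_left_cancel g.1 (h.trans h1.symm))⟩
  one_smul x := Subtype.ext (one_smul G x.1)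
  mul_smul g h x := Subtype.ext (mul_smul g.1 h.1 x.1)

theorem coe_stab {e : α} (g : stabilizer G e) (x : {x : α // x ≠ e}) : ((g • x : {x : α // x ≠ e}) : α) = g.1 • x.1 := rfl

theorem main_three {f : ℕ} (hα : Fintype.card α = 2 ^ f + 1) (hf : 1 ≤ f)
    (tr : ∀ a b c a' b' c' : α, a ≠ b → a ≠ c → b ≠ c → a' ≠ b' → a' ≠ c' → b' ≠ c' → ∃ g : G, g • a = a' ∧ g • b = b' ∧ g • c = c')
    (sh : ∀ (g : G) (a b c : α), a ≠ b → a ≠ c → b ≠ c → g • a = a → g • b = b → g • c = c → g = 1) :
    ∃ (F : Type) (_ : Field F) (_ : Fintype F), Fintype.card F = 2 ^ f ∧ Nonempty (G ≃* Matrix.ProjGenLinGroup (Fin 2) F) := by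
  classical
  have h2f : 2 ≤ 2 ^ f := by
    calc 2 = 2 ^ 1 := (pow_one 2).symm
      _ ≤ 2 ^ f := Nat.pow_le_pow_right (by norm_num) hf
  obtain ⟨e, z, o, hez, heo, hzo⟩ : ∃ e z o : α, e ≠ z ∧ e ≠ o ∧ z ≠ o := by
    have h1 : 2 < (Finset.univ : Finset α).card := by rw [Finset.card_univ]; omega
    obtain ⟨a, _, b, _, c, _, hab, hac, hbc⟩ := Finset.two_lt_card.1 h1
    exact ⟨a, b, c, hab, hac, hbc⟩
  let S : Sh (stabilizer G e) {x : α // x ≠ e} :=
    { z := ⟨z, Ne.symm hez⟩
      o := ⟨o, Ne.symm heo⟩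
      hzo := fun h => hzo (congrArg Subtype.val h)
      tr := fun a b c d hab hcd => by
        obtain ⟨g, h1, h2, h3⟩ := tr e a.1 b.1 e c.1 d.1 (Ne.symm a.2) (Ne.symm b.2) (fun h => hab (Subtype.ext h)) (Ne.symm c.2) (Ne.symm d.2)
          (fun h => hcd (Subtype.ext h))
        exact ⟨⟨g, h1⟩, Subtype.ext h2, Subtype.ext h3⟩
      sharp := fun g a b hab h1 h2 => by
        apply Subtype.ext
        exact sh g.1 e a.1 b.1 (Ne.symm a.2) (Ne.symm b.2) (fun h => hab (Subtype.ext h)) g.2 (congrArg Subtype.val h1) (congrArg Subtype.val h2) }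
  have hSz : S.z.1 = z := rfl
  have hSo : S.o.1 = o := rfl
  obtain ⟨w, hwe, hwz, hwo⟩ := tr e z o z e o hez heo hzo (Ne.symm hez) hzo heo
  have hww : w * w = 1 := sh _ e z o hez heo hzo (by rw [mul_smul, hwe, hwz]) (by rw [mul_smul, hwz, hwe]) (by rw [mul_smul, hwo, hwo])
  have hwi : w⁻¹ = w := inv_eq_of_mul_eq_one_left hww
  have hfix : ∀ x : α, w • x = x → x = o := by
    intro x hx
    by_contra hxo
    have h1 := Cfsg.Agent.H7.Zas3.card_fixedBy_mod (Ω := α) hww
    have h3 : Nat.card (fixedBy α w) ≤ 2 := by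
      by_contra hcon
      push Not at hcon
      have h1 : 2 < (Finset.univ.filter (fun x : α => w • x = x)).card := by
        rw [← Fintype.card_subtype, ← Nat.card_eq_fintype_card]
        exact hcon
      obtain ⟨x, hx, y, hy, v, hv, hxy, hxw, hyw⟩ := Finset.two_lt_card.1 h1
      have h2 := sh w x y v hxy hxw hyw (Finset.mem_filter.1 hx).2 (Finset.mem_filter.1 hy).2 (Finset.mem_filter.1 hv).2
      rw [h2, one_smul] at hwe
      exact hez hwe
    have h4 : 1 < Nat.card (fixedBy α w) := by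
      rw [Finite.one_lt_card_iff_nontrivial]
      exact ⟨⟨x, hx⟩, ⟨o, hwo⟩, fun h => hxo (congrArg Subtype.val h)⟩
    have h5 : Nat.card (fixedBy α w) = 2 := by omega
    rw [h5, hα] at h1
    obtain ⟨k, hk⟩ : ∃ k, f = k + 1 := ⟨f - 1, by omega⟩
    rw [hk, pow_succ] at h1
    omega
  -- conjugation by w inverts
  let H0 : Subgroup G := stabilizer G e ⊓ stabilizer G z
  have hH0 : ∀ g : G, g ∈ H0 ↔ g • e = e ∧ g • z = z := fun g => by
    rw [Subgroup.mem_inf, mem_stabilizer_iff, mem_stabilizer_iff]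
  have hwH : ∀ g ∈ H0, w * g * w⁻¹ ∈ H0 := by
    intro g hg
    rw [hH0] at hg ⊢
    rw [hwi]
    exact ⟨by rw [mul_smul, mul_smul, hwe, hg.2, hwz], by rw [mul_smul, mul_smul, hwz, hg.1, hwe]⟩
  have hfixH : ∀ g ∈ H0, w * g * w⁻¹ = g → g = 1 := by
    intro g hg h
    have hg' := (hH0 g).1 hg
    have h1 : w • (g • o) = g • o := by
      rw [mul_inv_eq_iff_eq_mul] at h
      rw [← mul_smul, h, mul_smul, hwo]
    exact sh g e z o hez heo hzo hg'.1 hg'.2 (hfix _ h1)
  let F0 : H0 → H0 := fun u => ⟨u.1⁻¹ * (w * u.1 * w⁻¹), mul_mem (inv_mem u.2) (hwH u.1 u.2)⟩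
  have hF0 : Function.Injective F0 := by
    intro u v e0
    have e1 : u.1⁻¹ * (w * u.1 * w⁻¹) = v.1⁻¹ * (w * v.1 * w⁻¹) := congrArg Subtype.val e0
    have h1 : w * (v.1 * u.1⁻¹) * w⁻¹ = v.1 * u.1⁻¹ := by
      calc w * (v.1 * u.1⁻¹) * w⁻¹ = v.1 * (v.1⁻¹ * (w * v.1 * w⁻¹)) * (w * u.1 * w⁻¹)⁻¹ := by group
        _ = v.1 * (u.1⁻¹ * (w * u.1 * w⁻¹)) * (w * u.1 * w⁻¹)⁻¹ := by rw [e1]
        _ = _ := by group
    have h2 := hfixH _ (mul_mem v.2 (inv_mem u.2)) h1
    exact Subtype.ext (mul_inv_eq_one.1 h2).symm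
  have hinvw : ∀ g ∈ H0, w * g * w⁻¹ = g⁻¹ := by
    intro g hg
    obtain ⟨u, hu⟩ := Finite.surjective_of_injective hF0 ⟨g, hg⟩
    have e1 : u.1⁻¹ * (w * u.1 * w⁻¹) = g := congrArg Subtype.val hu
    rw [← e1]
    calc w * (u.1⁻¹ * (w * u.1 * w⁻¹)) * w⁻¹ = (w * u.1⁻¹ * w⁻¹) * ((w * w) * u.1 * (w * w)⁻¹) := by group
      _ = (w * u.1⁻¹ * w⁻¹) * u.1 := by rw [hww]; group
      _ = _ := by group
  have hcomH : ∀ g ∈ H0, ∀ h ∈ H0, g * h = h * g := by
    intro g hg h hh
    have h2 := hinvw (g * h) (mul_mem hg hh)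
    have h3 : w * (g * h) * w⁻¹ = (w * g * w⁻¹) * (w * h * w⁻¹) := by group
    rw [h3, hinvw g hg, hinvw h hh, ← _root_.mul_inv_rev, _root_.inv_inj] at h2
    exact h2.symm
  have hsigH : ∀ a : {x : α // x ≠ e}, a ≠ S.z → (S.sig a).1 ∈ H0 := by
    intro a ha
    rw [hH0]
    exact ⟨(S.sig a).2, congrArg Subtype.val (S.sig_z ha)⟩
  have hc : ∀ x a, S.mu x a = S.mu a x := by
    intro x a
    by_cases ha : a = S.z
    · by_cases hx : x = S.z
      · rw [ha, hx]
      · rw [ha, S.mu_z, S.mu_of hx, S.sig_z hx]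
    · by_cases hx : x = S.z
      · rw [hx, S.mu_z, S.mu_of ha, S.sig_z ha]
      · rw [S.mu_of ha, S.mu_of hx]
        have h1 : S.sig a * S.sig x = S.sig x * S.sig a := Subtype.ext (hcomH _ (hsigH a ha) _ (hsigH x hx))
        have h2 : S.sig a • S.sig x • S.o = S.sig x • S.sig a • S.o := by rw [← mul_smul, ← mul_smul, h1]
        rwa [S.sig_o ha, S.sig_o hx] at h2
  letI FF : Field {x : α // x ≠ e} := S.fld hc
  have hadd : ∀ x y : {x : α // x ≠ e}, x + y = S.tau y • x := fun x y => rfl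
  have hmul : ∀ x y : {x : α // x ≠ e}, x * y = S.mu x y := fun x y => rfl
  have hzero : (0 : {x : α // x ≠ e}) = S.z := rfl
  have hone : (1 : {x : α // x ≠ e}) = S.o := rfl
  refine ⟨{x : α // x ≠ e}, FF, inferInstance, ?_, ?_⟩
  · rw [Fintype.card_subtype_compl, Fintype.card_subtype_eq, hα]; rfl
  let Φ : OnePoint {x : α // x ≠ e} ≃ α := Equiv.optionSubtypeNe e
  have hΦe : Φ ∞ = e := Equiv.optionSubtypeNe_none e
  have hΦ : ∀ x : {x : α // x ≠ e}, Φ (x : OnePoint {x : α // x ≠ e}) = x.1 := fun x => Equiv.optionSubtypeNe_some e x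
  let ψ : G →* Equiv.Perm (OnePoint {x : α // x ≠ e}) := (Φ.symm.permCongrHom.toMonoidHom).comp (MulAction.toPermHom G α)
  have hψ : ∀ g y t, ψ g y = t ↔ g • Φ y = Φ t := by
    intro g y t
    change Φ.symm (g • Φ y) = t ↔ _
    rw [Equiv.symm_apply_eq]
  have hψinj : Function.Injective ψ := by
    intro g h e0
    have h1 : ∀ y, g • Φ y = h • Φ y := by
      intro y
      have h2 := (hψ g y (ψ g y)).1 rfl
      have h3 := (hψ h y (ψ g y)).1 (by rw [e0])
      rw [h2, h3]
    have h2 : ∀ a : α, g • a = h • a := fun a => by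
      have := h1 (Φ.symm a)
      rwa [Equiv.apply_symm_apply] at this
    have := sh (h⁻¹ * g) e z o hez heo hzo (by rw [mul_smul, h2, inv_smul_smul]) (by rw [mul_smul, h2, inv_smul_smul]) (by rw [mul_smul, h2, inv_smul_smul])
    exact (inv_mul_eq_one.1 this).symm
  -- the affine maps
  have haff : ∀ (a b : {x : α // x ≠ e}), a ≠ 0 → ψ ((S.tau b).1 * (S.sig a).1) ∞ = ∞ ∧
      ∀ x : {x : α // x ≠ e}, ψ ((S.tau b).1 * (S.sig a).1) (x : OnePoint {x : α // x ≠ e}) = ((a * x + b : {x : α // x ≠ e}) : OnePoint {x : α // x ≠ e}) := by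
    intro a b ha
    constructor
    · rw [hψ, hΦe, mul_smul]
      have h1 : (S.sig a).1 • e = e := (S.sig a).2
      have h2 : (S.tau b).1 • e = e := (S.tau b).2
      rw [h1, h2]
    · intro x
      rw [hψ, hΦ, hΦ, hadd, hmul, hc, S.mu_of ha, mul_smul]
      rfl
  have hwinf : ψ w ∞ = ((0 : {x : α // x ≠ e}) : OnePoint {x : α // x ≠ e}) := by
    rw [hψ, hΦe, hΦ, hwe]
    rfl
  have hwzero : ψ w ((0 : {x : α // x ≠ e}) : OnePoint {x : α // x ≠ e}) = ∞ := by
    rw [hψ, hΦe, hΦ]
    exact hwz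
  have hwx : ∀ x : {x : α // x ≠ e}, x ≠ 0 → ψ w (x : OnePoint {x : α // x ≠ e}) = ((x⁻¹ : {x : α // x ≠ e}) : OnePoint {x : α // x ≠ e}) := by
    intro x hx
    rw [hψ, hΦ, hΦ]
    have hx' : x ≠ S.z := hx
    have h1 : x⁻¹ = (S.sig x)⁻¹ • S.o := by
      apply inv_eq_of_mul_eq_one_left
      rw [hmul, S.mu_of hx', smul_inv_smul, hone]
    rw [h1]
    change w • x.1 = (S.sig x).1⁻¹ • o
    have h2 := hinvw _ (hsigH x hx')
    have h3 : (S.sig x).1 • o = x.1 := congrArg Subtype.val (S.sig_o hx')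
    rw [← h2, mul_smul, mul_smul, hwi, hwo, h3]
  -- comparison with PGL
  let μ : GL (Fin 2) {x : α // x ≠ e} →* Equiv.Perm (OnePoint {x : α // x ≠ e}) := MulAction.toPermHom _ _
  have hle : ∀ g, μ g ∈ ψ.range := by
    intro g
    have hdet := g.det_ne_zero
    rw [det_fin_two] at hdet
    have hinf := OnePoint.smul_infty_eq_ite g
    have hsome := fun k => OnePoint.smul_some_eq_ite (g := g) (k := k)
    by_cases hg : g 1 0 = 0
    · have h11 : g 1 1 ≠ 0 := by
        intro h; apply hdet; rw [h, hg]; ring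
      have h00 : g 0 0 ≠ 0 := by
        intro h; apply hdet; rw [h, hg]; ring
      have h1 := haff (g 0 0 / g 1 1) (g 0 1 / g 1 1) (div_ne_zero h00 h11)
      refine ⟨(S.tau (g 0 1 / g 1 1)).1 * (S.sig (g 0 0 / g 1 1)).1, ?_⟩
      · apply Equiv.ext
        intro x
        induction x using OnePoint.rec with
        | infty =>
          rw [h1.1]
          change (∞ : OnePoint {x : α // x ≠ e}) = g • (∞ : OnePoint {x : α // x ≠ e})
          rw [hinf, if_pos hg]
        | coe i =>
          rw [h1.2]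
          change _ = g • (i : OnePoint {x : α // x ≠ e})
          rw [hsome, hg, zero_mul, zero_add, if_neg h11]
          congr 1
          field_simp
    · have h1 := haff (g 1 0) (g 1 1) hg
      have hne : (g 0 1 * g 1 0 - g 0 0 * g 1 1) / g 1 0 ≠ 0 := div_ne_zero (fun h => hdet (by linear_combination -h)) hg
      have h2 := haff ((g 0 1 * g 1 0 - g 0 0 * g 1 1) / g 1 0) (g 0 0 / g 1 0) hne
      refine ⟨((S.tau (g 0 0 / g 1 0)).1 * (S.sig ((g 0 1 * g 1 0 - g 0 0 * g 1 1) / g 1 0)).1) * w * ((S.tau (g 1 1)).1 * (S.sig (g 1 0)).1), ?_⟩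
      · rw [map_mul, map_mul]
        apply Equiv.ext
        intro x
        induction x using OnePoint.rec with
        | infty =>
          change ψ _ (ψ w (ψ _ ∞)) = g • (∞ : OnePoint {x : α // x ≠ e})
          rw [h1.1, hwinf, h2.2, hinf, if_neg hg, mul_zero, zero_add]
        | coe i =>
          change ψ _ (ψ w (ψ _ (i : OnePoint {x : α // x ≠ e}))) = g • (i : OnePoint {x : α // x ≠ e})
          rw [h1.2, hsome]
          by_cases h3 : g 1 0 * i + g 1 1 = 0
          · rw [h3, if_pos rfl, hwzero, h2.1]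
          · rw [if_neg h3, hwx _ h3, h2.2]
            congr 1
            field_simp
            ring
  have hfixe : ∀ k : G, k • e = e → ψ k ∈ μ.range := by
    intro k hk
    let g : stabilizer G e := ⟨k, hk⟩
    let b := g • S.z
    let k' : stabilizer G e := (S.tau b)⁻¹ * g
    have hkz : k' • S.z = S.z := by
      change ((S.tau b)⁻¹ * g) • S.z = S.z
      rw [mul_smul, inv_smul_eq_iff, S.tau_z]
    have ha : k' • S.o ≠ S.z := by
      intro h
      exact S.hzo (smul_left_cancel k' (hkz.trans h.symm))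
    have h1 : k = (S.tau b).1 * (S.sig (k' • S.o)).1 := by
      rw [S.sig_eq ha hkz rfl]
      change k = (S.tau b).1 * ((S.tau b).1⁻¹ * k)
      rw [mul_inv_cancel_left]
    have h2 := haff (k' • S.o) b ha
    generalize k' • S.o = a at ha h1 h2
    have ha0 : a ≠ 0 := ha
    let M : GL (Fin 2) {x : α // x ≠ e} := GeneralLinearGroup.mkOfDetNeZero (!![a, b; 0, 1] : Matrix (Fin 2) (Fin 2) {x : α // x ≠ e}) (by rw [det_fin_two_of, mul_one, mul_zero, sub_zero]; exact ha0)
    refine ⟨M, ?_⟩
    rw [h1]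
    apply Equiv.ext
    intro x
    induction x using OnePoint.rec with
    | infty =>
      rw [h2.1]
      change M • (∞ : OnePoint {x : α // x ≠ e}) = ∞
      rw [OnePoint.smul_infty_eq_ite]
      exact if_pos rfl
    | coe i =>
      rw [h2.2]
      change M • (i : OnePoint {x : α // x ≠ e}) = _
      rw [OnePoint.smul_some_eq_ite]
      change (if (0 : {x : α // x ≠ e}) * i + 1 = 0 then ∞ else (((a * i + b) / (0 * i + 1) : {x : α // x ≠ e}) : OnePoint {x : α // x ≠ e})) = _
      rw [zero_mul, zero_add, if_neg one_ne_zero, div_one]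
  have hwμ : ψ w ∈ μ.range := by
    let M : GL (Fin 2) {x : α // x ≠ e} := GeneralLinearGroup.mkOfDetNeZero (!![0, 1; 1, 0] : Matrix (Fin 2) (Fin 2) {x : α // x ≠ e}) (by rw [det_fin_two_of, zero_mul, one_mul, zero_sub]; exact neg_ne_zero.2 one_ne_zero)
    refine ⟨M, ?_⟩
    apply Equiv.ext
    intro x
    induction x using OnePoint.rec with
    | infty =>
      rw [hwinf]
      change M • (∞ : OnePoint {x : α // x ≠ e}) = _
      rw [OnePoint.smul_infty_eq_ite]
      change (if (1 : {x : α // x ≠ e}) = 0 then ∞ else (((0 : {x : α // x ≠ e}) / 1 : {x : α // x ≠ e}) : OnePoint {x : α // x ≠ e})) = _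
      rw [if_neg one_ne_zero, zero_div]
    | coe i =>
      change M • (i : OnePoint {x : α // x ≠ e}) = _
      rw [OnePoint.smul_some_eq_ite]
      change (if (1 : {x : α // x ≠ e}) * i + 0 = 0 then ∞ else (((0 * i + 1) / (1 * i + 0) : {x : α // x ≠ e}) : OnePoint {x : α // x ≠ e})) = _
      rw [one_mul, add_zero, zero_mul, zero_add]
      by_cases hi : i = 0
      · rw [if_pos hi, hi, hwzero]
      · rw [if_neg hi, hwx i hi, one_div]
  have hge : ∀ k : G, ψ k ∈ μ.range := by
    intro k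
    by_cases hk : k • e = e
    · exact hfixe k hk
    · let b : {x : α // x ≠ e} := ⟨k • e, hk⟩
      have hbe : (S.tau b).1 • e = e := (S.tau b).2
      have hbz : (S.tau b).1 • z = k • e := congrArg Subtype.val (S.tau_z b)
      have h1 : (w⁻¹ * ((S.tau b).1⁻¹ * k)) • e = e := by
        rw [mul_smul, mul_smul, inv_smul_eq_iff, inv_smul_eq_iff, hwe, hbz]
      have h2 : k = (S.tau b).1 * w * (w⁻¹ * ((S.tau b).1⁻¹ * k)) := by group
      rw [h2, map_mul, map_mul]
      exact mul_mem (mul_mem (hfixe _ hbe) hwμ) (hfixe _ h1)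
  have heq : ψ.range = μ.range := by
    apply le_antisymm
    · rintro _ ⟨k, rfl⟩
      exact hge k
    · rintro _ ⟨g, rfl⟩
      exact hle g
  have hker : μ.ker = Subgroup.center (GL (Fin 2) {x : α // x ≠ e}) := by
    ext g
    rw [MonoidHom.mem_ker, GeneralLinearGroup.mem_center_iff_val_mem_range_scalar]
    have hdet := g.det_ne_zero
    rw [det_fin_two] at hdet
    constructor
    · intro h
      have e1 : g • (∞ : OnePoint {x : α // x ≠ e}) = ∞ := congrArg (fun σ : Equiv.Perm (OnePoint {x : α // x ≠ e}) => σ ∞) h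
      have e2 : ∀ i : {x : α // x ≠ e}, g • (i : OnePoint {x : α // x ≠ e}) = i := fun i => congrArg (fun σ : Equiv.Perm (OnePoint {x : α // x ≠ e}) => σ i) h
      have h10 : g 1 0 = 0 := OnePoint.smul_infty_eq_self_iff.1 e1
      have h11 : g 1 1 ≠ 0 := by
        intro h'; apply hdet; rw [h', h10]; ring
      have e3 := e2 0
      rw [OnePoint.smul_some_eq_ite, h10, zero_mul, zero_add, if_neg h11, mul_zero, zero_add] at e3
      have h01 : g 0 1 = 0 := by
        have := OnePoint.coe_injective e3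
        rw [div_eq_zero_iff] at this
        exact this.resolve_right h11
      have e4 := e2 1
      rw [OnePoint.smul_some_eq_ite, h10, zero_mul, zero_add, if_neg h11, h01, add_zero, mul_one] at e4
      have h00 : g 0 0 = g 1 1 := by
        have := OnePoint.coe_injective e4
        rwa [div_eq_one_iff_eq h11] at this
      refine ⟨g 1 1, ?_⟩
      apply Matrix.ext
      intro i j
      rw [Matrix.scalar_apply, Matrix.diagonal_apply]
      fin_cases i <;> fin_cases j
      · exact h00.symm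
      · exact h01.symm
      · exact h10.symm
      · rfl
    · rintro ⟨r, hr⟩
      have h00 : g 0 0 = r := by
        have := congrFun (congrFun hr 0) 0
        simpa using this.symm
      have h11 : g 1 1 = r := by
        have := congrFun (congrFun hr 1) 1
        simpa using this.symm
      have h01 : g 0 1 = 0 := by
        have := congrFun (congrFun hr 0) 1
        simpa using this.symm
      have h10 : g 1 0 = 0 := by
        have := congrFun (congrFun hr 1) 0
        simpa using this.symm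
      have hr0 : r ≠ 0 := by
        rintro rfl
        apply hdet
        rw [h00, h01]; ring
      apply Equiv.ext
      intro x
      induction x using OnePoint.rec with
      | infty =>
        change g • (∞ : OnePoint {x : α // x ≠ e}) = ∞
        exact OnePoint.smul_infty_eq_self_iff.2 h10
      | coe i =>
        change g • (i : OnePoint {x : α // x ≠ e}) = i
        rw [OnePoint.smul_some_eq_ite, h10, h11, h00, h01, zero_mul, zero_add, if_neg hr0, add_zero, mul_div_cancel_left₀ _ hr0]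
  exact ⟨(MonoidHom.ofInjective hψinj).trans ((MulEquiv.subgroupCongr heq).trans
    ((QuotientGroup.quotientKerEquivRange μ).symm.trans (QuotientGroup.quotientMulEquivOfEq hker)))⟩

end three

end Cfsg.Agent.H7.NF
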