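import Cfsg.Agent.H3.Basic
import Cfsg.Agent.H2.SylCount
import Cfsg.Agent.H1.Transfer
import Cfsg.Agent.S1018
import Cfsg.Agent.H7.SLCard

/-! Simple groups of order 168: Sylow numbers -/

set_option autoImplicit false

namespace Cfsg.Agent.H7.Ord168

theorem cnt {G : Type*} [Group G] [Finite G] (p : ℕ) [Fact p.Prime] (P : Sylow p G) :
    Nat.card {g : G // g ≠ 1 ∧ IsPGroup p (Subgroup.zpowers g)} ≤ Nat.card (Sylow p G) * (Nat.card (P : Subgroup G) - 1) := by
  classical
  haveI := Fintype.ofFinite (Sylow p G)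
  have hex : ∀ g : {g : G // g ≠ 1 ∧ IsPGroup p (Subgroup.zpowers g)}, ∃ S : Sylow p G, g.1 ∈ (S : Subgroup G) := fun g => by
    obtain ⟨S, hS⟩ := g.2.2.exists_le_sylow
    exact ⟨S, hS (Subgroup.mem_zpowers _)⟩
  choose S hS using hex
  let f : {g : G // g ≠ 1 ∧ IsPGroup p (Subgroup.zpowers g)} → Σ S : Sylow p G, {x : (S : Subgroup G) // x ≠ 1} :=
    fun g => ⟨S g, ⟨⟨g.1, hS g⟩, fun h => g.2.1 (congrArg Subtype.val h)⟩⟩
  have hf : Function.Injective f := by
    intro g h hgh
    apply Subtype.ext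
    exact congrArg (fun z : (Σ S : Sylow p G, {x : (S : Subgroup G) // x ≠ 1}) => z.2.1.1) hgh
  refine (Nat.card_le_card_of_injective f hf).trans ?_
  rw [Nat.card_sigma]
  have h1 : ∀ S : Sylow p G, Nat.card {x : (S : Subgroup G) // x ≠ 1} = Nat.card (P : Subgroup G) - 1 := by
    intro S
    haveI := Fintype.ofFinite (S : Subgroup G)
    rw [Nat.card_eq_fintype_card, Fintype.card_subtype_compl, Fintype.card_subtype_eq, ← Nat.card_eq_fintype_card,
      Cfsg.Agent.H3.sylow_card_eq S P]
  rw [Finset.sum_congr rfl (fun S _ => h1 S), Finset.sum_const, Finset.card_univ, smul_eq_mul, Nat.card_eq_fintype_card (α := Sylow p G)]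

theorem notle {G : Type*} [Group G] [Finite G] [IsSimpleGroup G] (h : Nat.card G = 168) (r : ℕ) [hr : Fact r.Prime] (P : Sylow r G)
    (hP : Nat.card (P : Subgroup G) = r) :
    ¬ Subgroup.normalizer ((P : Subgroup G) : Set G) ≤ Subgroup.centralizer ((P : Subgroup G) : Set G) := by
  intro hNC
  obtain ⟨S, K, hK, hSK⟩ := Cfsg.Agent.H1.hasNormalPComplement_of_normalizer_le_centralizer P hNC
  have hSc : Nat.card (S : Subgroup G) = Nat.card (P : Subgroup G) := Cfsg.Agent.H3.sylow_card_eq S P
  have h4 : Nat.card K * Nat.card (S : Subgroup G) = Nat.card G := hSK.card_mul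
  have hr2 := hr.out.two_le
  rcases IsSimpleGroup.eq_bot_or_eq_top_of_normal K hK with h5 | h5
  · rw [h5, Subgroup.card_bot, one_mul, hSc, hP, h] at h4
    have := hr.out
    rw [h4] at this
    norm_num at this
  · rw [h5, Subgroup.card_top, hSc, hP, h] at h4
    omega

theorem main {G : Type*} [Group G] [Finite G] [IsSimpleGroup G] (h : Nat.card G = 168) :
    (Nat.card (Sylow 2 G) = 21 ∧ Nat.card (Sylow 3 G) = 28 ∧ Nat.card (Sylow 7 G) = 8) ∧
    (∀ g : G, g ≠ 1 → IsPGroup 2 (Subgroup.zpowers g) ∨ orderOf g = 3 ∨ orderOf g = 7) := by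
  classical
  haveI : Fact (Nat.Prime 7) := ⟨by norm_num⟩
  haveI : Fact (Nat.Prime 3) := ⟨by norm_num⟩
  haveI : Fact (Nat.Prime 2) := ⟨Nat.prime_two⟩
  have hc7 : ∀ P : Sylow 7 G, Nat.card (P : Subgroup G) = 7 := fun P =>
    Cfsg.Agent.H2.card_sylow_prime P (by rw [h]; norm_num) (by rw [h]; norm_num)
  have hc3 : ∀ P : Sylow 3 G, Nat.card (P : Subgroup G) = 3 := fun P =>
    Cfsg.Agent.H2.card_sylow_prime P (by rw [h]; norm_num) (by rw [h]; norm_num)
  obtain ⟨P⟩ := (inferInstance : Nonempty (Sylow 7 G))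
  have hidx7 : ∀ P : Sylow 7 G, Nat.card (Sylow 7 G) = (Subgroup.normalizer ((P : Subgroup G) : Set G)).index := fun P => P.card_eq_index_normalizer
  have hidx3 : ∀ P : Sylow 3 G, Nat.card (Sylow 3 G) = (Subgroup.normalizer ((P : Subgroup G) : Set G)).index := fun P => P.card_eq_index_normalizer
  have hn7 : Nat.card (Sylow 7 G) = 8 := by
    have hn1 := card_sylow_modEq_one 7 G
    have hn2 : Nat.card (Sylow 7 G) ∣ 24 := by
      have h3 := P.card_dvd_index
      have h4 := (P : Subgroup G).card_mul_index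
      rw [hc7 P, h] at h4
      have h5 : (P : Subgroup G).index = 24 := by omega
      rwa [h5] at h3
    unfold Nat.ModEq at hn1
    have h4 : Nat.card (Sylow 7 G) = 1 ∨ Nat.card (Sylow 7 G) = 8 := by
      generalize Nat.card (Sylow 7 G) = n at hn1 hn2
      have h4 : n ∈ Nat.divisors 24 := Nat.mem_divisors.2 ⟨hn2, by norm_num⟩
      have h5 : Nat.divisors 24 = {1, 2, 3, 4, 6, 8, 12, 24} := by decide +kernel
      rw [h5] at h4
      simp only [Finset.mem_insert, Finset.mem_singleton] at h4
      omega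
    rcases h4 with h3 | h3
    · exfalso
      haveI : Subsingleton (Sylow 7 G) := (Nat.card_eq_one_iff_unique.1 h3).1
      have hn := Sylow.normal_of_subsingleton P
      have hPc := hc7 P
      rcases IsSimpleGroup.eq_bot_or_eq_top_of_normal (P : Subgroup G) hn with h5 | h5
      · rw [h5, Subgroup.card_bot] at hPc
        omega
      · rw [h5, Subgroup.card_top, h] at hPc
        omega
    · exact h3
  have hN7 : ∀ P : Sylow 7 G, Nat.card (Subgroup.normalizer ((P : Subgroup G) : Set G)) = 21 := by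
    intro P
    have h5 := (Subgroup.normalizer ((P : Subgroup G) : Set G)).card_mul_index
    rw [← hidx7 P, hn7, h] at h5
    omega
  have hCN : ∀ K : Subgroup G, Nat.card (Subgroup.centralizer (K : Set G)) * (Subgroup.centralizer (K : Set G)).relIndex (Subgroup.normalizer (K : Set G)) =
      Nat.card (Subgroup.normalizer (K : Set G)) := by
    intro K
    have h1 := ((Subgroup.centralizer (K : Set G)).subgroupOf (Subgroup.normalizer (K : Set G))).card_mul_index
    rw [Nat.card_congr (Subgroup.subgroupOfEquivOfLe (Subgroup.centralizer_le_normalizer (K : Set G))).toEquiv] at h1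
    exact h1
  have hC7 : ∀ P : Sylow 7 G, Nat.card (Subgroup.centralizer ((P : Subgroup G) : Set G)) = 7 := by
    intro P
    have h1 := Cfsg.Agent.H2.relIndex_centralizer_dvd (G := G) (r := 7) (by norm_num) (hc7 P)
    have h2 := hCN (P : Subgroup G)
    rw [hN7 P] at h2
    have h3 : (Subgroup.centralizer ((P : Subgroup G) : Set G)).relIndex (Subgroup.normalizer ((P : Subgroup G) : Set G)) ≠ 1 := by
      intro h3
      rw [Subgroup.relIndex_eq_one] at h3
      exact notle h 7 P (hc7 P) h3
    generalize (Subgroup.centralizer ((P : Subgroup G) : Set G)).relIndex (Subgroup.normalizer ((P : Subgroup G) : Set G)) = d at h1 h2 h3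
    generalize Nat.card (Subgroup.centralizer ((P : Subgroup G) : Set G)) = c at h2
    have h4 : d ≤ 6 := Nat.le_of_dvd (by norm_num) h1
    interval_cases d <;> omega
  have hcomm : ∀ (r : ℕ) [Fact r.Prime], (∀ P : Sylow r G, Nat.card (P : Subgroup G) = r) → (∀ P : Sylow r G, Nat.card (Subgroup.centralizer ((P : Subgroup G) : Set G)) = r) →
      ∀ g y : G, orderOf y = r → Commute g y → orderOf g ∣ r := by
    intro r _ hc hC g y hy hgy
    have h1 : IsPGroup r (Subgroup.zpowers y) := IsPGroup.of_card (n := 1) (by rw [Nat.card_zpowers, hy, pow_one])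
    obtain ⟨Q, hQ⟩ := h1.exists_le_sylow
    have h2 : Subgroup.zpowers y = (Q : Subgroup G) := Subgroup.eq_of_le_of_card_ge hQ (by rw [hc, Nat.card_zpowers, hy])
    have h3 : g ∈ Subgroup.centralizer ((Q : Subgroup G) : Set G) := by
      rw [← h2, Subgroup.mem_centralizer_iff]
      intro z hz
      obtain ⟨k, rfl⟩ := Subgroup.mem_zpowers_iff.1 hz
      exact (hgy.symm.zpow_left k).eq
    have h4 := Subgroup.orderOf_dvd_natCard _ h3
    rwa [hC] at h4
  -- an element of order 3 in N
  set N := Subgroup.normalizer ((P : Subgroup G) : Set G) with hN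
  have hNi : N.index = 8 := by rw [← hidx7 P, hn7]
  have hPc := hc7 P
  obtain ⟨⟨t, htN⟩, ht'⟩ := exists_prime_orderOf_dvd_card' (G := N) 3 (by rw [hN7 P]; norm_num)
  have ht : orderOf t = 3 := by rw [← ht', ← Subgroup.orderOf_coe]
  have htC : t ∉ Subgroup.centralizer ((P : Subgroup G) : Set G) := by
    intro htC
    have h2 : orderOf t ∣ Nat.card (Subgroup.centralizer ((P : Subgroup G) : Set G)) := Subgroup.orderOf_dvd_natCard _ htC
    rw [hC7 P, ht] at h2
    norm_num at h2
  obtain ⟨hfixp, hfixt⟩ := Cfsg.Agent.S1018.result 7 P hPc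
  let X := G ⧸ N
  haveI : Fintype X := Fintype.ofFinite X
  have hXc : Nat.card X = 8 := hNi
  obtain ⟨⟨x, hxP⟩, hx'⟩ := exists_prime_orderOf_dvd_card' (G := (P : Subgroup G)) 7 (by rw [hPc])
  have hx : orderOf x = 7 := by rw [← hx', ← Subgroup.orderOf_coe]
  have hfx := hfixp x hx
  have hzP : Subgroup.zpowers x = (P : Subgroup G) :=
    Subgroup.eq_of_le_of_card_ge (by rw [Subgroup.zpowers_le]; exact hxP) (by rw [hPc, Nat.card_zpowers, hx])
  let a0 : X := ((1 : G) : G ⧸ N)
  have ha0 : ∀ g : G, g • a0 = a0 ↔ g ∈ N := by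
    intro g
    change ((g * 1 : G) : G ⧸ N) = ((1 : G) : G ⧸ N) ↔ _
    rw [mul_one, eq_comm, QuotientGroup.eq, inv_one, one_mul]
  have huniq : ∀ a : X, x • a = a → a = a0 := by
    intro a ha
    haveI := (Nat.card_eq_one_iff_unique.1 hfx).1
    have := Subsingleton.elim (⟨a, ha⟩ : MulAction.fixedBy X x) ⟨a0, (ha0 x).2 (Subgroup.le_normalizer hxP)⟩
    exact congrArg Subtype.val this
  have ht2 : Nat.card (MulAction.fixedBy X t) ≤ 2 := by
    refine (hfixt t htN htC).trans ?_
    have horb : ∀ a : X, a ≠ a0 → Nat.card (MulAction.orbit (P : Subgroup G) a) = 7 := by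
      intro a ha
      have h4 : Nat.card (P : Subgroup G) = Nat.card (MulAction.orbit (P : Subgroup G) a) * Nat.card (MulAction.stabilizer (P : Subgroup G) a) := by
        rw [← Nat.card_prod]
        exact Nat.card_congr (MulAction.orbitProdStabilizerEquivGroup (P : Subgroup G) a).symm
      have h5 : Nat.card (MulAction.orbit (P : Subgroup G) a) ∣ 7 := ⟨_, hPc.symm.trans h4⟩
      rcases (Nat.dvd_prime (by norm_num)).1 h5 with h6 | h6
      · exfalso
        apply ha
        apply huniq
        haveI := (Nat.card_eq_one_iff_unique.1 h6).1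
        have h7 : (⟨x • a, ⟨⟨x, hxP⟩, rfl⟩⟩ : MulAction.orbit (P : Subgroup G) a) = ⟨a, MulAction.mem_orbit_self a⟩ := Subsingleton.elim _ _
        exact congrArg Subtype.val h7
      · exact h6
    have hone : ∀ a b : X, a ≠ a0 → b ≠ a0 → (Quotient.mk _ a : MulAction.orbitRel.Quotient ↥(P : Subgroup G) X) = Quotient.mk _ b := by
      intro a b ha hb
      apply Quotient.sound
      change a ∈ MulAction.orbit (P : Subgroup G) b
      by_contra hab
      have h1 : (MulAction.orbit (P : Subgroup G) b).ncard = 7 := by rw [← Nat.card_coe_set_eq]; exact horb b hb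
      have h2 : (MulAction.orbit (P : Subgroup G) a).ncard = 7 := by rw [← Nat.card_coe_set_eq]; exact horb a ha
      have h3 : Disjoint (MulAction.orbit (P : Subgroup G) a) (MulAction.orbit (P : Subgroup G) b) := by
        rw [Set.disjoint_left]
        intro y hy1 hy2
        apply hab
        have e1 := MulAction.orbit_eq_iff.2 hy1
        have e2 := MulAction.orbit_eq_iff.2 hy2
        rw [← e2, e1]
        exact MulAction.mem_orbit_self a
      have h4 := Set.ncard_union_eq h3 (Set.toFinite _) (Set.toFinite _)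
      have h5 := Set.ncard_le_ncard (Set.subset_univ (MulAction.orbit (P : Subgroup G) a ∪ MulAction.orbit (P : Subgroup G) b)) (Set.toFinite _)
      rw [Set.ncard_univ, hXc, h4, h1, h2] at h5
      omega
    have hinj : Function.Injective (fun q : MulAction.orbitRel.Quotient ↥(P : Subgroup G) X => decide (q = Quotient.mk _ a0)) := by
      intro q r hqr
      change decide (q = Quotient.mk _ a0) = decide (r = Quotient.mk _ a0) at hqr
      induction q using Quotient.inductionOn with
      | h a =>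
        induction r using Quotient.inductionOn with
        | h b =>
          by_cases h1 : (Quotient.mk _ a : MulAction.orbitRel.Quotient ↥(P : Subgroup G) X) = Quotient.mk _ a0
          · rw [decide_eq_true h1, eq_comm, decide_eq_true_iff] at hqr
            rw [h1, hqr]
          · rw [decide_eq_false h1, eq_comm, decide_eq_false_iff_not] at hqr
            exact hone a b (fun h => h1 (by rw [h])) (fun h => hqr (by rw [h]))
    have := Nat.card_le_card_of_injective _ hinj
    rwa [Nat.card_eq_fintype_card (α := Bool), Fintype.card_bool] at this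
  -- the centralizer of t
  set Ct := Subgroup.centralizer ({t} : Set G) with hCt
  have hCt6 : Nat.card Ct ≤ 6 := by
    have h1 : (MulAction.stabilizer Ct a0).index ≤ 2 := by
      rw [MulAction.index_stabilizer]
      refine le_trans (Set.ncard_le_ncard ?_ (Set.toFinite (MulAction.fixedBy X t))) (by rw [← Nat.card_coe_set_eq]; exact ht2)
      rintro _ ⟨c, rfl⟩
      rw [MulAction.mem_fixedBy]
      change t • c.1 • a0 = c.1 • a0
      have h2 := (Subgroup.mem_centralizer_iff.1 c.2) t rfl
      rw [← mul_smul, h2, mul_smul, (ha0 t).2 htN]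
    have h2 : Nat.card (MulAction.stabilizer Ct a0) ≤ 3 := by
      have h3 : Nat.card (MulAction.stabilizer Ct a0) = Nat.card ↥(Ct ⊓ N) := by
        apply Nat.card_congr
        refine ⟨fun c => ⟨c.1.1, c.1.2, (ha0 _).1 c.2⟩, fun c => ⟨⟨c.1, c.2.1⟩, (ha0 _).2 c.2.2⟩, fun c => rfl, fun c => rfl⟩
      rw [h3]
      have h4 : Nat.card ↥(Ct ⊓ N) ∣ 21 := by
        rw [← hN7 P]
        exact Subgroup.card_dvd_of_le inf_le_right
      have h5 : ¬ 7 ∣ Nat.card ↥(Ct ⊓ N) := by
        intro h5
        obtain ⟨⟨y, hy⟩, hy'⟩ := exists_prime_orderOf_dvd_card' (G := ↥(Ct ⊓ N)) 7 h5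
        have hy7 : orderOf y = 7 := by rw [← hy', ← Subgroup.orderOf_coe]
        have h6 := hcomm 7 hc7 hC7 t y hy7 ((Subgroup.mem_centralizer_iff.1 hy.1) t rfl)
        rw [ht] at h6
        norm_num at h6
      have h6 : Nat.card ↥(Ct ⊓ N) ∣ 3 := by
        have : Nat.Coprime (Nat.card ↥(Ct ⊓ N)) 7 := ((Nat.Prime.coprime_iff_not_dvd (by norm_num : Nat.Prime 7)).2 h5).symm
        exact this.dvd_of_dvd_mul_left (by norm_num; exact h4 : Nat.card ↥(Ct ⊓ N) ∣ 7 * 3)
      exact Nat.le_of_dvd (by norm_num) h6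
    have h3 := (MulAction.stabilizer Ct a0).card_mul_index
    calc Nat.card Ct = Nat.card (MulAction.stabilizer Ct a0) * (MulAction.stabilizer Ct a0).index := h3.symm
      _ ≤ 3 * 2 := Nat.mul_le_mul h2 h1
  -- Sylow 3
  have htp : IsPGroup 3 (Subgroup.zpowers t) := IsPGroup.of_card (n := 1) (by rw [Nat.card_zpowers, ht, pow_one])
  obtain ⟨T, hT⟩ := htp.exists_le_sylow
  have htT : Subgroup.zpowers t = (T : Subgroup G) := Subgroup.eq_of_le_of_card_ge hT (by rw [hc3, Nat.card_zpowers, ht])
  have hCT : Nat.card (Subgroup.centralizer ((T : Subgroup G) : Set G)) ≤ 6 := by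
    refine (Subgroup.card_le_of_le (Subgroup.centralizer_le ?_)).trans hCt6
    rw [Set.singleton_subset_iff, SetLike.mem_coe, ← htT]
    exact Subgroup.mem_zpowers t
  have hNT : Nat.card (Subgroup.normalizer ((T : Subgroup G) : Set G)) ≤ 12 := by
    rw [← hCN (T : Subgroup G)]
    have h1 := Cfsg.Agent.H2.relIndex_centralizer_dvd (G := G) (r := 3) (by norm_num) (hc3 T)
    have h2 := Nat.le_of_dvd (by norm_num) h1
    calc _ ≤ 6 * (3 - 1) := Nat.mul_le_mul hCT h2
      _ = 12 := by norm_num
  have hn3 : Nat.card (Sylow 3 G) = 28 := by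
    have hn1 := card_sylow_modEq_one 3 G
    have hn2 : Nat.card (Sylow 3 G) ∣ 56 := by
      have h3 := T.card_dvd_index
      have h4 := (T : Subgroup G).card_mul_index
      rw [hc3 T, h] at h4
      have h5 : (T : Subgroup G).index = 56 := by omega
      rwa [h5] at h3
    have h5 := (Subgroup.normalizer ((T : Subgroup G) : Set G)).card_mul_index
    rw [← hidx3 T, h] at h5
    unfold Nat.ModEq at hn1
    have h6 : 14 ≤ Nat.card (Sylow 3 G) := by
      by_contra hcon
      have h7 : Nat.card (Sylow 3 G) ≤ 13 := by omega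
      have h8 := Nat.mul_le_mul hNT h7
      rw [h5] at h8
      omega
    generalize Nat.card (Sylow 3 G) = n at hn1 hn2 h6
    have h4 : n ∈ Nat.divisors 56 := Nat.mem_divisors.2 ⟨hn2, by norm_num⟩
    have h5 : Nat.divisors 56 = {1, 2, 4, 7, 8, 14, 28, 56} := by decide +kernel
    rw [h5] at h4
    simp only [Finset.mem_insert, Finset.mem_singleton] at h4
    omega
  have hN3 : ∀ P : Sylow 3 G, Nat.card (Subgroup.normalizer ((P : Subgroup G) : Set G)) = 6 := by
    intro P
    have h5 := (Subgroup.normalizer ((P : Subgroup G) : Set G)).card_mul_index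
    rw [← hidx3 P, hn3, h] at h5
    omega
  have hC3 : ∀ P : Sylow 3 G, Nat.card (Subgroup.centralizer ((P : Subgroup G) : Set G)) = 3 := by
    intro P
    have h1 := Cfsg.Agent.H2.relIndex_centralizer_dvd (G := G) (r := 3) (by norm_num) (hc3 P)
    have h2 := hCN (P : Subgroup G)
    rw [hN3 P] at h2
    have h3 : (Subgroup.centralizer ((P : Subgroup G) : Set G)).relIndex (Subgroup.normalizer ((P : Subgroup G) : Set G)) ≠ 1 := by
      intro h3
      rw [Subgroup.relIndex_eq_one] at h3
      exact notle h 3 P (hc3 P) h3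
    generalize (Subgroup.centralizer ((P : Subgroup G) : Set G)).relIndex (Subgroup.normalizer ((P : Subgroup G) : Set G)) = d at h1 h2 h3
    generalize Nat.card (Subgroup.centralizer ((P : Subgroup G) : Set G)) = c at h2
    have h4 : d ≤ 2 := Nat.le_of_dvd (by norm_num) h1
    interval_cases d <;> omega
  have hcases : ∀ g : G, g ≠ 1 → IsPGroup 2 (Subgroup.zpowers g) ∨ orderOf g = 3 ∨ orderOf g = 7 := by
    intro g hg
    have hne : orderOf g ≠ 1 := fun h => hg (orderOf_eq_one_iff.1 h)
    have hkey : ∀ (r : ℕ) [Fact r.Prime], (∀ P : Sylow r G, Nat.card (P : Subgroup G) = r) → (∀ P : Sylow r G, Nat.card (Subgroup.centralizer ((P : Subgroup G) : Set G)) = r) →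
        r ∣ orderOf g → orderOf g = r := by
      intro r hr hc hC hd
      have h1 : orderOf (g ^ (orderOf g / r)) = r := by
        rw [orderOf_pow_of_dvd (Nat.div_pos (Nat.le_of_dvd (orderOf_pos g) hd) hr.out.pos).ne' (Nat.div_dvd_of_dvd hd)]
        exact Nat.div_div_self hd (orderOf_pos g).ne'
      have h2 := hcomm r hc hC g (g ^ (orderOf g / r)) h1 ((Commute.refl g).pow_right _)
      rcases (Nat.dvd_prime hr.out).1 h2 with h3 | h3
      · exact absurd h3 hne
      · exact h3
    by_cases h7 : 7 ∣ orderOf g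
    · exact Or.inr (Or.inr (hkey 7 hc7 hC7 h7))
    by_cases h3 : 3 ∣ orderOf g
    · exact Or.inr (Or.inl (hkey 3 hc3 hC3 h3))
    left
    have h1 : orderOf g ∣ 168 := by rw [← h]; exact orderOf_dvd_natCard g
    have h2 : orderOf g ∣ 2 ^ 3 := by
      have c7 : Nat.Coprime (orderOf g) 7 := ((Nat.Prime.coprime_iff_not_dvd (by norm_num : Nat.Prime 7)).2 h7).symm
      have c3 : Nat.Coprime (orderOf g) 3 := ((Nat.Prime.coprime_iff_not_dvd (by norm_num : Nat.Prime 3)).2 h3).symm
      have h4 : orderOf g ∣ 7 * 24 := h1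
      have h5 : orderOf g ∣ 3 * 8 := c7.dvd_of_dvd_mul_left h4
      have h6 : orderOf g ∣ 8 := c3.dvd_of_dvd_mul_left h5
      exact h6
    obtain ⟨j, _, hj⟩ := (Nat.dvd_prime_pow Nat.prime_two).1 h2
    exact IsPGroup.of_card (n := j) (by rw [Nat.card_zpowers, hj])
  refine ⟨⟨?_, hn3, hn7⟩, hcases⟩
  -- Sylow 2
  obtain ⟨S⟩ := (inferInstance : Nonempty (Sylow 2 G))
  have hSc : Nat.card (S : Subgroup G) = 8 := by
    have := Cfsg.Agent.H7.Tv.sylow_card_of (G := G) (p := 2) (q := 2) (a := 3) (m := 21) (f := 1) (by norm_num) (by rw [h]; norm_num) (by norm_num) S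
    rw [this]; norm_num
  have hn2 : Nat.card (Sylow 2 G) ∣ 21 := by
    have h3 := S.card_dvd_index
    have h4 := (S : Subgroup G).card_mul_index
    rw [hSc, h] at h4
    have h5 : (S : Subgroup G).index = 21 := by omega
    rwa [h5] at h3
  have c2 := cnt 2 S
  have c3 := cnt 3 T
  have c7 := cnt 7 P
  rw [hSc] at c2
  rw [hc3 T, hn3] at c3
  rw [hc7 P, hn7] at c7
  let A (p : ℕ) : Set G := {g | g ≠ 1 ∧ IsPGroup p (Subgroup.zpowers g)}
  have hA : ∀ p, Nat.card {g : G // g ≠ 1 ∧ IsPGroup p (Subgroup.zpowers g)} = (A p).ncard := fun p => Nat.card_coe_set_eq (A p)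
  rw [hA] at c2 c3 c7
  have hcov : (Set.univ : Set G) ⊆ {1} ∪ (A 2 ∪ (A 3 ∪ A 7)) := by
    intro g _
    by_cases hg : g = 1
    · exact Or.inl hg
    · right
      rcases hcases g hg with h1 | h1 | h1
      · exact Or.inl ⟨hg, h1⟩
      · exact Or.inr (Or.inl ⟨hg, IsPGroup.of_card (n := 1) (by rw [Nat.card_zpowers, h1, pow_one])⟩)
      · exact Or.inr (Or.inr ⟨hg, IsPGroup.of_card (n := 1) (by rw [Nat.card_zpowers, h1, pow_one])⟩)
  have hle := Set.ncard_le_ncard hcov (Set.toFinite _)
  rw [Set.ncard_univ, h] at hle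
  have u1 := Set.ncard_union_le ({1} : Set G) (A 2 ∪ (A 3 ∪ A 7))
  have u2 := Set.ncard_union_le (A 2) (A 3 ∪ A 7)
  have u3 := Set.ncard_union_le (A 3) (A 7)
  rw [Set.ncard_singleton] at u1
  have h9 : 9 ≤ Nat.card (Sylow 2 G) := by omega
  generalize Nat.card (Sylow 2 G) = n at hn2 h9
  have h4 : n ∈ Nat.divisors 21 := Nat.mem_divisors.2 ⟨hn2, by norm_num⟩
  have h5 : Nat.divisors 21 = {1, 3, 7, 21} := by decide +kernel
  rw [h5] at h4
  simp only [Finset.mem_insert, Finset.mem_singleton] at h4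
  omega

end Cfsg.Agent.H7.Ord168
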