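import Cfsg.Agent.H7.Ord168

/-! Simple groups of order 168: classes -/

set_option autoImplicit false

namespace Cfsg.Agent.H7.Ord168

theorem cnt_ge {G : Type*} [Group G] [Finite G] (p : ℕ) [hp : Fact p.Prime] (hc : ∀ P : Sylow p G, Nat.card (P : Subgroup G) = p) :
    Nat.card (Sylow p G) * (p - 1) ≤ Nat.card {g : G // orderOf g = p} := by
  classical
  haveI := Fintype.ofFinite (Sylow p G)
  have hord : ∀ (S : Sylow p G) (x : (S : Subgroup G)), x ≠ 1 → orderOf x.1 = p := by
    intro S x hx
    have h1 : orderOf x ∣ p := by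
      have := orderOf_dvd_natCard x
      rwa [hc S] at this
    rw [Subgroup.orderOf_coe]
    rcases (Nat.dvd_prime hp.out).1 h1 with h2 | h2
    · exact absurd (orderOf_eq_one_iff.1 h2) hx
    · exact h2
  let f : (Σ S : Sylow p G, {x : (S : Subgroup G) // x ≠ 1}) → {g : G // orderOf g = p} :=
    fun z => ⟨z.2.1.1, hord z.1 z.2.1 z.2.2⟩
  have hf : Function.Injective f := by
    rintro ⟨S, x, hx⟩ ⟨T, y, hy⟩ h
    have h1 : x.1 = y.1 := congrArg Subtype.val h
    have h2 : Subgroup.zpowers x.1 = (S : Subgroup G) :=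
      Subgroup.eq_of_le_of_card_ge (by rw [Subgroup.zpowers_le]; exact x.2) (by rw [hc, Nat.card_zpowers, hord S x hx])
    have h3 : Subgroup.zpowers y.1 = (T : Subgroup G) :=
      Subgroup.eq_of_le_of_card_ge (by rw [Subgroup.zpowers_le]; exact y.2) (by rw [hc, Nat.card_zpowers, hord T y hy])
    have h4 : S = T := Sylow.ext (by rw [← h2, ← h3, h1])
    subst h4
    have h5 : x = y := Subtype.ext h1
    subst h5
    rfl
  refine le_trans (le_of_eq ?_) (Nat.card_le_card_of_injective f hf)
  rw [Nat.card_sigma]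
  have h1 : ∀ S : Sylow p G, Nat.card {x : (S : Subgroup G) // x ≠ 1} = p - 1 := by
    intro S
    haveI := Fintype.ofFinite (S : Subgroup G)
    rw [Nat.card_eq_fintype_card, Fintype.card_subtype_compl, Fintype.card_subtype_eq, ← Nat.card_eq_fintype_card, hc S]
  rw [Finset.sum_congr rfl (fun S _ => h1 S), Finset.sum_const, Finset.card_univ, smul_eq_mul, Nat.card_eq_fintype_card (α := Sylow p G)]

/-- if the centraliser of `g` has order `c` then the class has size `168 / c` -/
theorem class_le {G : Type*} [Group G] [Finite G] {n m : ℕ} (g : G) (hg : orderOf g = n)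
    (hm : (Subgroup.centralizer ({g} : Set G)).index = m) : m ≤ Nat.card {y : G // orderOf y = n} := by
  rw [← hm, ← Cfsg.Agent.H3.card_isConj]
  refine Nat.card_le_card_of_injective (fun y : {y : G // IsConj g y} => (⟨y.1, ?_⟩ : {y : G // orderOf y = n})) ?_
  · obtain ⟨c, hc⟩ := isConj_iff.1 y.2
    rw [← hc, ← hg]
    exact MulEquiv.orderOf_eq (MulAut.conj c) g
  · intro a b hab
    exact Subtype.ext (congrArg (fun z : {y : G // orderOf y = n} => z.1) hab)

theorem class_eq {G : Type*} [Group G] [Finite G] {n m : ℕ} (g : G) (hg : orderOf g = n)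
    (hm : (Subgroup.centralizer ({g} : Set G)).index = m) (hle : Nat.card {y : G // orderOf y = n} ≤ m) :
    ∀ y : G, orderOf y = n → IsConj g y := by
  have hm' : Nat.card {y : G // IsConj g y} = m := by rw [Cfsg.Agent.H3.card_isConj, hm]
  have hord : ∀ y : {y : G // IsConj g y}, orderOf y.1 = n := by
    intro y
    obtain ⟨c, hc⟩ := isConj_iff.1 y.2
    rw [← hc, ← hg]
    exact MulEquiv.orderOf_eq (MulAut.conj c) g
  let f : {y : G // IsConj g y} → {y : G // orderOf y = n} := fun y => ⟨y.1, hord y⟩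
  have hf : Function.Injective f := fun a b hab => Subtype.ext (congrArg (fun z : {y : G // orderOf y = n} => z.1) hab)
  have hb : Function.Bijective f := by
    rw [Nat.bijective_iff_injective_and_card]
    exact ⟨hf, le_antisymm (Nat.card_le_card_of_injective f hf) (by rw [hm']; exact hle)⟩
  intro y hy
  obtain ⟨z, hz⟩ := hb.2 ⟨y, hy⟩
  have h1 : z.1 = y := congrArg Subtype.val hz
  rw [← h1]
  exact z.2

theorem main2 {G : Type*} [Group G] [Finite G] [IsSimpleGroup G] (h : Nat.card G = 168)
    (hC3 : ∀ g y : G, orderOf y = 3 → Commute g y → orderOf g ∣ 3) (hC7 : ∀ g y : G, orderOf y = 7 → Commute g y → orderOf g ∣ 7) :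
    (∀ g : G, orderOf g = 1 ∨ orderOf g = 2 ∨ orderOf g = 3 ∨ orderOf g = 4 ∨ orderOf g = 7) ∧
    Nat.card {g : G // orderOf g = 2} = 21 ∧ (∀ s t : G, orderOf s = 2 → orderOf t = 2 → IsConj s t) ∧
    Nat.card {g : G // orderOf g = 3} = 56 ∧ (∀ s t : G, orderOf s = 3 → orderOf t = 3 → IsConj s t) ∧
    Nat.card {g : G // orderOf g = 4} = 42 ∧ (∀ s t : G, orderOf s = 4 → orderOf t = 4 → IsConj s t) ∧
    Nat.card {g : G // orderOf g = 7} = 48 := by
  classical
  haveI : Fact (Nat.Prime 7) := ⟨by norm_num⟩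
  haveI : Fact (Nat.Prime 3) := ⟨by norm_num⟩
  haveI : Fact (Nat.Prime 2) := ⟨Nat.prime_two⟩
  obtain ⟨⟨hn2, hn3, hn7⟩, hcases⟩ := main h
  have hc7 : ∀ P : Sylow 7 G, Nat.card (P : Subgroup G) = 7 := fun P =>
    Cfsg.Agent.H2.card_sylow_prime P (by rw [h]; norm_num) (by rw [h]; norm_num)
  have hc3 : ∀ P : Sylow 3 G, Nat.card (P : Subgroup G) = 3 := fun P =>
    Cfsg.Agent.H2.card_sylow_prime P (by rw [h]; norm_num) (by rw [h]; norm_num)
  have hc2 : ∀ S : Sylow 2 G, Nat.card (S : Subgroup G) = 8 := fun S => by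
    have := Cfsg.Agent.H7.Tv.sylow_card_of (G := G) (p := 2) (q := 2) (a := 3) (m := 21) (f := 1) (by norm_num) (by rw [h]; norm_num) (by norm_num) S
    rw [this]; norm_num
  -- Sylow 2-subgroups are nonabelian
  have hnab : ∀ S : Sylow 2 G, ¬ ∀ a ∈ (S : Subgroup G), ∀ b ∈ (S : Subgroup G), a * b = b * a := by
    intro S hab
    have hidx : Nat.card (Sylow 2 G) = (Subgroup.normalizer ((S : Subgroup G) : Set G)).index := S.card_eq_index_normalizer
    have h5 := (Subgroup.normalizer ((S : Subgroup G) : Set G)).card_mul_index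
    rw [← hidx, hn2, h] at h5
    have hNS : (S : Subgroup G) = Subgroup.normalizer ((S : Subgroup G) : Set G) :=
      Subgroup.eq_of_le_of_card_ge Subgroup.le_normalizer (by rw [hc2]; omega)
    have hNC : Subgroup.normalizer ((S : Subgroup G) : Set G) ≤ Subgroup.centralizer ((S : Subgroup G) : Set G) := by
      rw [← hNS]
      intro x hx
      rw [Subgroup.mem_centralizer_iff]
      exact fun y hy => hab y hy x hx
    obtain ⟨S', K, hK, hSK⟩ := Cfsg.Agent.H1.hasNormalPComplement_of_normalizer_le_centralizer S hNC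
    have h4 : Nat.card K * Nat.card (S' : Subgroup G) = Nat.card G := hSK.card_mul
    rcases IsSimpleGroup.eq_bot_or_eq_top_of_normal K hK with h5 | h5
    · rw [h5, Subgroup.card_bot, one_mul, hc2, h] at h4
      omega
    · rw [h5, Subgroup.card_top, hc2, h] at h4
      omega
  -- 2-elements have centralisers of order dividing 8
  have hcent2 : ∀ u : G, u ≠ 1 → orderOf u ∣ 8 → Nat.card (Subgroup.centralizer ({u} : Set G)) ∣ 8 := by
    intro u hu1 hu
    have h3 : ¬ 3 ∣ Nat.card (Subgroup.centralizer ({u} : Set G)) := by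
      intro hd
      obtain ⟨⟨y, hy⟩, hy'⟩ := exists_prime_orderOf_dvd_card' (G := Subgroup.centralizer ({u} : Set G)) 3 hd
      have hy3 : orderOf y = 3 := by rw [← hy', ← Subgroup.orderOf_coe]
      have h6 := hC3 u y hy3 ((Subgroup.mem_centralizer_iff.1 hy) u rfl)
      have h7 := Nat.eq_one_of_dvd_coprimes (by norm_num : Nat.Coprime 3 8) h6 hu
      exact hu1 (orderOf_eq_one_iff.1 h7)
    have h7 : ¬ 7 ∣ Nat.card (Subgroup.centralizer ({u} : Set G)) := by
      intro hd
      obtain ⟨⟨y, hy⟩, hy'⟩ := exists_prime_orderOf_dvd_card' (G := Subgroup.centralizer ({u} : Set G)) 7 hd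
      have hy3 : orderOf y = 7 := by rw [← hy', ← Subgroup.orderOf_coe]
      have h6 := hC7 u y hy3 ((Subgroup.mem_centralizer_iff.1 hy) u rfl)
      have h7 := Nat.eq_one_of_dvd_coprimes (by norm_num : Nat.Coprime 7 8) h6 hu
      exact hu1 (orderOf_eq_one_iff.1 h7)
    have h1 : Nat.card (Subgroup.centralizer ({u} : Set G)) ∣ 7 * 24 := by
      rw [show 7 * 24 = 168 by norm_num, ← h]; exact Subgroup.card_subgroup_dvd_card _
    have c7 : Nat.Coprime (Nat.card (Subgroup.centralizer ({u} : Set G))) 7 := ((Nat.Prime.coprime_iff_not_dvd (by norm_num : Nat.Prime 7)).2 h7).symm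
    have c3 : Nat.Coprime (Nat.card (Subgroup.centralizer ({u} : Set G))) 3 := ((Nat.Prime.coprime_iff_not_dvd (by norm_num : Nat.Prime 3)).2 h3).symm
    have h5 : Nat.card (Subgroup.centralizer ({u} : Set G)) ∣ 3 * 8 := c7.dvd_of_dvd_mul_left h1
    exact c3.dvd_of_dvd_mul_left h5
  obtain ⟨S⟩ := (inferInstance : Nonempty (Sylow 2 G))
  -- an element of order 4 in S
  have hord8 : ∀ g : G, orderOf g ≠ 8 := by
    intro g hg
    have h1 : IsPGroup 2 (Subgroup.zpowers g) := IsPGroup.of_card (n := 3) (by rw [Nat.card_zpowers, hg]; norm_num)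
    obtain ⟨Q, hQ⟩ := h1.exists_le_sylow
    have h2 : Subgroup.zpowers g = (Q : Subgroup G) := Subgroup.eq_of_le_of_card_ge hQ (by rw [hc2, Nat.card_zpowers, hg])
    apply hnab Q
    intro a ha b hb
    rw [← h2] at ha hb
    obtain ⟨i, rfl⟩ := Subgroup.mem_zpowers_iff.1 ha
    obtain ⟨j, rfl⟩ := Subgroup.mem_zpowers_iff.1 hb
    exact (Commute.refl g).zpow_zpow i j
  have h2ord : ∀ g : G, orderOf g ∣ 8 → orderOf g = 1 ∨ orderOf g = 2 ∨ orderOf g = 4 := by
    intro g hg
    have h1 := Nat.le_of_dvd (by norm_num) hg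
    have h8 := hord8 g
    generalize orderOf g = n at hg h1 h8
    interval_cases n <;> simp_all
  have hdvd8 : ∀ g : G, IsPGroup 2 (Subgroup.zpowers g) → orderOf g ∣ 8 := by
    intro g hg
    obtain ⟨Q, hQ⟩ := hg.exists_le_sylow
    have := Subgroup.orderOf_dvd_natCard _ (hQ (Subgroup.mem_zpowers g))
    rwa [hc2] at this
  have hall : ∀ g : G, orderOf g = 1 ∨ orderOf g = 2 ∨ orderOf g = 3 ∨ orderOf g = 4 ∨ orderOf g = 7 := by
    intro g
    by_cases hg : g = 1
    · left; rw [hg, orderOf_one]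
    · rcases hcases g hg with h1 | h1 | h1
      · rcases h2ord g (hdvd8 g h1) with h2 | h2 | h2 <;> simp [h2]
      · simp [h1]
      · simp [h1]
  obtain ⟨u, huS, hu⟩ : ∃ u ∈ (S : Subgroup G), orderOf u = 4 := by
    by_contra hcon
    push Not at hcon
    apply hnab S
    have hsq : ∀ a ∈ (S : Subgroup G), a⁻¹ = a := by
      intro a ha
      have h1 : orderOf a ∣ 8 := by rw [← hc2 S]; exact Subgroup.orderOf_dvd_natCard _ ha
      rw [inv_eq_iff_mul_eq_one, ← pow_two]
      rcases h2ord a h1 with h2 | h2 | h2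
      · rw [orderOf_eq_one_iff.1 h2, one_pow]
      · rw [← h2, pow_orderOf_eq_one]
      · exact absurd h2 (hcon a ha)
    intro a ha b hb
    rw [← hsq _ (mul_mem ha hb), mul_inv_rev, hsq a ha, hsq b hb]
  have hcu : Nat.card (Subgroup.centralizer ({u} : Set G)) = 4 := by
    have h1 := hcent2 u (by rintro rfl; rw [orderOf_one] at hu; omega) (by rw [hu]; norm_num)
    have h2 : Subgroup.zpowers u ≤ Subgroup.centralizer ({u} : Set G) := by
      rw [Subgroup.zpowers_le, Subgroup.mem_centralizer_iff]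
      rintro _ rfl
      rfl
    have h3 : 4 ∣ Nat.card (Subgroup.centralizer ({u} : Set G)) := by
      have := Subgroup.card_dvd_of_le h2
      rwa [Nat.card_zpowers, hu] at this
    have h4 : Nat.card (Subgroup.centralizer ({u} : Set G)) ≠ 8 := by
      intro h8
      have h5 : IsPGroup 2 (Subgroup.centralizer ({u} : Set G)) := IsPGroup.of_card (n := 3) (by rw [h8]; norm_num)
      obtain ⟨Q, hQ⟩ := h5.exists_le_sylow
      have h6 : Subgroup.centralizer ({u} : Set G) = (Q : Subgroup G) := Subgroup.eq_of_le_of_card_ge hQ (by rw [hc2, h8])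
      apply hnab Q
      rw [← h6]
      -- Z = zpowers u has index 2
      have hco : ∀ a ∈ Subgroup.centralizer ({u} : Set G), ∀ b ∈ Subgroup.centralizer ({u} : Set G), a ∉ Subgroup.zpowers u → b ∉ Subgroup.zpowers u → a⁻¹ * b ∈ Subgroup.zpowers u := by
        intro a ha b hb haz hbz
        have hidx : ((Subgroup.zpowers u).subgroupOf (Subgroup.centralizer ({u} : Set G))).index = 2 := by
          have h7 := ((Subgroup.zpowers u).subgroupOf (Subgroup.centralizer ({u} : Set G))).card_mul_index
          rw [Nat.card_congr (Subgroup.subgroupOfEquivOfLe h2).toEquiv, Nat.card_zpowers, hu, h8] at h7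
          omega
        have h9 := (Subgroup.mul_mem_iff_of_index_two hidx (a := (⟨a, ha⟩ : Subgroup.centralizer ({u} : Set G))⁻¹) (b := ⟨b, hb⟩)).2 (by
          rw [inv_mem_iff, Subgroup.mem_subgroupOf, Subgroup.mem_subgroupOf]
          exact ⟨fun h => absurd h haz, fun h => absurd h hbz⟩)
        exact Subgroup.mem_subgroupOf.1 h9
      have hcz : ∀ a ∈ Subgroup.centralizer ({u} : Set G), ∀ c ∈ Subgroup.zpowers u, a * c = c * a := by
        intro a ha c hc
        obtain ⟨k, rfl⟩ := Subgroup.mem_zpowers_iff.1 hc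
        have h7 : Commute u a := (Subgroup.mem_centralizer_iff.1 ha) u rfl
        exact (h7.zpow_left k).eq.symm
      intro a ha b hb
      by_cases haz : a ∈ Subgroup.zpowers u
      · exact (hcz b hb a haz).symm
      by_cases hbz : b ∈ Subgroup.zpowers u
      · exact hcz a ha b hbz
      have h7 := hco a ha b hb haz hbz
      have h9 := hcz a ha _ h7
      have h10 : a * (a⁻¹ * b) = b := by group
      have h11 : a⁻¹ * b * a = b := by rw [← h9, h10]
      calc a * b = a * (a⁻¹ * b * a) := by rw [h11]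
        _ = b * a := by group
    obtain ⟨c, hc⟩ := h3
    rw [hc] at h1 h4 ⊢
    have h5 := Nat.le_of_dvd (by norm_num) h1
    have h6 : c ≤ 2 := by omega
    interval_cases c <;> simp_all
  have hiu : (Subgroup.centralizer ({u} : Set G)).index = 42 := by
    have := (Subgroup.centralizer ({u} : Set G)).card_mul_index
    rw [hcu, h] at this
    omega
  -- a central involution
  obtain ⟨z, hz, hzc⟩ : ∃ z : G, orderOf z = 2 ∧ Nat.card (Subgroup.centralizer ({z} : Set G)) = 8 := by
    haveI : Nontrivial (S : Subgroup G) := by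
      rw [← Finite.one_lt_card_iff_nontrivial, hc2]; norm_num
    have h1 : 2 ∣ Nat.card (Subgroup.center (S : Subgroup G)) := by
      haveI := S.2.center_nontrivial
      have h2 : 1 < Nat.card (Subgroup.center (S : Subgroup G)) := Finite.one_lt_card_iff_nontrivial.2 inferInstance
      have h3 : Nat.card (Subgroup.center (S : Subgroup G)) ∣ 2 ^ 3 := by
        have := Subgroup.card_subgroup_dvd_card (Subgroup.center (S : Subgroup G))
        rw [hc2] at this
        exact this
      obtain ⟨j, hj, hj'⟩ := (Nat.dvd_prime_pow Nat.prime_two).1 h3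
      rw [hj'] at h2 ⊢
      exact dvd_pow_self 2 (by rintro rfl; simp at h2)
    obtain ⟨z, hz⟩ := exists_prime_orderOf_dvd_card' (G := Subgroup.center (S : Subgroup G)) 2 h1
    refine ⟨z.1.1, by rw [Subgroup.orderOf_coe, Subgroup.orderOf_coe]; exact hz, ?_⟩
    have hz2 : orderOf z.1.1 = 2 := by rw [Subgroup.orderOf_coe, Subgroup.orderOf_coe]; exact hz
    have h2 := hcent2 z.1.1 (by intro h3; rw [h3, orderOf_one] at hz2; omega) (by rw [hz2]; norm_num)
    have h3 : (S : Subgroup G) ≤ Subgroup.centralizer ({z.1.1} : Set G) := by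
      intro x hx
      rw [Subgroup.mem_centralizer_iff]
      rintro _ rfl
      exact congrArg Subtype.val ((Subgroup.mem_center_iff.1 z.2) ⟨x, hx⟩).symm
    have h4 := Subgroup.card_dvd_of_le h3
    rw [hc2] at h4
    exact Nat.dvd_antisymm h2 h4
  have hiz : (Subgroup.centralizer ({z} : Set G)).index = 21 := by
    have := (Subgroup.centralizer ({z} : Set G)).card_mul_index
    rw [hzc, h] at this
    omega
  -- element of order 3
  obtain ⟨t, ht⟩ := exists_prime_orderOf_dvd_card' (G := G) 3 (by rw [h]; norm_num)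
  have hct : Nat.card (Subgroup.centralizer ({t} : Set G)) = 3 := by
    have hno : ∀ q : ℕ, q.Prime → q ≠ 3 → ¬ q ∣ Nat.card (Subgroup.centralizer ({t} : Set G)) := by
      intro q hq hq3 hd
      haveI : Fact q.Prime := ⟨hq⟩
      obtain ⟨⟨y, hy⟩, hy'⟩ := exists_prime_orderOf_dvd_card' (G := Subgroup.centralizer ({t} : Set G)) q hd
      have hyq : orderOf y = q := by rw [← hy', ← Subgroup.orderOf_coe]
      have h6 := hC3 y t ht ((Subgroup.mem_centralizer_iff.1 hy) t rfl).symm
      rw [hyq] at h6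
      exact hq3 ((Nat.prime_dvd_prime_iff_eq hq Nat.prime_three).1 h6)
    have h1 : Nat.card (Subgroup.centralizer ({t} : Set G)) ∣ 7 * 24 := by
      rw [show 7 * 24 = 168 by norm_num, ← h]; exact Subgroup.card_subgroup_dvd_card _
    have c7 : Nat.Coprime (Nat.card (Subgroup.centralizer ({t} : Set G))) 7 := ((Nat.Prime.coprime_iff_not_dvd (by norm_num : Nat.Prime 7)).2 (hno 7 (by norm_num) (by norm_num))).symm
    have c2 : Nat.Coprime (Nat.card (Subgroup.centralizer ({t} : Set G))) 2 := ((Nat.Prime.coprime_iff_not_dvd (by norm_num : Nat.Prime 2)).2 (hno 2 (by norm_num) (by norm_num))).symm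
    have h5 : Nat.card (Subgroup.centralizer ({t} : Set G)) ∣ 2 ^ 3 * 3 := c7.dvd_of_dvd_mul_left h1
    have h6 : Nat.card (Subgroup.centralizer ({t} : Set G)) ∣ 3 := (c2.pow_right 3).dvd_of_dvd_mul_left h5
    have h7 : t ∈ Subgroup.centralizer ({t} : Set G) := by
      rw [Subgroup.mem_centralizer_iff]
      rintro _ rfl
      rfl
    have h8 := Subgroup.orderOf_dvd_natCard _ h7
    rw [ht] at h8
    exact Nat.dvd_antisymm h6 h8
  have hit : (Subgroup.centralizer ({t} : Set G)).index = 56 := by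
    have := (Subgroup.centralizer ({t} : Set G)).card_mul_index
    rw [hct, h] at this
    omega
  have a2 := class_le z hz hiz
  have a3 := class_le t ht hit
  have a4 := class_le u hu hiu
  have a7 := cnt_ge 7 hc7
  rw [hn7] at a7
  haveI := Fintype.ofFinite G
  have hfib : ∀ n : ℕ, Nat.card {g : G // orderOf g = n} = (Finset.univ.filter (fun g : G => orderOf g = n)).card := fun n => by
    rw [Nat.card_eq_fintype_card, Fintype.card_subtype]
  have hsum := Finset.card_eq_sum_card_fiberwise (f := fun g : G => orderOf g) (s := Finset.univ) (t := {1, 2, 3, 4, 7}) (by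
    intro g _
    have := hall g
    simp only [Finset.coe_insert, Finset.coe_singleton, Set.mem_insert_iff, Set.mem_singleton_iff]
    exact this)
  rw [Finset.card_univ, ← Nat.card_eq_fintype_card, h] at hsum
  rw [Finset.sum_insert (by decide), Finset.sum_insert (by decide), Finset.sum_insert (by decide), Finset.sum_insert (by decide), Finset.sum_singleton,
    ← hfib, ← hfib, ← hfib, ← hfib, ← hfib] at hsum
  have a1 : 1 ≤ Nat.card {g : G // orderOf g = 1} := by
    haveI : Nonempty {g : G // orderOf g = 1} := ⟨⟨1, orderOf_one⟩⟩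
    exact Nat.card_pos
  have e2 : Nat.card {g : G // orderOf g = 2} = 21 := by omega
  have e3 : Nat.card {g : G // orderOf g = 3} = 56 := by omega
  have e4 : Nat.card {g : G // orderOf g = 4} = 42 := by omega
  have e7 : Nat.card {g : G // orderOf g = 7} = 48 := by omega
  have k2 := class_eq z hz hiz e2.le
  have k3 := class_eq t ht hit e3.le
  have k4 := class_eq u hu hiu e4.le
  exact ⟨hall, e2, fun a b ha hb => (k2 a ha).symm.trans (k2 b hb), e3, fun a b ha hb => (k3 a ha).symm.trans (k3 b hb),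
    e4, fun a b ha hb => (k4 a ha).symm.trans (k4 b hb), e7⟩

theorem comm_r {G : Type*} [Group G] [Finite G] [IsSimpleGroup G] (h : Nat.card G = 168) (r : ℕ) [hr : Fact r.Prime]
    (hc : ∀ P : Sylow r G, Nat.card (P : Subgroup G) = r) (n : ℕ) (hn : n * Nat.card (Sylow r G) = 168) (hs : 0 < Nat.card (Sylow r G))
    (harith : ∀ c d : ℕ, d ∣ r - 1 → d ≠ 1 → c * d = n → c = r) :
    ∀ g y : G, orderOf y = r → Commute g y → orderOf g ∣ r := by
  intro g y hy hgy
  have h1 : IsPGroup r (Subgroup.zpowers y) := IsPGroup.of_card (n := 1) (by rw [Nat.card_zpowers, hy, pow_one])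
  obtain ⟨Q, hQ⟩ := h1.exists_le_sylow
  have h2 : Subgroup.zpowers y = (Q : Subgroup G) := Subgroup.eq_of_le_of_card_ge hQ (by rw [hc, Nat.card_zpowers, hy])
  have h3 : g ∈ Subgroup.centralizer ((Q : Subgroup G) : Set G) := by
    rw [← h2, Subgroup.mem_centralizer_iff]
    intro z hz
    obtain ⟨k, rfl⟩ := Subgroup.mem_zpowers_iff.1 hz
    exact (hgy.symm.zpow_left k).eq
  have hidx : Nat.card (Sylow r G) = (Subgroup.normalizer ((Q : Subgroup G) : Set G)).index := Q.card_eq_index_normalizer
  have h5 := (Subgroup.normalizer ((Q : Subgroup G) : Set G)).card_mul_index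
  rw [← hidx, h] at h5
  have h6 : Nat.card (Subgroup.normalizer ((Q : Subgroup G) : Set G)) = n :=
    Nat.eq_of_mul_eq_mul_right hs (h5.trans hn.symm)
  have h7 := ((Subgroup.centralizer ((Q : Subgroup G) : Set G)).subgroupOf (Subgroup.normalizer ((Q : Subgroup G) : Set G))).card_mul_index
  rw [Nat.card_congr (Subgroup.subgroupOfEquivOfLe (Subgroup.centralizer_le_normalizer ((Q : Subgroup G) : Set G))).toEquiv, h6] at h7
  have h8 := harith _ _ (Cfsg.Agent.H2.relIndex_centralizer_dvd hr.out (hc Q)) (by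
    intro h9
    rw [Subgroup.relIndex_eq_one] at h9
    exact notle h r Q (hc Q) h9) h7
  have h4 := Subgroup.orderOf_dvd_natCard _ h3
  rwa [h8] at h4

theorem main3 {G : Type*} [Group G] [Finite G] [IsSimpleGroup G] (h : Nat.card G = 168) :
    (∀ g y : G, orderOf y = 3 → Commute g y → orderOf g ∣ 3) ∧ (∀ g y : G, orderOf y = 7 → Commute g y → orderOf g ∣ 7) := by
  haveI : Fact (Nat.Prime 7) := ⟨by norm_num⟩
  haveI : Fact (Nat.Prime 3) := ⟨by norm_num⟩
  obtain ⟨⟨hn2, hn3, hn7⟩, hcases⟩ := main h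
  have hc7 : ∀ P : Sylow 7 G, Nat.card (P : Subgroup G) = 7 := fun P =>
    Cfsg.Agent.H2.card_sylow_prime P (by rw [h]; norm_num) (by rw [h]; norm_num)
  have hc3 : ∀ P : Sylow 3 G, Nat.card (P : Subgroup G) = 3 := fun P =>
    Cfsg.Agent.H2.card_sylow_prime P (by rw [h]; norm_num) (by rw [h]; norm_num)
  constructor
  · refine comm_r h 3 hc3 6 (by rw [hn3]) (by rw [hn3]; norm_num) ?_
    intro c d hd hd1 hcd
    have := Nat.le_of_dvd (by norm_num) hd
    interval_cases d <;> omega
  · refine comm_r h 7 hc7 21 (by rw [hn7]) (by rw [hn7]; norm_num) ?_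
    intro c d hd hd1 hcd
    have := Nat.le_of_dvd (by norm_num) hd
    interval_cases d <;> omega

end Cfsg.Agent.H7.Ord168
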