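import Cfsg.Agent.H7.OrthSpin2

/-!
The subgroup generated by one class of reflections.
-/

set_option autoImplicit false
set_option linter.unusedSectionVars false

namespace Cfsg.Agent.H7.Orth

open Matrix Module
open scoped MatrixGroups
open Cfsg Cfsg.Geo Cfsg.Agent.H7.Witt Cfsg.Agent.H7.Tv

section main
variable {ι : Type} [Fintype ι] [DecidableEq ι] {F : Type*} [Field F] [Finite F]
variable {Q : (ι → F) → F} {B : (ι → F) →ₗ[F] (ι → F) →ₗ[F] F}

/-- the product of three coplanar reflections -/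
theorem three_refl (hQ : Qf Q B) {w w' : ι → F} {N : F} (hN : N ≠ 0) (hw : Q w = N) (hw' : Q w' = N) (α β : F)
    (hu : Q (α • w + β • w') ≠ 0) :
    ∃ z, Q z = Q (α • w + β • w') * (N * N) ∧ Rf Q B w * Rf Q B w' = Rf Q B (α • w + β • w') * Rf Q B z := by
  obtain ⟨b, hb⟩ : ∃ b, b = B w w' := ⟨_, rfl⟩
  have hb' : B w' w = b := by rw [hQ.symm, hb]
  obtain ⟨u, hu'⟩ : ∃ u, u = α • w + β • w' := ⟨_, rfl⟩
  obtain ⟨z, hz⟩ : ∃ z, z = (-(β * N)) • w + (α * N + β * b) • w' := ⟨_, rfl⟩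
  have hqu : Q u = α * α * N + β * β * N + α * β * b := by
    rw [hu', hQ.add, hQ.smul, hQ.smul, hw, hw', map_smul, map_smul, LinearMap.smul_apply, ← hb, smul_eq_mul, smul_eq_mul]
    ring
  have hqz : Q z = Q u * (N * N) := by
    rw [hz, hqu, hQ.add, hQ.smul, hQ.smul, hw, hw', map_smul, map_smul, LinearMap.smul_apply, ← hb, smul_eq_mul, smul_eq_mul]
    ring
  rw [← hu'] at hu ⊢
  have hz0 : Q z ≠ 0 := by rw [hqz]; exact mul_ne_zero hu (mul_ne_zero hN hN)
  have hw0 : Q w ≠ 0 := by rw [hw]; exact hN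
  have hw0' : Q w' ≠ 0 := by rw [hw']; exact hN
  refine ⟨z, hqz, ?_⟩
  have key : Rf Q B u * (Rf Q B w * Rf Q B w') = Rf Q B z := by
    apply ap_ext
    intro v
    rw [ap_mul, ap_mul, ap_Rf hQ hw0', ap_Rf hQ hw0, ap_Rf hQ hu, ap_Rf hQ hz0, hqz, hw, hw']
    obtain ⟨x, hx⟩ : ∃ x, x = B w v := ⟨_, rfl⟩
    obtain ⟨y, hy⟩ : ∃ y, y = B w' v := ⟨_, rfl⟩
    have e1 : B u v = α * x + β * y := by
      rw [hu', map_add, LinearMap.add_apply, map_smul, map_smul, LinearMap.smul_apply, LinearMap.smul_apply, ← hx, ← hy]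
      rfl
    have e2 : B u w = 2 * α * N + β * b := by
      rw [hu', map_add, LinearMap.add_apply, map_smul, map_smul, LinearMap.smul_apply, LinearMap.smul_apply, hQ.self, hw, hb']
      simp only [smul_eq_mul]; ring
    have e3 : B u w' = α * b + 2 * β * N := by
      rw [hu', map_add, LinearMap.add_apply, map_smul, map_smul, LinearMap.smul_apply, LinearMap.smul_apply, hQ.self, hw', ← hb]
      simp only [smul_eq_mul]; ring
    have e4 : B z v = -(β * N) * x + (α * N + β * b) * y := by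
      rw [hz, map_add, LinearMap.add_apply, map_smul, map_smul, LinearMap.smul_apply, LinearMap.smul_apply, ← hx, ← hy]
      rfl
    simp only [map_sub, map_smul, smul_eq_mul, e1, e2, e3, e4, ← hx, ← hy, ← hb]
    have hD : α * α * N + β * β * N + α * β * b ≠ 0 := by rw [← hqu]; exact hu
    rw [hz]
    rw [hqu]
    rw [hu']
    obtain ⟨D, hDD⟩ : ∃ D, D = α * α * N + β * β * N + α * β * b := ⟨_, rfl⟩
    rw [← hDD] at hD ⊢
    have c1 : ∀ (p q r s : F), p = r → q = s → v + p • w + q • w' = v + r • w + s • w' := by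
      rintro p q r s rfl rfl; rfl
    have e5 : ∀ A1 A2 A3 : F, v - A1 • w' - A2 • w - A3 • (α • w + β • w') = v + (-A2 - A3 * α) • w + (-A1 - A3 * β) • w' := by
      intro A1 A2 A3; module
    have e6 : ∀ A1 : F, v - A1 • ((-(β * N)) • w + (α * N + β * b) • w') =
        v + (A1 * (β * N)) • w + (-A1 * (α * N + β * b)) • w' := by
      intro A1; module
    rw [e5, e6]
    apply c1
    · field_simp
      rw [hDD]
      ring
    · field_simp
      rw [hDD]
      ring
  have h1 : Rf Q B u * (Rf Q B u * (Rf Q B w * Rf Q B w')) = Rf Q B w * Rf Q B w' := by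
    rw [← mul_assoc, Rf_sq hQ hu, one_mul]
  rw [← h1, key]

/-- the subgroup generated by one class of reflections -/
def RC (Q : (ι → F) → F) (B : (ι → F) →ₗ[F] (ι → F) →ₗ[F] F) (c : F) : Subgroup ↥(O Q) :=
  Subgroup.closure {g : ↥(O Q) | ∃ (v : ι → F) (t : F), t ≠ 0 ∧ Q v = c * t ^ 2 ∧ (g : GL ι F) = Rf Q B v}

theorem rf_mem_RC (hQ : Qf Q B) {c t : F} (ht : t ≠ 0) {v : ι → F} (hv : Q v ≠ 0) (h : Q v = c * t ^ 2) :
    rf hQ v hv ∈ RC Q B c := Subgroup.subset_closure ⟨v, t, ht, h, rfl⟩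

theorem pair_mem (hQ : Qf Q B) (h2 : (2 : F) ≠ 0) {c : F} (hc : c ≠ 0) {w w' : ι → F} {N : F} (hN : N ≠ 0)
    (hw : Q w = N) (hw' : Q w' = N) (hw0 : Q w ≠ 0) (hw0' : Q w' ≠ 0) (hb : B w w' * B w w' ≠ 4 * (N * N)) :
    rf hQ w hw0 * rf hQ w' hw0' ∈ RC Q B c := by
  obtain ⟨b, hb'⟩ : ∃ b, b = B w w' := ⟨_, rfl⟩
  rw [← hb'] at hb
  have h4 : (4 : F) ≠ 0 := by
    have : (4 : F) = 2 * 2 := by norm_num
    rw [this]; exact mul_ne_zero h2 h2
  have hs : N * (1 - b * b / (4 * (N * N))) ≠ 0 := by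
    apply mul_ne_zero hN
    intro h
    apply hb
    have h3 : b * b / (4 * (N * N)) = 1 := by linear_combination -h
    rw [div_eq_one_iff_eq (mul_ne_zero h4 (mul_ne_zero hN hN))] at h3
    exact h3
  obtain ⟨x, y, hxy⟩ := repr_sum h2 hN hs c
  have hq : Q ((x - b * y / (2 * N)) • w + y • w') = c := by
    rw [hQ.add, hQ.smul, hQ.smul, hw, hw', map_smul, map_smul, LinearMap.smul_apply, ← hb', smul_eq_mul, smul_eq_mul, ← hxy]
    field_simp
    ring
  obtain ⟨z, hz, e⟩ := three_refl hQ hN hw hw' (x - b * y / (2 * N)) y (by rw [hq]; exact hc)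
  have hu0 : Q ((x - b * y / (2 * N)) • w + y • w') ≠ 0 := by rw [hq]; exact hc
  have hz0 : Q z ≠ 0 := by rw [hz]; exact mul_ne_zero hu0 (mul_ne_zero hN hN)
  have e' : rf hQ w hw0 * rf hQ w' hw0' = rf hQ _ hu0 * rf hQ z hz0 := Subtype.ext e
  rw [e']
  refine mul_mem (rf_mem_RC hQ one_ne_zero _ (by rw [hq]; ring)) (rf_mem_RC hQ hN _ (by rw [hz, hq]; ring))

theorem pair_mem' (hQ : Qf Q B) (h2 : (2 : F) ≠ 0) (heven : Even (Fintype.card ι)) (hn : 2 ≤ Fintype.card ι)
    (h43 : Fintype.card ι = 4 → 4 ≤ Nat.card F) {c : F} (hc : c ≠ 0) {w w' : ι → F} {N : F} (hN : N ≠ 0)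
    (hw : Q w = N) (hw' : Q w' = N) (hw0 : Q w ≠ 0) (hw0' : Q w' ≠ 0) :
    rf hQ w hw0 * rf hQ w' hw0' ∈ RC Q B c := by
  by_cases hb : B w w' * B w w' ≠ 4 * (N * N)
  · exact pair_mem hQ h2 hc hN hw hw' hw0 hw0' hb
  push Not at hb
  have h4 : (4 : F) ≠ 0 := by
    have : (4 : F) = 2 * 2 := by norm_num
    rw [this]; exact mul_ne_zero h2 h2
  -- the case `B w w' = 2 N`
  have key : ∀ (w' : ι → F) (hw' : Q w' = N) (hw0' : Q w' ≠ 0), B w w' = 2 * N → rf hQ w hw0 * rf hQ w' hw0' ∈ RC Q B c := by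
    intro w' hw' hw0' hb
    obtain ⟨s, hs⟩ : ∃ s, s = w' - w := ⟨_, rfl⟩
    have hqs : Q s = 0 := by rw [hs, hQ.sub, hw, hw', hQ.symm w' w, hb]; ring
    have hws : B w s = 0 := by rw [hs, map_sub, hQ.self, hw, hb]; ring
    have hw's : w' = w + s := by rw [hs]; abel
    by_cases hs0 : s = 0
    · have e : rf hQ w' hw0' = rf hQ w hw0 := by
        have : w' = w := by rw [hw's, hs0, add_zero]
        subst this
        rfl
      rw [e, rf_mul_self]; exact one_mem _
    -- a third vector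
    suffices hex : ∃ w'', Q w'' = N ∧ B w w'' * B w w'' ≠ 4 * (N * N) ∧ B w' w'' * B w' w'' ≠ 4 * (N * N) by
      obtain ⟨w'', h5, h6, h7⟩ := hex
      have h8 : Q w'' ≠ 0 := by rw [h5]; exact hN
      have e : rf hQ w hw0 * rf hQ w' hw0' = (rf hQ w hw0 * rf hQ w'' h8) * (rf hQ w'' h8 * rf hQ w' hw0') := by
        rw [mul_assoc, ← mul_assoc (rf hQ w'' h8), rf_mul_self, one_mul]
      rw [e]
      exact mul_mem (pair_mem hQ h2 hc hN hw h5 hw0 h8 h6) (pair_mem hQ h2 hc hN h5 hw' h8 hw0' (by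
        rw [hQ.symm]; exact h7))
    have h44 : (0 : F) * 0 ≠ 4 * (N * N) := by
      rw [zero_mul]; exact (mul_ne_zero h4 (mul_ne_zero hN hN)).symm
    have hli : s ∉ Submodule.span F {w} := by
      intro h
      obtain ⟨l, hl⟩ := Submodule.mem_span_singleton.1 h
      rw [← hl, map_smul, hQ.self, hw, smul_eq_mul] at hws
      rcases mul_eq_zero.1 hws with h6 | h6
      · rw [h6, zero_smul] at hl; exact hs0 hl.symm
      · exact mul_ne_zero h2 hN h6
    have hw00 : w ≠ 0 := by rintro rfl; exact hw0 hQ.zero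
    have hspan2 : finrank F (Submodule.span F {w, s}) = 2 := by
      apply le_antisymm (UTv.finrank_span_two w s)
      have h5 : Submodule.span F {w} < Submodule.span F {w, s} := by
        refine lt_of_le_of_ne (Submodule.span_mono (by simp)) (fun h => hli ?_)
        rw [h]; exact Submodule.subset_span (by simp)
      have h6 := Submodule.finrank_lt_finrank_of_lt h5
      rw [finrank_span_singleton hw00] at h6
      omega
    have hprp := hQ.finrank_prp (Submodule.span F {w, s})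
    rw [hspan2] at hprp
    have hsM : s ∈ prp B (Submodule.span F {w, s}) := mem_prp_two.2 ⟨hws, by rw [hQ.self, hqs, mul_zero]⟩
    have hM1 : 1 ≤ finrank F (prp B (Submodule.span F {w, s})) := by
      rw [Nat.one_le_iff_ne_zero]
      intro h
      rw [Submodule.finrank_eq_zero] at h
      rw [h, Submodule.mem_bot] at hsM
      exact hs0 hsM
    by_cases hn6 : 6 ≤ Fintype.card ι
    · have hR : Rich Q B (prp B (Submodule.span F {w, s})) := by
        refine rich_of hQ _ (Submodule.span F {s}) ?_ ?_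
        · intro v hv hv'
          have h5 : v ∈ Submodule.span F {w, s} := by
            rw [← hQ.prp_prp (Submodule.span F {w, s}), mem_prp]
            intro x hx
            rw [hQ.symm]; exact hv' x hx
          obtain ⟨x, y, rfl⟩ := Submodule.mem_span_pair.1 h5
          have h6 := (mem_prp_two.1 hv).1
          rw [map_add, map_smul, map_smul, hQ.self, hw, hws, smul_zero, add_zero, smul_eq_mul] at h6
          rcases mul_eq_zero.1 h6 with h7 | h7
          · rw [h7, zero_smul, zero_add]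
            exact Submodule.smul_mem _ _ (Submodule.mem_span_singleton_self s)
          · exact absurd h7 (mul_ne_zero h2 hN)
        · have := UTv.finrank_span_one (F := F) s
          omega
      obtain ⟨w'', h5, h6, -⟩ := hR.repr hQ N
      obtain ⟨h7, h8⟩ := mem_prp_two.1 h5
      refine ⟨w'', h6, by rw [h7]; exact h44, ?_⟩
      rw [hw's, map_add, LinearMap.add_apply, h7, h8, add_zero]
      exact h44
    · -- dimension four
      have hn4 : Fintype.card ι = 4 := by
        obtain ⟨k, hk⟩ := heven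
        omega
      have hF := h43 hn4
      obtain ⟨y, hy0, hy⟩ : ∃ y : F, y ≠ 0 ∧ y * y ≠ 4 * (N * N) := by
        by_contra hcon
        push Not at hcon
        classical
        haveI := Fintype.ofFinite F
        have h5 : (Finset.univ : Finset F) ⊆ {0, 2 * N, -(2 * N)} := by
          intro y _
          by_cases hy : y = 0
          · simp [hy]
          · have h6 : (y - 2 * N) * (y + 2 * N) = 0 := by linear_combination hcon y hy
            rcases mul_eq_zero.1 h6 with h7 | h7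
            · simp [sub_eq_zero.1 h7]
            · simp [eq_neg_of_add_eq_zero_left h7]
        have h6 := Finset.card_le_card h5
        have h7 : ({0, 2 * N, -(2 * N)} : Finset F).card ≤ 3 := Finset.card_le_three
        rw [Finset.card_univ, ← Nat.card_eq_fintype_card] at h6
        omega
      -- a singular partner of `s` orthogonal to `w`
      obtain ⟨z, hwz, hsz⟩ : ∃ z, B w z = 0 ∧ B s z ≠ 0 := by
        by_contra hcon
        push Not at hcon
        apply hli
        rw [← hQ.prp_prp (Submodule.span F {w}), mem_prp]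
        intro v hv
        rw [hQ.symm]
        exact hcon v (mem_prp_one.1 hv)
      obtain ⟨s', hs'⟩ : ∃ s', s' = (B s z)⁻¹ • z - (Q ((B s z)⁻¹ • z)) • s := ⟨_, rfl⟩
      have hqs' : Q s' = 0 := by
        rw [hs', hQ.sub, hQ.smul (Q _) s, hqs, map_smul, hQ.symm _ s, map_smul, smul_eq_mul, smul_eq_mul,
          inv_mul_cancel₀ hsz]
        ring
      have hss' : B s s' = 1 := by
        rw [hs', map_sub, map_smul, map_smul, hQ.self, hqs, smul_eq_mul, inv_mul_cancel₀ hsz]
        simp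
      have hws' : B w s' = 0 := by
        rw [hs', map_sub, map_smul, map_smul, hwz, hws]; simp
      refine ⟨(N / y) • s + y • s', ?_, ?_, ?_⟩
      · rw [hQ.add, hQ.smul, hQ.smul, hqs, hqs', map_smul, map_smul, LinearMap.smul_apply, hss']
        simp only [smul_eq_mul]
        field_simp
        ring
      · rw [map_add, map_smul, map_smul, hws, hws', smul_zero, smul_zero, add_zero]
        exact h44
      · have h9 : B w' ((N / y) • s + y • s') = y := by
          rw [hw's]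
          simp only [map_add, map_smul, LinearMap.add_apply, hws, hws', hQ.self, hqs, hss', smul_eq_mul]
          ring
        rw [h9]
        exact hy
  have h5 : (B w w' - 2 * N) * (B w w' + 2 * N) = 0 := by linear_combination hb
  rcases mul_eq_zero.1 h5 with h6 | h6
  · exact key w' hw' hw0' (sub_eq_zero.1 h6)
  · have h7 : Q (-w') ≠ 0 := by rw [hQ.neg]; exact hw0'
    have e : rf hQ w' hw0' = rf hQ (-w') h7 := by
      apply Subtype.ext
      have := Rf_smul hQ hw0' (c := -1) (neg_ne_zero.2 one_ne_zero)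
      rw [neg_one_smul] at this
      exact this.symm
    rw [e]
    exact key (-w') (by rw [hQ.neg]; exact hw') h7 (by rw [map_neg]; linear_combination -h6)

theorem class_index (hQ : Qf Q B) (h2 : (2 : F) ≠ 0) (heven : Even (Fintype.card ι)) (hn : 2 ≤ Fintype.card ι)
    (h43 : Fintype.card ι = 4 → 4 ≤ Nat.card F) {c : F} (hc : c ≠ 0) : (RC Q B c).index = 2 := by
  haveI := Fintype.ofFinite F
  have hO := O_eq_RR_odd hQ h2
  -- vectors of both classes
  obtain ⟨u, u', hu, hu', huu⟩ := exists_pair hQ h2 hn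
  obtain ⟨δ, hδ⟩ := FiniteField.exists_nonsquare (ringChar_ne_two h2)
  have hδ0 : δ ≠ 0 := fun h => hδ (by rw [h]; exact ⟨0, by ring⟩)
  have hrep : ∀ d : F, ∃ v, Q v = d := by
    intro d
    obtain ⟨x, y, hxy⟩ := repr_sum h2 hu hu' d
    refine ⟨x • u + y • u', ?_⟩
    rw [hQ.add, hQ.smul, hQ.smul, map_smul, map_smul, LinearMap.smul_apply, huu, ← hxy]
    simp only [smul_zero]; ring
  -- a vector of norm `c` with an orthogonal nonsingular vector
  obtain ⟨a, a', ha, ha', haa⟩ : ∃ a a', Q a = c ∧ Q a' ≠ 0 ∧ B a a' = 0 := by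
    obtain ⟨x, y, hxy⟩ := repr_sum h2 hu hu' c
    have hu'u : B u' u = 0 := by rw [hQ.symm]; exact huu
    refine ⟨x • u + y • u', (-(Q u' * y)) • u + (Q u * x) • u', ?_, ?_, ?_⟩
    · rw [hQ.add, hQ.smul, hQ.smul, map_smul, map_smul, LinearMap.smul_apply, huu, ← hxy]
      simp only [smul_zero]; ring
    · have : Q ((-(Q u' * y)) • u + (Q u * x) • u') = Q u * Q u' * c := by
        rw [hQ.add, hQ.smul, hQ.smul, map_smul, map_smul, LinearMap.smul_apply, huu, ← hxy]
        simp only [smul_zero]; ring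
      rw [this]; exact mul_ne_zero (mul_ne_zero hu hu') hc
    · simp only [map_add, map_smul, LinearMap.add_apply, LinearMap.smul_apply, hQ.self, huu, hu'u, smul_eq_mul]
      ring
  have ha0 : Q a ≠ 0 := by rw [ha]; exact hc
  obtain ⟨w, hw0, hqw, hsw⟩ := sgn_pair hQ h2 (c := 1) one_ne_zero ha0 ha' haa hδ
  rw [ha] at hqw
  have hN : c * δ ≠ 0 := mul_ne_zero hc hδ0
  -- every reflection is in one of the classes
  have hcl : ∀ v (hv : Q v ≠ 0), (∃ t, t ≠ 0 ∧ Q v = c * t ^ 2) ∨ ∃ t, t ≠ 0 ∧ Q v = c * δ * (t * t) := by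
    intro v hv
    rcases sq_or hδ (Q v / c) with ⟨t, ht⟩ | ⟨t, ht⟩
    · left
      have h3 : Q v = c * t ^ 2 := by rw [pow_two, ← ht]; field_simp
      exact ⟨t, by rintro rfl; rw [h3] at hv; simp at hv, h3⟩
    · right
      have h3 : Q v = c * δ * (t / δ * (t / δ)) := by
        have : t / δ * (t / δ) = t * t / (δ * δ) := by field_simp
        rw [this, ← ht]; field_simp
      exact ⟨t / δ, by intro h; rw [h3, h] at hv; simp at hv, h3⟩
  have hpair : ∀ v v' (hv : Q v ≠ 0) (hv' : Q v' ≠ 0), (∃ t, t ≠ 0 ∧ Q v = c * δ * (t * t)) →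
      (∃ t, t ≠ 0 ∧ Q v' = c * δ * (t * t)) → rf hQ v hv * rf hQ v' hv' ∈ RC Q B c := by
    rintro v v' hv hv' ⟨t, ht, h3⟩ ⟨t', ht', h4⟩
    have hsc : ∀ (x : ι → F) (hx : Q x ≠ 0) (r : F), r ≠ 0 → Q x = c * δ * (r * r) →
        ∃ y, ∃ hy : Q y ≠ 0, Q y = c * δ ∧ rf hQ x hx = rf hQ y hy := by
      intro x hx r hr h5
      have h6 : Q (r⁻¹ • x) = c * δ := by rw [hQ.smul, h5]; field_simp
      exact ⟨r⁻¹ • x, by rw [h6]; exact hN, h6, Subtype.ext (Rf_smul hQ hx (inv_ne_zero hr)).symm⟩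
    obtain ⟨y, hy, h5, h6⟩ := hsc v hv t ht h3
    obtain ⟨y', hy', h7, h8⟩ := hsc v' hv' t' ht' h4
    rw [h6, h8]
    exact pair_mem' hQ h2 heven hn h43 hc hN h5 h7 hy hy'
  have hconj : ∀ (g : ↥(O Q)) v (hv : Q v ≠ 0), ∃ y, ∃ hy : Q y ≠ 0, Q y = Q v ∧ g * rf hQ v hv * g⁻¹ = rf hQ y hy := by
    intro g v hv
    have h3 : Q (ap (g : GL ι F) v) = Q v := mem_O.1 g.2 v
    exact ⟨ap (g : GL ι F) v, by rw [h3]; exact hv, h3, Subtype.ext (Rf_conj hQ g.2 hv)⟩
  have hwcl : ∃ t, t ≠ 0 ∧ Q w = c * δ * (t * t) := ⟨1, one_ne_zero, by rw [hqw]; ring⟩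
  have hstep : ∀ v (hv : Q v ≠ 0) (g : ↥(O Q)), (g ∈ RC Q B c ∨ g * rf hQ w hw0 ∈ RC Q B c) →
      (rf hQ v hv * g ∈ RC Q B c ∨ rf hQ v hv * g * rf hQ w hw0 ∈ RC Q B c) := by
    intro v hv g hg
    rcases hcl v hv with ⟨t, ht, h3⟩ | h3
    · have h4 := rf_mem_RC hQ ht hv h3
      rcases hg with hg | hg
      · exact Or.inl (mul_mem h4 hg)
      · exact Or.inr (by rw [mul_assoc]; exact mul_mem h4 hg)
    · rcases hg with hg | hg
      · right
        obtain ⟨y, hy, h5, h6⟩ := hconj g w hw0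
        have e : rf hQ v hv * g * rf hQ w hw0 = (rf hQ v hv * rf hQ y hy) * g := by
          rw [← h6]; group
        rw [e]
        refine mul_mem (hpair v y hv hy h3 ?_) hg
        rw [h5]; exact hwcl
      · left
        obtain ⟨y, hy, h5, h6⟩ := hconj (g * rf hQ w hw0) w hw0
        have e : rf hQ v hv * g = (rf hQ v hv * rf hQ y hy) * (g * rf hQ w hw0) := by
          rw [← h6]
          have h7 := rf_mul_self hQ w hw0
          obtain ⟨r, hr⟩ : ∃ r, r = rf hQ w hw0 := ⟨_, rfl⟩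
          rw [← hr] at h7 ⊢
          have h8 : r⁻¹ = r := by rw [inv_eq_iff_mul_eq_one]; exact h7
          calc rf hQ v hv * g = rf hQ v hv * g * (r * r) := by rw [h7, mul_one]
            _ = rf hQ v hv * (g * r * r * (g * r)⁻¹) * (g * r) := by group
        rw [e]
        refine mul_mem (hpair v y hv hy h3 ?_) hg
        rw [h5]; exact hwcl
  have hall : ∀ k ∈ RR Q B ⊤, ∀ x : ↥(O Q), (x : GL ι F) = k → (x ∈ RC Q B c ∨ x * rf hQ w hw0 ∈ RC Q B c) := by
    intro k hk
    induction hk using Subgroup.closure_induction_left with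
    | one =>
      intro x hx
      left
      have : x = 1 := Subtype.ext hx
      rw [this]; exact one_mem _
    | mul_left x hx y hy ih =>
      obtain ⟨v, -, hv, rfl⟩ := hx
      intro x hx
      have e : x = rf hQ v hv * ⟨y, RR_le_O hQ ⊤ hy⟩ := Subtype.ext hx
      rw [e]
      exact hstep v hv _ (ih _ rfl)
    | inv_mul_cancel x hx y hy ih =>
      obtain ⟨v, -, hv, rfl⟩ := hx
      intro x hx
      rw [Rf_inv hQ hv] at hx
      have e : x = rf hQ v hv * ⟨y, RR_le_O hQ ⊤ hy⟩ := Subtype.ext hx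
      rw [e]
      exact hstep v hv _ (ih _ rfl)
  -- a homomorphism separating the classes
  have hD := so_index hQ h2 (show 1 ≤ Fintype.card ι by omega)
  let D : ↥(O Q) →* ℤˣ := homOf _ hD
  have hDr : ∀ v (hv : Q v ≠ 0), D (rf hQ v hv) = -1 := by
    intro v hv
    refine (Int.units_eq_one_or _).resolve_left (fun h1 => ?_)
    rw [mem_homOf, MonoidHom.mem_ker, detH_rf] at h1
    exact neg_one_ne h2 h1
  obtain ⟨χ, hχa, hχw⟩ : ∃ χ : ↥(O Q) →* ℤˣ, χ (rf hQ a ha0) = 1 ∧ χ (rf hQ w hw0) = -1 := by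
    rcases Int.units_eq_one_or (Orth.sgn Q 1 (rf hQ a ha0)) with h3 | h3
    · exact ⟨Orth.sgn Q 1, h3, by rw [hsw, h3]⟩
    · exact ⟨Orth.sgn Q 1 * D, by rw [MonoidHom.mul_apply, h3, hDr]; rfl, by rw [MonoidHom.mul_apply, hsw, h3, hDr]; rfl⟩
  have hker : RC Q B c ≤ χ.ker := by
    rw [RC, Subgroup.closure_le]
    rintro g ⟨v, t, ht, h3, h4⟩
    have hv : Q v ≠ 0 := by rw [h3]; exact mul_ne_zero hc (pow_ne_zero 2 ht)
    have e : g = rf hQ v hv := Subtype.ext h4
    obtain ⟨k, hk⟩ := exists_conj' hQ hv ha0 (t := t) (by rw [h3, ha]; ring)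
    rw [SetLike.mem_coe, MonoidHom.mem_ker, e, hk, map_mul, map_mul, hχa, mul_one, map_inv, mul_inv_cancel]
  rw [Subgroup.index_eq_two_iff]
  refine ⟨rf hQ w hw0, fun g => ?_⟩
  have h3 := hall g (by rw [← hO]; exact g.2) g rfl
  rcases h3 with h3 | h3
  · right
    refine ⟨h3, fun h4 => ?_⟩
    have h5 := hker h3
    have h6 := hker h4
    rw [MonoidHom.mem_ker] at h5 h6
    rw [map_mul, h5, hχw] at h6
    exact absurd h6 (by decide)
  · left
    refine ⟨h3, fun h4 => ?_⟩
    have h5 := hker h4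
    have h6 := hker h3
    rw [MonoidHom.mem_ker] at h5 h6
    rw [map_mul, h5, hχw] at h6
    exact absurd h6 (by decide)

end main

end Cfsg.Agent.H7.Orth
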