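import Cfsg.Agent.H7.OrthSpin2

/-!
Numbers of vectors of norm one.
-/

set_option autoImplicit false
set_option linter.unusedSectionVars false

namespace Cfsg.Agent.H7.Orth

open Matrix Module
open scoped MatrixGroups
open Cfsg Cfsg.Geo Cfsg.Agent.H7.Witt Cfsg.Agent.H7.Tv Cfsg.Agent.H7.Quad

variable {F : Type*} [Field F] [Fintype F] {q : ℕ}

theorem card_plus_one (hF : Fintype.card F = q) (m : ℕ) :
    Nat.card {v : Fin m ⊕ Fin m → F // quadFormPlus m F v = 1} = (q ^ m - 1) * q ^ (m - 1) := by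
  have h1 : Nat.card {v : Fin m ⊕ Fin m → F // quadFormPlus m F v = 1} =
      Nat.card {v : (Fin m ⊕ Fin m → F) × (Fin 0 → F) // hq m (fun _ => (-1 : F)) v = 0} := by
    refine Nat.card_congr ((phiPlus m F).toEquiv.subtypeEquiv fun v => ?_)
    rw [← phiPlus_q]
    change hq m (fun _ => (0 : F)) (phiPlus m F v) = 1 ↔ hq m (fun _ => (-1 : F)) (phiPlus m F v) = 0
    rw [hq, hq, add_zero]
    constructor
    · intro h; rw [h]; ring
    · intro h; linear_combination h
  rw [h1, card_zeros]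
  haveI : IsEmpty {w : Fin 0 → F // (-1 : F) = 0} := ⟨fun w => by simpa using w.2⟩
  rw [Nat.card_of_isEmpty]
  simp [hF]

theorem card_minus_one (hF : Fintype.card F = q) (m : ℕ) (a b : F)
    (hab : ∀ z₁ z₂ : F, z₁ ^ 2 + a * z₁ * z₂ + b * z₂ ^ 2 = 0 → z₁ = 0 ∧ z₂ = 0) :
    Nat.card {v : (Fin m ⊕ Fin m) ⊕ Fin 2 → F // quadFormMinus m F a b v = 1} = (q ^ (m + 1) + 1) * q ^ m := by
  have hcF : Nat.card F = q := by rw [Nat.card_eq_fintype_card, hF]
  have h1 : Nat.card {v : (Fin m ⊕ Fin m) ⊕ Fin 2 → F // quadFormMinus m F a b v = 1} =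
      Nat.card {v : (Fin m ⊕ Fin m → F) × (Fin 2 → F) // hq m (fun w => qbin a b w - 1) v = 0} := by
    refine Nat.card_congr ((phiMinus m F).toEquiv.subtypeEquiv fun v => ?_)
    rw [← phiMinus_q]
    change hq m (qbin a b) (phiMinus m F v) = 1 ↔ hq m (fun w => qbin a b w - 1) (phiMinus m F v) = 0
    rw [hq, hq]
    constructor
    · intro h; linear_combination h
    · intro h; linear_combination h
  have h2 : Nat.card {w : Fin 2 → F // qbin a b w - 1 = 0} = q + 1 := by
    have hx : qbin a b ![1, 0] = 1 := by simp [qbin]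
    have h3 := card_level (V := Fin 2 → F) (F := F) (by simp) (bbin_symm a b) (bbin_nd hab) (qbin_add a b) (qbin_smul a b)
      (qbin_an hab) (x := ![1, 0]) (by intro h; have := congrFun h 0; simp at this)
    rw [hx, hcF] at h3
    rw [← h3]
    refine Nat.card_congr (Equiv.subtypeEquivRight fun w => ?_)
    rw [sub_eq_zero]
  rw [h1, card_zeros, h2, hcF]
  have h3 : Nat.card (Fin 2 → F) = q ^ 2 := by
    rw [Nat.card_eq_fintype_card, Fintype.card_fun, hF, Fintype.card_fin]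
  rw [h3]
  rcases m with _ | m
  · simp
  · have hq : 1 ≤ q ^ (m + 1) := Nat.one_le_pow _ _ (by rw [← hF]; exact Fintype.card_pos)
    obtain ⟨r, hr⟩ : ∃ r, q ^ (m + 1) = r + 1 := ⟨q ^ (m + 1) - 1, by omega⟩
    have e1 : q ^ (m + 1 + 1) = q * (r + 1) := by rw [pow_succ, hr, mul_comm]
    rw [hr, e1, Nat.add_sub_cancel, Nat.add_sub_cancel]
    have e2 : r * q ^ 2 * q ^ m = r * q * (q ^ (m + 1)) := by ring
    rw [e2, hr]
    ring

end Cfsg.Agent.H7.Orth
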