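import Cfsg.Agent.H7.OrthCount

/-!
Orders of the groups `PΩ`.
-/

set_option autoImplicit false
set_option linter.unusedSectionVars false

namespace Cfsg.Agent.H7.Orth

open Matrix Module
open scoped MatrixGroups
open Cfsg Cfsg.Geo Cfsg.Agent.H7.Witt Cfsg.Agent.H7.Tv Cfsg.Agent.H7.Quad

section main
variable {ι : Type} [Fintype ι] [DecidableEq ι] {F : Type*} [Field F] [Finite F]
variable {Q : (ι → F) → F} {B : (ι → F) →ₗ[F] (ι → F) →ₗ[F] F}

theorem mem_center (hQ : Qf Q B) (h7 : 7 ≤ Fintype.card ι) {w : Omega F Q} (hw : w ∈ Subgroup.center (Omega F Q)) :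
    (w : isometryGroup F Q) = 1 ∨ (w : isometryGroup F Q) = ngI hQ := by
  have h5 : 5 ≤ Fintype.card ι := by omega
  have hmem : ∀ t ∈ TT Q B, ∃ w : Omega F Q, ((w : isometryGroup F Q) : GL ι F) = t := by
    intro t ht
    rw [← omega_eq hQ h5, omegaGL] at ht
    obtain ⟨w, hw, rfl⟩ := ht
    exact ⟨⟨w, hw⟩, rfl⟩
  have hmem' : ∀ w : Omega F Q, ((w : isometryGroup F Q) : GL ι F) ∈ TT Q B := by
    intro w
    rw [← omega_eq hQ h5, omegaGL]
    exact ⟨w, w.2, rfl⟩
  have hcomm : ∀ t ∈ TT Q B, t * ((w : isometryGroup F Q) : GL ι F) = ((w : isometryGroup F Q) : GL ι F) * t := by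
    intro t ht
    obtain ⟨x, rfl⟩ := hmem t ht
    have h2 := Subgroup.mem_center_iff.1 hw x
    exact congrArg (fun w : Omega F Q => ((w : isometryGroup F Q) : GL ι F)) h2
  have hfix : ∀ a, Q a = 0 → ap ((w : isometryGroup F Q) : GL ι F) a ∈ Submodule.span F {a} := by
    by_contra hcon
    push Not at hcon
    obtain ⟨a, ha, hwa⟩ := hcon
    obtain ⟨N, hN⟩ : ∃ N : Subgroup (GL ι F), N = Subgroup.centralizer (TT Q B : Set (GL ι F)) ⊓ TT Q B := ⟨_, rfl⟩
    have h1 : TT Q B ≤ N := by
      refine omega_normal hQ h7 (by rw [hN]; exact inf_le_right) ?_ (g := ((w : isometryGroup F Q) : GL ι F)) ?_ ha hwa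
      · intro t ht g hg
        rw [hN] at hg ⊢
        refine ⟨?_, (TT Q B).mul_mem ((TT Q B).mul_mem ht hg.2) ((TT Q B).inv_mem ht)⟩
        have h2 := Subgroup.mem_centralizer_iff.1 hg.1 t ht
        rw [h2, mul_inv_cancel_right]
        exact hg.1
      · rw [hN]
        refine ⟨Subgroup.mem_centralizer_iff.2 (fun t ht => hcomm t ht), hmem' w⟩
    have h2 : ⁅TT Q B, TT Q B⁆ ≤ ⊥ := by
      rw [Subgroup.commutator_le]
      intro x hx y hy
      have h3 := h1 hx
      rw [hN] at h3
      have h4 := Subgroup.mem_centralizer_iff.1 h3.1 y hy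
      rw [Subgroup.mem_bot, commutatorElement_def, ← h4]
      group
    have h3 := (TT_perfect hQ h7).trans h2
    obtain ⟨t, ht⟩ : ∃ t, t = ((w : isometryGroup F Q) : GL ι F) := ⟨_, rfl⟩
    have h4 : t = 1 := by
      have := h3 (hmem' w)
      rwa [Subgroup.mem_bot, ← ht] at this
    rw [← ht, h4, ap_one] at hwa
    exact hwa (Submodule.mem_span_singleton_self a)
  obtain ⟨c, hc⟩ := scalar_of_fix hQ h5 (TT_le_O hQ (hmem' w)) hfix
  obtain ⟨u, hu⟩ := exists_nonsing hQ (show 1 ≤ Fintype.card ι by omega)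
  have h1 : c * c = 1 := by
    have h2 := mem_O.1 (TT_le_O hQ (hmem' w)) u
    rw [hc, hQ.smul] at h2
    exact mul_right_cancel₀ hu (h2.trans (one_mul _).symm)
  have h2 : (c - 1) * (c + 1) = 0 := by linear_combination h1
  rcases mul_eq_zero.1 h2 with h3 | h3
  · left
    apply Subtype.ext
    apply ap_ext
    intro v
    rw [hc, sub_eq_zero.1 h3, one_smul]
    exact (ap_one v).symm
  · right
    apply Subtype.ext
    apply ap_ext
    intro v
    rw [hc, eq_neg_of_add_eq_zero_left h3, ap_ngI, neg_one_smul]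

theorem card_center_one (hQ : Qf Q B) (h7 : 7 ≤ Fintype.card ι) (h : (2 : F) = 0 ∨ ngI hQ ∉ Omega F Q) :
    Nat.card (Subgroup.center (Omega F Q)) = 1 := by
  rw [Subgroup.card_eq_one, Subgroup.eq_bot_iff_forall]
  intro w hw
  rcases mem_center hQ h7 hw with h1 | h1
  · exact Subtype.ext h1
  · rcases h with h | h
    · apply Subtype.ext
      rw [h1]
      apply Subtype.ext
      apply ap_ext
      intro v
      rw [ap_ngI]
      change -v = ap (1 : GL ι F) v
      rw [ap_one]
      haveI : CharP F 2 := CharTwo.of_one_ne_zero_of_two_eq_zero one_ne_zero h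
      have h3 : (2 : F) • v = 0 := by rw [h, zero_smul]
      rw [two_smul] at h3
      exact (eq_neg_of_add_eq_zero_left h3).symm
    · exact absurd (by rw [← h1]; exact w.2) h

theorem card_center_two (hQ : Qf Q B) (h7 : 7 ≤ Fintype.card ι) (h2 : (2 : F) ≠ 0) (h : ngI hQ ∈ Omega F Q) :
    Nat.card (Subgroup.center (Omega F Q)) = 2 := by
  have hz : (⟨ngI hQ, h⟩ : Omega F Q) ∈ Subgroup.center (Omega F Q) := by
    rw [Subgroup.mem_center_iff]
    intro x
    apply Subtype.ext
    apply Subtype.ext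
    apply ap_ext
    intro v
    change ap (((x : isometryGroup F Q) : GL ι F) * (ngI hQ : GL ι F)) v = ap ((ngI hQ : GL ι F) * ((x : isometryGroup F Q) : GL ι F)) v
    rw [ap_mul, ap_mul, ap_ngI, ap_ngI, show ap ((x : isometryGroup F Q) : GL ι F) (-v) = -ap ((x : isometryGroup F Q) : GL ι F) v from
      map_neg (lin _) v]
  rw [Nat.card_eq_two_iff]
  refine ⟨1, ⟨_, hz⟩, ?_, ?_⟩
  · intro h1
    have h3 : ngI hQ = 1 := (congrArg (fun w : Subgroup.center (Omega F Q) => ((w : Omega F Q) : isometryGroup F Q)) h1).symm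
    obtain ⟨u, hu⟩ := exists_nonsing hQ (show 1 ≤ Fintype.card ι by omega)
    have h4 := ap_ngI hQ u
    rw [h3] at h4
    have h5 : u = -u := (ap_one u).symm.trans h4
    have h6 : (2 : F) • u = 0 := by rw [two_smul]; nth_rewrite 2 [h5]; exact add_neg_cancel u
    rcases smul_eq_zero.1 h6 with h7 | h7
    · exact h2 h7
    · rw [h7, hQ.zero] at hu; exact hu rfl
  · rw [Set.eq_univ_iff_forall]
    rintro ⟨w, hw⟩
    rcases mem_center hQ h7 hw with h1 | h1
    · left
      exact Subtype.ext (Subtype.ext h1)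
    · right
      exact Subtype.ext (Subtype.ext h1)

theorem card_pomega (hQ : Qf Q B) : Nat.card (POmega F Q) * Nat.card (Subgroup.center (Omega F Q)) * (Omega F Q).index =
    Nat.card (isometryGroup F Q) := by
  rw [← Subgroup.card_eq_card_quotient_mul_card_subgroup, Subgroup.card_mul_index]

theorem index_even' (hQ : Qf Q B) (h7 : 7 ≤ Fintype.card ι) (h2 : (2 : F) = 0) : (Omega F Q).index = 2 :=
  omega_index_even hQ (O_eq_RR hQ (by omega)) h2 (by omega)

end main

theorem two_zero_of_even {F : Type*} [Field F] [Fintype F] (h : ¬ Odd (Fintype.card F)) : (2 : F) = 0 := by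
  by_contra h2
  apply h
  rw [Nat.odd_iff]
  exact FiniteField.odd_card_of_char_ne_two (ringChar_ne_two h2)

end Cfsg.Agent.H7.Orth
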