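import Cfsg.Agent.H7.GL2

set_option autoImplicit false
set_option linter.unusedSectionVars false

namespace Cfsg.Agent.H7.GL2

open Module Matrix Cfsg Cfsg.Agent.H7.Tv
open scoped LinearAlgebra.Projectivization

variable {F : Type*} [Field F]

theorem mk_eq_iff_df {x y : Fin 2 → F} (hx : x ≠ 0) (hy : y ≠ 0) :
    (Projectivization.mk F x hx : ℙ F (Fin 2 → F)) = Projectivization.mk F y hy ↔ df F x y = 0 := by
  rw [Projectivization.mk_eq_mk_iff']
  constructor
  · rintro ⟨c, rfl⟩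
    simp [df_alt.alt]
  · intro h
    have h' : df F y x = 0 := df_alt.skew_zero h
    obtain ⟨c, hc⟩ := df_zero hy h'
    exact ⟨c, hc.symm⟩

/-- three distinct points in normal form -/
theorem exists_frame {a b c : ℙ F (Fin 2 → F)} (hab : a ≠ b) (hac : a ≠ c) (hbc : b ≠ c) :
    ∃ (x y : Fin 2 → F) (hx : x ≠ 0) (hy : y ≠ 0) (hxy : x + y ≠ 0), df F x y ≠ 0 ∧
      a = Projectivization.mk F x hx ∧ b = Projectivization.mk F y hy ∧ c = Projectivization.mk F (x + y) hxy := by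
  induction a using Projectivization.ind with | h u hu => ?_
  induction b using Projectivization.ind with | h v hv => ?_
  induction c using Projectivization.ind with | h w hw => ?_
  rw [Ne, mk_eq_iff_df] at hab hac hbc
  -- `w = α u + β v`
  have h5 : ∀ i, df F u v * w i = df F w v * u i + df F u w * v i := by
    intro i
    fin_cases i <;> simp only [df_apply, Fin.zero_eta, Fin.mk_one] <;> ring
  have hwv : df F w v ≠ 0 := df_alt.skew_ne hbc
  refine ⟨df F w v • u, df F u w • v, smul_ne_zero hwv hu, smul_ne_zero hac hv, ?_, ?_, ?_, ?_, ?_⟩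
  · intro h
    have h6 : df F u v • w = 0 := by
      rw [← h]
      funext i
      exact h5 i
    exact (smul_ne_zero hab hw) h6
  · simp only [map_smul, LinearMap.smul_apply, smul_eq_mul]
    exact mul_ne_zero hac (mul_ne_zero hwv hab)
  · rw [Projectivization.mk_eq_mk_iff']
    exact ⟨(df F w v)⁻¹, by rw [smul_smul, inv_mul_cancel₀ hwv, one_smul]⟩
  · rw [Projectivization.mk_eq_mk_iff']
    exact ⟨(df F u w)⁻¹, by rw [smul_smul, inv_mul_cancel₀ hac, one_smul]⟩
  · rw [Projectivization.mk_eq_mk_iff']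
    refine ⟨(df F u v)⁻¹, ?_⟩
    have : df F w v • u + df F u w • v = df F u v • w := by
      funext i
      exact (h5 i).symm
    rw [this, smul_smul, inv_mul_cancel₀ hab, one_smul]

theorem exists_mat {x y : Fin 2 → F} (h : df F x y ≠ 0) :
    ∃ g : GL (Fin 2) F, ap g ![1, 0] = x ∧ ap g ![0, 1] = y ∧ (g : Matrix (Fin 2) (Fin 2) F).det = df F x y := by
  have hd : (!![x 0, y 0; x 1, y 1] : Matrix (Fin 2) (Fin 2) F).det = df F x y := by
    rw [Matrix.det_fin_two_of, df_apply]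
    ring
  refine ⟨GeneralLinearGroup.mkOfDetNeZero !![x 0, y 0; x 1, y 1] (by rw [hd]; exact h), ?_, ?_, hd⟩
  · funext i
    change (!![x 0, y 0; x 1, y 1] *ᵥ ![1, 0]) i = x i
    fin_cases i <;> simp
  · funext i
    change (!![x 0, y 0; x 1, y 1] *ᵥ ![0, 1]) i = y i
    fin_cases i <;> simp

theorem exists_gl {x y x' y' : Fin 2 → F} (h : df F x y ≠ 0) (h' : df F x' y' ≠ 0) :
    ∃ g : GL (Fin 2) F, ap g x = x' ∧ ap g y = y' := by
  obtain ⟨g, hgx, hgy, -⟩ := exists_mat h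
  obtain ⟨k, hkx, hky, -⟩ := exists_mat h'
  refine ⟨k * g⁻¹, ?_, ?_⟩
  · rw [ap_mul, ← hgx, ap_inv_ap, hkx]
  · rw [ap_mul, ← hgy, ap_inv_ap, hky]

theorem exists_perm_points {a b c a' b' c' : ℙ F (Fin 2 → F)} (hab : a ≠ b) (hac : a ≠ c) (hbc : b ≠ c)
    (hab' : a' ≠ b') (hac' : a' ≠ c') (hbc' : b' ≠ c') :
    ∃ g : GL (Fin 2) F, (∀ (v : Fin 2 → F) (hv : v ≠ 0), a = Projectivization.mk F v hv → a' = Projectivization.mk F (ap g v) (fun h => hv (ap_eq_zero.1 h))) ∧
      (∀ (v : Fin 2 → F) (hv : v ≠ 0), b = Projectivization.mk F v hv → b' = Projectivization.mk F (ap g v) (fun h => hv (ap_eq_zero.1 h))) ∧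
      (∀ (v : Fin 2 → F) (hv : v ≠ 0), c = Projectivization.mk F v hv → c' = Projectivization.mk F (ap g v) (fun h => hv (ap_eq_zero.1 h))) := by
  obtain ⟨x, y, hx, hy, hxy, hd, rfl, rfl, rfl⟩ := exists_frame hab hac hbc
  obtain ⟨x', y', hx', hy', hxy', hd', rfl, rfl, rfl⟩ := exists_frame hab' hac' hbc'
  obtain ⟨g, hgx, hgy⟩ := exists_gl hd hd'
  have key : ∀ (u u' : Fin 2 → F) (hu : u ≠ 0) (hu' : u' ≠ 0), ap g u = u' → ∀ (v : Fin 2 → F) (hv : v ≠ 0),
      (Projectivization.mk F u hu : ℙ F (Fin 2 → F)) = Projectivization.mk F v hv →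
      (Projectivization.mk F u' hu' : ℙ F (Fin 2 → F)) = Projectivization.mk F (ap g v) (fun h => hv (ap_eq_zero.1 h)) := by
    rintro u u' hu hu' rfl v hv h
    rw [Projectivization.mk_eq_mk_iff'] at h ⊢
    obtain ⟨c, rfl⟩ := h
    exact ⟨c, (ap_smul _ _ _).symm⟩
  exact ⟨g, key _ _ hx hx' hgx, key _ _ hy hy' hgy, key _ _ hxy hxy' (by rw [ap_add, hgx, hgy])⟩

end Cfsg.Agent.H7.GL2
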