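import Cfsg.Agent.H7.Tv
import Cfsg.Agent.H7.Frames
import Cfsg.Agent.H7.SUGen

set_option autoImplicit false

/-! Groups containing the stabiliser of a pair of complementary totally isotropic subspaces. -/

namespace Cfsg.Agent.H7.Pair

open Module Matrix Cfsg Cfsg.Agent.H7.Tv Cfsg.Agent.H7.Witt
open Cfsg.Agent.H7.UTv (Isom Isom.mul Isom.inv Isom.one Isom.comp mem_prp_one mem_prp_two finrank_span_two finrank_span_one)

variable {ι : Type} [Fintype ι] [DecidableEq ι] {F : Type*} [Field F] [Finite F]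
variable {σ : F →+* F}

/-- nondegenerate skew-Hermitian forms with a nonzero trace -/
structure Sk (B : (ι → F) →ₛₗ[σ] (ι → F) →ₗ[F] F) : Prop where
  inv : ∀ a, σ (σ a) = a
  tr : ∃ c, c + σ c ≠ 0
  skew : ∀ x y, σ (B x y) = - B y x
  nd : ∀ v, (∀ u, B v u = 0) → v = 0

variable {B : (ι → F) →ₛₗ[σ] (ι → F) →ₗ[F] F}

namespace Sk

variable (hB : Sk B)
include hB

theorem skew' (x y : ι → F) : B y x = - σ (B x y) := by rw [hB.skew, neg_neg]

theorem zero_swap {x y : ι → F} (h : B x y = 0) : B y x = 0 := by rw [hB.skew', h, map_zero, neg_zero]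

theorem ne_swap {x y : ι → F} (h : B x y ≠ 0) : B y x ≠ 0 := fun h' => h (hB.zero_swap h')

theorem nd' (v : ι → F) (h : ∀ u, B u v = 0) : v = 0 := hB.nd v (fun u => hB.zero_swap (h u))

theorem exists_tr (c : F) (hc : σ c = c) : ∃ t, t + σ t = c := by
  obtain ⟨e, he⟩ := hB.tr
  refine ⟨c * (e + σ e)⁻¹ * e, ?_⟩
  rw [map_mul, map_mul, hc, map_inv₀, map_add, hB.inv, add_comm (σ e) e, ← mul_add, mul_assoc, inv_mul_cancel₀ he, mul_one]

theorem exists_perp {y : ι → F} {S : Submodule F (ι → F)} (h : y ∉ S) :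
    ∃ w, B w y = 1 ∧ ∀ s ∈ S, B w s = 0 :=
  exists_orth (B := B) (ε := -1) (neg_ne_zero.2 one_ne_zero) hB.inv (fun x y => by rw [hB.skew, neg_one_mul])
    (fun v hv => hB.nd' v hv) h

theorem finrank_prp' (U : Submodule F (ι → F)) : finrank F U + finrank F (prp B U) = Fintype.card ι := by
  have h4 := Cfsg.Agent.H7.Witt.finrank_prp hB.nd U
  rwa [finrank_fintype_fun_eq_card] at h4

end Sk

/-- short root elements -/
def IsE (B : (ι → F) →ₛₗ[σ] (ι → F) →ₗ[F] F) (g : GL ι F) (x y : ι → F) (c : F) : Prop :=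
  ∀ v, ap g v = v + (c * B x v) • y + (σ c * B y v) • x

/-- the short root group is in `K` -/
def Pr (B : (ι → F) →ₛₗ[σ] (ι → F) →ₗ[F] F) (K : Subgroup (GL ι F)) (x y : ι → F) : Prop :=
  ∀ (c : F) (g : GL ι F), IsE B g x y c → g ∈ K

/-- the long root group is in `K` -/
def UT (B : (ι → F) →ₛₗ[σ] (ι → F) →ₗ[F] F) (K : Subgroup (GL ι F)) (x : ι → F) : Prop :=
  ∀ c, σ c = c → In K x (c • B x)

theorem exists_E (hB : Sk B) {x y : ι → F} (hx : B x x = 0) (hxy : B x y = 0) (c : F) :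
    ∃ g : GL ι F, IsE B g x y c ∧ g ∈ Geo.specialLinear ι F := by
  have hyx := hB.zero_swap hxy
  obtain ⟨s, hs⟩ := exists_tv (u := x) (l := σ c • B y) (by rw [LinearMap.smul_apply, hyx, smul_zero])
  obtain ⟨t, ht⟩ := exists_tv (u := y) (l := c • B x) (by rw [LinearMap.smul_apply, hxy, smul_zero])
  refine ⟨t * s, fun v => ?_, mul_mem (IsTv.mem_SL (by rw [LinearMap.smul_apply, hxy, smul_zero]) ht)
    (IsTv.mem_SL (by rw [LinearMap.smul_apply, hyx, smul_zero]) hs)⟩
  rw [ap_mul, hs, ht]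
  simp only [LinearMap.smul_apply, map_add, map_smul, hx, smul_eq_mul, mul_zero, add_zero]
  abel

theorem IsE.isom (hB : Sk B) {x y : ι → F} (hx : B x x = 0) (hy : B y y = 0) (hxy : B x y = 0) {c : F} {g : GL ι F}
    (hg : IsE B g x y c) : Isom B g := by
  have hyx := hB.zero_swap hxy
  intro v w
  rw [hg, hg]
  simp only [map_add, LinearMap.add_apply, map_smul, LinearMap.map_smulₛₗ, LinearMap.smul_apply, smul_eq_mul, hx, hy, hxy, hyx,
    map_mul, hB.inv, hB.skew, mul_zero, add_zero]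
  ring

omit [Finite F] in
theorem IsE.unique {x y : ι → F} {c : F} {g h : GL ι F} (hg : IsE B g x y c) (hh : IsE B h x y c) : g = h :=
  ap_ext (fun v => by rw [hg v, hh v])

omit [Finite F] in
theorem Pr.conj {K : Subgroup (GL ι F)} {h : GL ι F} (hh : h ∈ K) (hi : Isom B h) {x y : ι → F} (H : Pr B K x y) :
    Pr B K (ap h x) (ap h y) := by
  intro c g hg
  have h1 : h⁻¹ * g * h ∈ K := by
    apply H c
    intro v
    rw [ap_mul, ap_mul, hg, hi, hi, ap_add, ap_add, ap_smul, ap_smul, ap_inv_ap, ap_inv_ap, ap_inv_ap]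
  have h2 := K.mul_mem (K.mul_mem hh h1) (K.inv_mem hh)
  rwa [show h * (h⁻¹ * g * h) * h⁻¹ = g by group] at h2

theorem Pr.symm (hB : Sk B) {K : Subgroup (GL ι F)} {x y : ι → F} (H : Pr B K x y) : Pr B K y x := by
  intro c g hg
  apply H (σ c)
  intro v
  rw [hg, hB.inv]
  abel

omit [Finite F] in
theorem Pr.smul {K : Subgroup (GL ι F)} {x y : ι → F} (H : Pr B K x y) (a : F) : Pr B K x (a • y) := by
  intro c g hg
  apply H (c * a)
  intro v
  rw [hg, LinearMap.map_smulₛₗ, LinearMap.smul_apply, smul_smul, smul_eq_mul, map_mul]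
  congr 2
  · congr 1
    ring
  · ring

omit [Finite F] in
theorem Pr.neg {K : Subgroup (GL ι F)} {x y : ι → F} (H : Pr B K x y) : Pr B K x (-y) := by
  have := H.smul (-1)
  rwa [neg_one_smul] at this

/-- the product of two short root elements -/
theorem E_mul (hB : Sk B) {x y z : ι → F} (hx : B x x = 0) (hxy : B x y = 0) (hxz : B x z = 0) {a b : F} {g h : GL ι F}
    (hg : IsE B g x y a) (hh : IsE B h x z b) (v : ι → F) :
    ap (g * h) v = v + (B x v) • (a • y + b • z) + (σ a * B y v + σ b * B z v + σ a * b * B y z * B x v) • x := by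
  have hyx := hB.zero_swap hxy
  rw [ap_mul, hh, hg]
  simp only [map_add, map_smul, smul_eq_mul, hx, hxz, hyx, mul_zero, add_zero]
  module

theorem Pr.add (hB : Sk B) {K : Subgroup (GL ι F)} {x y z : ι → F} (hx : B x x = 0) (hxy : B x y = 0) (hxz : B x z = 0)
    (hyz : B y z = 0) (H : Pr B K x y) (H' : Pr B K x z) : Pr B K x (y + z) := by
  intro c g hg
  obtain ⟨s, hs, -⟩ := exists_E hB hx hxy c
  obtain ⟨t, ht, -⟩ := exists_E hB hx hxz c
  have : g = s * t := by
    apply ap_ext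
    intro v
    rw [E_mul hB hx hxy hxz hs ht, hg, hyz]
    simp only [map_add, LinearMap.add_apply]
    module
  rw [this]
  exact mul_mem (H c s hs) (H' c t ht)

/-- the commutator of short root elements -/
theorem Pr.comm (hB : Sk B) {K : Subgroup (GL ι F)} {x y z : ι → F} (hx : B x x = 0) (hxy : B x y = 0) (hxz : B x z = 0)
    (hyz : B y z ≠ 0) (H : Pr B K x y) (H' : Pr B K x z) : UT B K x := by
  intro c hc T hT
  obtain ⟨w, hw⟩ := hB.exists_tr c hc
  obtain ⟨s, hs, -⟩ := exists_E hB hx hxy 1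
  obtain ⟨t, ht, -⟩ := exists_E hB hx hxz (w * (B y z)⁻¹)
  have hyx := hB.zero_swap hxy
  have hzx := hB.zero_swap hxz
  have : T = s * t * (t * s)⁻¹ := by
    rw [eq_mul_inv_iff_mul_eq]
    apply ap_ext
    intro v
    rw [ap_mul, E_mul hB hx hxz hxy ht hs, hT, E_mul hB hx hxy hxz hs ht]
    have h1 : B x (v + (B x v) • ((w * (B y z)⁻¹) • z + (1 : F) • y) + (σ (w * (B y z)⁻¹) * B z v + σ 1 * B y v +
      σ (w * (B y z)⁻¹) * 1 * B z y * B x v) • x) = B x v := by
      simp only [map_add, map_smul, hx, hxy, hxz, smul_zero, add_zero, smul_eq_mul, mul_zero]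
    rw [LinearMap.smul_apply, h1]
    have h2 : σ (w * (B y z)⁻¹) * B z y = - σ w := by
      rw [map_mul, map_inv₀, hB.skew' y z]
      have : σ (B y z) ≠ 0 := (map_ne_zero σ).2 hyz
      field_simp
    have h3 : w * (B y z)⁻¹ * B y z = w := by field_simp
    simp only [map_one, one_mul, mul_one, smul_eq_mul]
    rw [h2, h3, ← hw]
    module
  rw [this]
  exact mul_mem (mul_mem (H _ s hs) (H' _ t ht)) (inv_mem (mul_mem (H' _ t ht) (H _ s hs)))

omit [Finite F] in
theorem UT.conj {K : Subgroup (GL ι F)} {g : GL ι F} (hg : g ∈ K) (hi : Isom B g) {u : ι → F} (h : UT B K u) :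
    UT B K (ap g u) := by
  intro c hc
  have h1 := (h c hc).conj hg
  rwa [LinearMap.smul_comp, hi.comp] at h1

theorem UT.smul (hB : Sk B) {K : Subgroup (GL ι F)} {u : ι → F} (h : UT B K u) (a : F) : UT B K (a • u) := by
  intro c hc
  rw [In.smul_iff, LinearMap.map_smulₛₗ, smul_smul, smul_smul]
  apply h
  rw [map_mul, map_mul, hB.inv, hc]
  ring

theorem T_isom (hB : Sk B) {u : ι → F} {c : F} (hu : B u u = 0) (hc : σ c = c) {g : GL ι F}
    (hg : IsTv g u (c • B u)) : Isom B g := by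
  intro x y
  rw [hg, hg]
  simp only [map_add, LinearMap.add_apply, map_smul, LinearMap.map_smulₛₗ, LinearMap.smul_apply, smul_eq_mul, hu, map_mul,
    hB.skew, mul_zero, add_zero, hc]
  ring

/-- hyperbolic lines -/
theorem UT.line (hB : Sk B) {K : Subgroup (GL ι F)} {x y : ι → F} (hy : B y y = 0) (hx : B x x = 0) (hxy : B x y ≠ 0)
    (h : UT B K x) (h' : UT B K y) {b : F} (hb : B (x + b • y) (x + b • y) = 0) : UT B K (x + b • y) := by
  have hyx := hB.ne_swap hxy
  have h1 : b * B x y = σ (b * B x y) := by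
    simp only [map_add, LinearMap.add_apply, map_smul, LinearMap.map_smulₛₗ, LinearMap.smul_apply, smul_eq_mul, hx, hy,
      mul_zero, add_zero, zero_add] at hb
    rw [map_mul, hB.skew]
    linear_combination hb
  obtain ⟨g, hg⟩ := exists_tv (u := y) (l := (b * (B y x)⁻¹) • B y) (by rw [LinearMap.smul_apply, hy, smul_zero])
  have hc : σ (b * (B y x)⁻¹) = b * (B y x)⁻¹ := by
    rw [map_mul, map_inv₀, hB.skew]
    rw [map_mul, hB.skew] at h1
    field_simp
    linear_combination -h1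
  have h2 := h.conj (h' _ hc g hg) (T_isom hB hy hc hg)
  rw [hg, LinearMap.smul_apply, smul_eq_mul, mul_assoc, inv_mul_cancel₀ hyx, mul_one] at h2
  exact h2

/-- avoiding a plane -/
theorem exists_notMem_pair {X : Submodule F (ι → F)} (h : 3 ≤ finrank F X) (a b : ι → F) :
    ∃ x ∈ X, x ∉ Submodule.span F {a, b} := by
  by_contra hcon
  push Not at hcon
  have h1 : X ≤ Submodule.span F {a, b} := hcon
  have h2 := Submodule.finrank_mono h1
  have h3 := finrank_span_two (F := F) a b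
  omega

/-- the situation -/
structure Ctx (B : (ι → F) →ₛₗ[σ] (ι → F) →ₗ[F] F) (K : Subgroup (GL ι F)) (V W : Submodule F (ι → F)) : Prop where
  hV : ∀ x ∈ V, ∀ y ∈ V, B x y = 0
  hW : ∀ x ∈ W, ∀ y ∈ W, B x y = 0
  sup : ∀ v, ∃ a ∈ V, ∃ b ∈ W, v = a + b
  dV : 7 ≤ finrank F V
  dW : 7 ≤ finrank F W
  E : ∀ u ∈ V, ∀ w ∈ W, B u w = 0 → Pr B K u w

namespace Ctx

variable {K : Subgroup (GL ι F)} {V W : Submodule F (ι → F)} (C : Ctx B K V W) (hB : Sk B)
include C hB

theorem symm : Ctx B K W V where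
  hV := C.hW
  hW := C.hV
  sup := fun v => by
    obtain ⟨a, ha, b, hb, h⟩ := C.sup v
    exact ⟨b, hb, a, ha, by rw [h, add_comm]⟩
  dV := C.dW
  dW := C.dV
  E := fun u hu w hw h => (C.E w hw u hu (hB.zero_swap h)).symm hB

/-- duality -/
theorem dual {y : ι → F} (_hy : y ∈ V) {S : Submodule F (ι → F)} (hS : S ≤ V) (h : y ∉ S) :
    ∃ w ∈ W, B w y = 1 ∧ ∀ s ∈ S, B w s = 0 := by
  obtain ⟨w, hw, hw'⟩ := hB.exists_perp h
  obtain ⟨a, ha, b, hb, rfl⟩ := C.sup w
  refine ⟨b, hb, ?_, fun s hs => ?_⟩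
  · rw [map_add, LinearMap.add_apply, C.hV a ha y _hy, zero_add] at hw
    exact hw
  · have := hw' s hs
    rw [map_add, LinearMap.add_apply, C.hV a ha s (hS hs), zero_add] at this
    exact this

/-- perpendicular vectors outside a plane -/
theorem avoid (x y a b : ι → F) : ∃ w ∈ W, B w x = 0 ∧ B w y = 0 ∧ w ∉ Submodule.span F {a, b} := by
  have h1 := hB.finrank_prp' (Submodule.span F {x, y})
  have h2 := finrank_span_two (F := F) x y
  have h3 := Submodule.finrank_sup_add_finrank_inf_eq W (prp B (Submodule.span F {x, y}))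
  have h4 : finrank F (W ⊔ prp B (Submodule.span F {x, y}) : Submodule F (ι → F)) ≤ Fintype.card ι := by
    have := Submodule.finrank_le (W ⊔ prp B (Submodule.span F {x, y}))
    rwa [finrank_fintype_fun_eq_card] at this
  have h5 := C.dW
  obtain ⟨w, hw, hw'⟩ := exists_notMem_pair (X := W ⊓ prp B (Submodule.span F {x, y})) (by omega) a b
  obtain ⟨h6, h7⟩ := mem_prp_two.1 hw.2
  exact ⟨w, hw.1, hB.zero_swap h6, hB.zero_swap h7, hw'⟩

/-- step (ii) -/
theorem step2 {x1 x2 y2 : ι → F} {l : F} (hx1 : x1 ∈ V) (hx2 : x2 ∈ W) (hx20 : x2 ≠ 0) (hy2 : y2 ∈ W)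
    (hy2' : y2 ∉ Submodule.span F {x2})
    (hx : B (x1 + x2) (x1 + x2) = 0) (hxy : B (x1 + x2) (l • x1 + y2) = 0) (hy : B (l • x1 + y2) (l • x1 + y2) = 0)
    (H : Pr B K (x1 + x2) (l • x1 + y2)) : ∃ z, z ≠ 0 ∧ z ∈ W ∧ UT B K z := by
  obtain ⟨p, hp, hp1, -, hpn⟩ := C.avoid hB x1 x1 x2 y2
  have hx2' : Submodule.span F {x2} ≤ W := (Submodule.span_singleton_le_iff_mem _ _).2 hx2
  have hp2 : p ∉ Submodule.span F {x2} := fun h => hpn (Submodule.span_mono (by simp) h)
  have hp0 : p ≠ 0 := by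
    rintro rfl
    exact hpn (Submodule.zero_mem _)
  have hyp : y2 ∉ Submodule.span F {x2, p} := by
    intro h
    obtain ⟨a, b, hab⟩ := Submodule.mem_span_pair.1 h
    have hb : b ≠ 0 := by
      rintro rfl
      rw [zero_smul, add_zero] at hab
      exact hy2' (Submodule.mem_span_singleton.2 ⟨a, hab⟩)
    apply hpn
    refine Submodule.mem_span_pair.2 ⟨-(b⁻¹ * a), b⁻¹, ?_⟩
    rw [← hab, smul_add, smul_smul, smul_smul, inv_mul_cancel₀ hb]
    module
  obtain ⟨u, hu, huy, hus⟩ := (C.symm hB).dual hB hy2 (S := Submodule.span F {x2, p}) (by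
    rw [Submodule.span_le]
    rintro z (rfl | hz)
    · exact hx2
    · rw [Set.mem_singleton_iff] at hz; rw [hz]; exact hp) hyp
  have hux2 : B u x2 = 0 := hus x2 (Submodule.subset_span (Set.mem_insert _ _))
  have hup : B u p = 0 := hus p (Submodule.subset_span (Set.mem_insert_of_mem _ rfl))
  have huu := C.hV u hu u hu
  have hpp := C.hW p hp p hp
  obtain ⟨h, hh, -⟩ := exists_E hB huu hup 1
  have hhK : h ∈ K := C.E u hu p hp hup 1 h hh
  have hhi := hh.isom hB huu hpp hup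
  have hhx : ap h (x1 + x2) = x1 + x2 := by
    rw [hh]
    simp only [map_add, C.hV u hu x1 hx1, hux2, hp1, C.hW p hp x2 hx2, add_zero, mul_zero, zero_smul]
  have hhy : ap h (l • x1 + y2) = l • x1 + y2 + p := by
    rw [hh]
    simp only [map_add, map_smul, C.hV u hu x1 hx1, huy, hp1, C.hW p hp y2 hy2, add_zero, mul_zero, zero_smul, smul_zero,
      zero_add, mul_one, one_smul]
  have h1 := H.conj hhK hhi
  rw [hhx, hhy] at h1
  have hx1p : B x1 p = 0 := hB.zero_swap hp1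
  have hxp : B (x1 + x2) p = 0 := by
    rw [map_add, LinearMap.add_apply, hx1p, C.hW x2 hx2 p hp, add_zero]
  have h2 : Pr B K (x1 + x2) p := by
    have h3 := h1.add hB hx (by rw [map_add, hxy, hxp, add_zero]) (by rw [map_neg, hxy, neg_zero]) (by
      have e1 : B (l • x1 + y2 + p) (l • x1 + y2) = B (l • x1 + y2) (l • x1 + y2) + B p (l • x1 + y2) := by
        rw [map_add B (l • x1 + y2) p, LinearMap.add_apply]
      rw [map_neg, e1, hy, map_add, map_smul, hp1, C.hW p hp y2 hy2]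
      simp) H.neg
    rwa [show l • x1 + y2 + p + -(l • x1 + y2) = p by abel] at h3
  have h2' := h2.symm hB
  have h3 : Pr B K p x1 := (C.E x1 hx1 p hp hx1p).symm hB
  have hpx : B p (x1 + x2) = 0 := hB.zero_swap hxp
  refine ⟨p, hp0, hp, ?_⟩
  by_cases hs : B x2 x1 = 0
  · have h4 : Pr B K p x2 := by
      have h5 := h2'.add hB hpp hpx (by rw [map_neg, hp1, neg_zero]) (by
        rw [map_neg, map_add, LinearMap.add_apply, C.hV x1 hx1 x1 hx1, hs]
        simp) h3.neg
      rwa [show x1 + x2 + -x1 = x2 by abel] at h5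
    have hx2p : x2 ∉ Submodule.span F {p} := by
      intro hm
      obtain ⟨a, ha⟩ := Submodule.mem_span_singleton.1 hm
      by_cases ha0 : a = 0
      · rw [ha0, zero_smul] at ha
        exact hx20 ha.symm
      · apply hp2
        refine Submodule.mem_span_singleton.2 ⟨a⁻¹, ?_⟩
        rw [← ha, smul_smul, inv_mul_cancel₀ ha0, one_smul]
    obtain ⟨u', hu', hux', hus'⟩ := (C.symm hB).dual hB hx2 (S := Submodule.span F {p})
      ((Submodule.span_singleton_le_iff_mem _ _).2 hp) hx2p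
    have hup' : B u' p = 0 := hus' p (Submodule.mem_span_singleton_self p)
    have huu' := C.hV u' hu' u' hu'
    intro d hd T hT
    obtain ⟨c, hc⟩ := hB.exists_tr d hd
    obtain ⟨h', hh', -⟩ := exists_E hB huu' hup' c
    have hhK' : h' ∈ K := C.E u' hu' p hp hup' c h' hh'
    have hhi' := hh'.isom hB huu' hpp hup'
    have hhp : ap h' p = p := by
      rw [hh', hup', hpp]
      simp
    have hhx2 : ap h' x2 = x2 + c • p := by
      rw [hh', hux', C.hW p hp x2 hx2]
      simp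
    have h5 := h4.conj hhK' hhi'
    rw [hhp, hhx2] at h5
    have hpx2 := C.hW p hp x2 hx2
    obtain ⟨s, hs, -⟩ := exists_E (y := x2 + c • p) hB hpp (by rw [map_add, map_smul, hpx2, hpp, smul_zero, add_zero]) 1
    obtain ⟨t, ht, -⟩ := exists_E hB hpp hpx2 (-1)
    have : T = s * t := by
      apply ap_ext
      intro v
      rw [E_mul hB hpp (by rw [map_add, map_smul, hpx2, hpp, smul_zero, add_zero]) hpx2 hs ht, hT, ← hc]
      simp only [map_add, LinearMap.add_apply, LinearMap.map_smulₛₗ, LinearMap.smul_apply, smul_eq_mul, map_one, map_neg,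
        C.hW x2 hx2 x2 hx2, hpx2]
      module
    rw [this]
    exact mul_mem (h5 1 s hs) (h4 (-1) t ht)
  · exact Pr.comm hB hpp hpx hp1 (by
      rw [map_add, LinearMap.add_apply, C.hV x1 hx1 x1 hx1, zero_add]
      exact hs) h2' h3

/-- step (i) -/
theorem step1 {x1 x2 y1 y2 : ι → F} (hx1 : x1 ∈ V) (hx2 : x2 ∈ W) (hy1 : y1 ∈ V) (hy2 : y2 ∈ W)
    (hy1' : y1 ∉ Submodule.span F {x1}) (hy2' : y2 ∉ Submodule.span F {x2})
    (hx : B (x1 + x2) (x1 + x2) = 0) (hxy : B (x1 + x2) (y1 + y2) = 0) (hy : B (y1 + y2) (y1 + y2) = 0)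
    (H : Pr B K (x1 + x2) (y1 + y2)) : UT B K (x1 + x2) := by
  have hsx1 := (Submodule.span_singleton_le_iff_mem x1 V).2 hx1
  have hsx2 := (Submodule.span_singleton_le_iff_mem x2 W).2 hx2
  obtain ⟨u, hu, hux2, huy2, hun⟩ : ∃ u ∈ V, B u x2 = 0 ∧ B u y2 = 1 ∧ u ∉ Submodule.span F {x1, y1} := by
    obtain ⟨u, hu, huy, hus⟩ := (C.symm hB).dual hB hy2 hsx2 hy2'
    have hux := hus x2 (Submodule.mem_span_singleton_self x2)
    by_cases hm : u ∈ Submodule.span F {x1, y1}
    · obtain ⟨u', hu', h1, h2, h3⟩ := (C.symm hB).avoid hB x2 y2 x1 y1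
      refine ⟨u + u', V.add_mem hu hu', by rw [map_add, LinearMap.add_apply, hux, h1, add_zero],
        by rw [map_add, LinearMap.add_apply, huy, h2, add_zero], fun h4 => h3 ?_⟩
      have := Submodule.sub_mem _ h4 hm
      rwa [add_sub_cancel_left] at this
    · exact ⟨u, hu, hux, huy, hm⟩
  have hyn : y1 ∉ Submodule.span F {x1, u} := by
    intro h
    obtain ⟨a, b, hab⟩ := Submodule.mem_span_pair.1 h
    have hb : b ≠ 0 := by
      rintro rfl
      rw [zero_smul, add_zero] at hab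
      exact hy1' (Submodule.mem_span_singleton.2 ⟨a, hab⟩)
    apply hun
    refine Submodule.mem_span_pair.2 ⟨-(b⁻¹ * a), b⁻¹, ?_⟩
    rw [← hab, smul_add, smul_smul, smul_smul, inv_mul_cancel₀ hb]
    module
  obtain ⟨p, hp, hpy, hps⟩ := C.dual hB hy1 (S := Submodule.span F {x1, u}) (by
    rw [Submodule.span_le]
    rintro z (rfl | hz)
    · exact hx1
    · rw [Set.mem_singleton_iff] at hz; rw [hz]; exact hu) hyn
  have hpx1 : B p x1 = 0 := hps x1 (Submodule.subset_span (Set.mem_insert _ _))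
  have hpu : B p u = 0 := hps u (Submodule.subset_span (Set.mem_insert_of_mem _ rfl))
  have hup := hB.zero_swap hpu
  have huu := C.hV u hu u hu
  have hpp := C.hW p hp p hp
  obtain ⟨c, hc⟩ := hB.tr
  obtain ⟨h, hh, -⟩ := exists_E hB huu hup c
  have hhK : h ∈ K := C.E u hu p hp hup c h hh
  have hhi := hh.isom hB huu hpp hup
  have hhx : ap h (x1 + x2) = x1 + x2 := by
    rw [hh]
    simp only [map_add, C.hV u hu x1 hx1, hux2, hpx1, C.hW p hp x2 hx2, add_zero, mul_zero, zero_smul]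
  have hhy : ap h (y1 + y2) = y1 + y2 + (c • p + σ c • u) := by
    rw [hh]
    simp only [map_add, C.hV u hu y1 hy1, huy2, hpy, C.hW p hp y2 hy2, add_zero, zero_add, mul_one, add_assoc]
  have h1 := H.conj hhK hhi
  rw [hhx, hhy] at h1
  have hy1p : B y1 p = -1 := by rw [hB.skew', hpy, map_one]
  have hy2u : B y2 u = -1 := by rw [hB.skew', huy2, map_one]
  refine Pr.comm hB hx hxy ?_ ?_ H h1
  · rw [map_add, hxy, zero_add]
    simp only [map_add, LinearMap.add_apply, map_smul, hB.zero_swap hpx1, C.hW x2 hx2 p hp, C.hV x1 hx1 u hu,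
      hB.zero_swap hux2, smul_zero, add_zero]
  · rw [map_add, hy, zero_add]
    simp only [map_add, LinearMap.add_apply, map_smul, hy1p, C.hW y2 hy2 p hp, C.hV y1 hy1 u hu, hy2u, add_zero, zero_add,
      smul_eq_mul, mul_neg, mul_one]
    intro h0
    apply hc
    linear_combination -h0

/-- step B -/
theorem stepB {x1 x2 y : ι → F} (hx1 : x1 ∈ V) (hx10 : x1 ≠ 0) (hx2 : x2 ∈ W) (hx20 : x2 ≠ 0)
    (hyn : y ∉ Submodule.span F {x1, x2})
    (hx : B (x1 + x2) (x1 + x2) = 0) (hxy : B (x1 + x2) y = 0) (hy : B y y = 0)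
    (H : Pr B K (x1 + x2) y) : ∃ z, z ≠ 0 ∧ B z z = 0 ∧ UT B K z := by
  obtain ⟨y1, hy1, y2, hy2, rfl⟩ := C.sup y
  by_cases h1 : y1 ∈ Submodule.span F {x1}
  · obtain ⟨l, rfl⟩ := Submodule.mem_span_singleton.1 h1
    obtain ⟨z, hz, hz', hz''⟩ := C.step2 hB hx1 hx2 hx20 hy2 (by
      intro h2
      obtain ⟨m, rfl⟩ := Submodule.mem_span_singleton.1 h2
      exact hyn (Submodule.mem_span_pair.2 ⟨l, m, rfl⟩)) hx hxy hy H
    exact ⟨z, hz, C.hW z hz' z hz', hz''⟩
  · by_cases h2 : y2 ∈ Submodule.span F {x2}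
    · obtain ⟨l, rfl⟩ := Submodule.mem_span_singleton.1 h2
      rw [add_comm x1 x2] at hx hxy H
      rw [add_comm y1] at hxy hy H
      obtain ⟨z, hz, hz', hz''⟩ := (C.symm hB).step2 hB hx2 hx1 hx10 hy1 h1 hx hxy hy H
      exact ⟨z, hz, C.hV z hz' z hz', hz''⟩
    · refine ⟨x1 + x2, ?_, hx, C.step1 hB hx1 hx2 hy1 hy2 h1 h2 hx hxy hy H⟩
      intro h0
      apply h1
      have h3 : x1 = -x2 := eq_neg_of_add_eq_zero_left h0
      exfalso
      -- x1 ∈ V ∩ W
      have h4 : x1 = 0 := by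
        apply hB.nd
        intro v
        obtain ⟨a, ha, b, hb, rfl⟩ := C.sup v
        rw [map_add, C.hV x1 hx1 a ha, zero_add, h3, map_neg, LinearMap.neg_apply, C.hW x2 hx2 b hb, neg_zero]
      exact hx10 h4

/-- moving the second component -/
theorem moveW {x1 x2 x2' : ι → F} (hx1 : x1 ∈ V) (hx2 : x2 ∈ W) (hx2' : x2' ∈ W) (h0 : x2 ≠ 0) (h0' : x2' ≠ 0)
    (hs : B x1 x2 = B x1 x2') (H : UT B K (x1 + x2)) : UT B K (x1 + x2') := by
  have aux : ∀ y y' : ι → F, y ∈ W → y' ∈ W → B x1 y = B x1 y' → y ∉ Submodule.span F {y' - y} → UT B K (x1 + y) →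
      UT B K (x1 + y') := by
    intro y y' hy hy' hyy hn H
    have hd : y' - y ∈ W := W.sub_mem hy' hy
    obtain ⟨u, hu, huy, hus⟩ := (C.symm hB).dual hB hy ((Submodule.span_singleton_le_iff_mem _ _).2 hd) hn
    have hud : B u (y' - y) = 0 := hus _ (Submodule.mem_span_singleton_self _)
    have huu := C.hV u hu u hu
    have hdd := C.hW _ hd _ hd
    obtain ⟨h, hh, -⟩ := exists_E hB huu hud 1
    have h1 := H.conj (C.E u hu _ hd hud 1 h hh) (hh.isom hB huu hdd hud)
    have hdx : B (y' - y) x1 = 0 := by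
      apply hB.zero_swap
      rw [map_sub, hyy, sub_self]
    have h2 : ap h (x1 + y) = x1 + y' := by
      rw [hh, map_add, map_add, C.hV u hu x1 hx1, huy, hdx, C.hW _ hd y hy]
      simp
    rwa [h2] at h1
  by_cases hn : x2 ∈ Submodule.span F {x2' - x2}
  · obtain ⟨a, ha⟩ := Submodule.mem_span_singleton.1 hn
    have ha0 : a ≠ 0 := by
      rintro rfl
      rw [zero_smul] at ha
      exact h0 ha.symm
    have hm : x2' = (a⁻¹ + 1) • x2 := by
      have h1 : x2' - x2 = a⁻¹ • x2 := by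
        nth_rewrite 2 [← ha]
        rw [smul_smul, inv_mul_cancel₀ ha0, one_smul]
      rw [add_smul, one_smul, ← h1]
      abel
    have hx0 : B x1 x2 = 0 := by
      have h1 : a⁻¹ * B x1 x2 = 0 := by
        rw [hm, map_smul, smul_eq_mul] at hs
        linear_combination -hs
      exact (mul_eq_zero.1 h1).resolve_left (inv_ne_zero ha0)
    obtain ⟨w, hw, hwx, -, hwn⟩ := C.avoid hB x1 x1 x2 x2
    have hwn' : w ∉ Submodule.span F {x2} := by
      intro h
      apply hwn
      have : ({x2, x2} : Set (ι → F)) = {x2} := by simp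
      rw [this]
      exact h
    have hxw := hB.zero_swap hwx
    refine aux w x2' hw hx2' (by rw [hxw, ← hs, hx0]) ?_ (aux x2 w hx2 hw (by rw [hx0, hxw]) ?_ H)
    · intro h
      obtain ⟨b, hb⟩ := Submodule.mem_span_singleton.1 h
      rw [hm] at hb
      have h1 : (1 + b) • w = (b * (a⁻¹ + 1)) • x2 := by
        rw [add_smul, one_smul]
        nth_rewrite 1 [← hb]
        module
      by_cases hb1 : 1 + b = 0
      · rw [hb1, zero_smul] at h1
        have h2 := (smul_eq_zero.1 h1.symm).resolve_right h0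
        have h3 : b = -1 := by linear_combination hb1
        rw [h3] at h2
        have h4 : a⁻¹ + 1 = 0 := by linear_combination -h2
        rw [h4, zero_smul] at hm
        exact h0' hm
      · apply hwn'
        refine Submodule.mem_span_singleton.2 ⟨(1 + b)⁻¹ * (b * (a⁻¹ + 1)), ?_⟩
        rw [mul_smul, ← h1, smul_smul, inv_mul_cancel₀ hb1, one_smul]
    · intro h
      obtain ⟨b, hb⟩ := Submodule.mem_span_singleton.1 h
      have hb0 : b ≠ 0 := by
        rintro rfl
        rw [zero_smul] at hb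
        exact h0 hb.symm
      apply hwn'
      refine Submodule.mem_span_singleton.2 ⟨b⁻¹ + 1, ?_⟩
      have h1 : w - x2 = b⁻¹ • x2 := by
        nth_rewrite 2 [← hb]
        rw [smul_smul, inv_mul_cancel₀ hb0, one_smul]
      rw [add_smul, one_smul, ← h1]
      abel
  · exact aux x2 x2' hx2 hx2' hs hn H

theorem moveV {x1 x1' x2 : ι → F} (hx2 : x2 ∈ W) (hx1 : x1 ∈ V) (hx1' : x1' ∈ V) (h0 : x1 ≠ 0) (h0' : x1' ≠ 0)
    (hs : B x1 x2 = B x1' x2) (H : UT B K (x1 + x2)) : UT B K (x1' + x2) := by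
  rw [add_comm] at H ⊢
  exact (C.symm hB).moveW hB hx2 hx1 hx1' h0 h0' (by rw [hB.skew' x1, hB.skew' x1', hs]) H

/-- vectors of `W` with given values -/
theorem prescribe {x y : ι → F} (hx : x ∈ V) (hy : y ∈ V) (hxy : x ∉ Submodule.span F {y}) (hyx : y ∉ Submodule.span F {x})
    (s t : F) : ∃ w ∈ W, w ≠ 0 ∧ B x w = s ∧ B y w = t := by
  obtain ⟨a, ha, ha1, ha2⟩ := C.dual hB hx ((Submodule.span_singleton_le_iff_mem _ _).2 hy) hxy
  obtain ⟨b, hb, hb1, hb2⟩ := C.dual hB hy ((Submodule.span_singleton_le_iff_mem _ _).2 hx) hyx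
  have ha2' := ha2 y (Submodule.mem_span_singleton_self y)
  have hb2' := hb2 x (Submodule.mem_span_singleton_self x)
  have e1 : B x a = -1 := by rw [hB.skew', ha1, map_one]
  have e2 : B y b = -1 := by rw [hB.skew', hb1, map_one]
  have e3 := hB.zero_swap ha2'
  have e4 := hB.zero_swap hb2'
  have h1 : B x ((-s) • a + (-t) • b) = s := by
    rw [map_add, map_smul, map_smul, e1, e4]
    simp
  have h2 : B y ((-s) • a + (-t) • b) = t := by
    rw [map_add, map_smul, map_smul, e2, e3]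
    simp
  by_cases hst : s = 0 ∧ t = 0
  · obtain ⟨w, hw, hw1, hw2, hwn⟩ := C.avoid hB x y 0 0
    refine ⟨w, hw, ?_, by rw [hst.1]; exact hB.zero_swap hw1, by rw [hst.2]; exact hB.zero_swap hw2⟩
    rintro rfl
    exact hwn (Submodule.zero_mem _)
  · refine ⟨_, W.add_mem (W.smul_mem _ ha) (W.smul_mem _ hb), ?_, h1, h2⟩
    intro h0
    rw [h0, map_zero] at h1 h2
    exact hst ⟨h1.symm, h2.symm⟩

theorem trans_ind {x1 x2 y1 y2 : ι → F} (hx1 : x1 ∈ V) (hx2 : x2 ∈ W) (hy1 : y1 ∈ V) (hy2 : y2 ∈ W) (hx10 : x1 ≠ 0)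
    (hx20 : x2 ≠ 0) (hy10 : y1 ≠ 0) (hy20 : y2 ≠ 0) (hs : B x1 x2 = B y1 y2) (h1 : x1 ∉ Submodule.span F {y1})
    (h2 : y1 ∉ Submodule.span F {x1}) (H : UT B K (x1 + x2)) : UT B K (y1 + y2) := by
  obtain ⟨z, hz, hz0, hz1, hz2⟩ := C.prescribe hB hx1 hy1 h1 h2 (B x1 x2) (B x1 x2)
  have h3 := C.moveW hB hx1 hx2 hz hx20 hz0 hz1.symm H
  have h4 := C.moveV hB hz hx1 hy1 hx10 hy10 (by rw [hz1, hz2]) h3
  exact C.moveW hB hy1 hz hy2 hz0 hy20 (by rw [hz2, hs]) h4

/-- transitivity -/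
theorem trans {x1 x2 y1 y2 : ι → F} (hx1 : x1 ∈ V) (hx2 : x2 ∈ W) (hy1 : y1 ∈ V) (hy2 : y2 ∈ W) (hx10 : x1 ≠ 0)
    (hx20 : x2 ≠ 0) (hy10 : y1 ≠ 0) (hy20 : y2 ≠ 0) (hs : B x1 x2 = B y1 y2) (H : UT B K (x1 + x2)) : UT B K (y1 + y2) := by
  obtain ⟨t, ht, -, -, htn⟩ := (C.symm hB).avoid hB 0 0 x1 y1
  have key : ∀ z : ι → F, z ≠ 0 → z ∈ Submodule.span F {x1, y1} → t ∉ Submodule.span F {z} ∧ z ∉ Submodule.span F {t} := by
    intro z hz hzs
    have h1 : t ∉ Submodule.span F {z} := fun h => htn ((Submodule.span_singleton_le_iff_mem _ _).2 hzs h)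
    refine ⟨h1, fun h => ?_⟩
    obtain ⟨a, ha⟩ := Submodule.mem_span_singleton.1 h
    have ha0 : a ≠ 0 := by
      rintro rfl
      rw [zero_smul] at ha
      exact hz ha.symm
    apply h1
    refine Submodule.mem_span_singleton.2 ⟨a⁻¹, ?_⟩
    rw [← ha, smul_smul, inv_mul_cancel₀ ha0, one_smul]
  have ht0 : t ≠ 0 := by
    rintro rfl
    exact htn (Submodule.zero_mem _)
  obtain ⟨k1, k2⟩ := key x1 hx10 (Submodule.subset_span (Set.mem_insert _ _))
  obtain ⟨k3, k4⟩ := key y1 hy10 (Submodule.subset_span (Set.mem_insert_of_mem _ rfl))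
  obtain ⟨z, hz, hz0, hz1, -⟩ := C.prescribe hB ht hx1 k1 k2 (B x1 x2) 0
  exact C.trans_ind hB ht hz hy1 hy2 ht0 hz0 hy10 hy20 (by rw [hz1, hs]) k3 k4
    (C.trans_ind hB hx1 hx2 ht hz hx10 hx20 ht0 hz0 hz1.symm k2 k1 H)

/-- dual families -/
theorem exists_dual_family : ∃ v w : Fin 4 → (ι → F), (∀ i, v i ∈ V) ∧ (∀ i, w i ∈ W) ∧
    ∀ i j, B (v i) (w j) = if i = j then 1 else 0 := by
  let b := Module.finBasis F V
  have h7 := C.dV
  let c : Fin 4 → Fin (finrank F V) := fun i => ⟨i, by omega⟩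
  have hc : Function.Injective c := fun i j h => Fin.ext (by simpa [c] using h)
  have hli : LinearIndependent F (fun i : Fin 4 => (b (c i) : ι → F)) :=
    (b.linearIndependent.map' V.subtype (Submodule.ker_subtype V)).comp c hc
  have hex : ∀ i : Fin 4, ∃ w ∈ W, B w (b (c i) : ι → F) = 1 ∧ ∀ j, j ≠ i → B w (b (c j) : ι → F) = 0 := by
    intro i
    have h1 := hli.notMem_span_image (s := {j | j ≠ i}) (x := i) (by simp)
    obtain ⟨w, hw, hw1, hw2⟩ := C.dual hB (b (c i)).2 (S := Submodule.span F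
      ((fun i : Fin 4 => (b (c i) : ι → F)) '' {j | j ≠ i})) (by
        rw [Submodule.span_le]
        rintro _ ⟨j, -, rfl⟩
        exact (b (c j)).2) h1
    exact ⟨w, hw, hw1, fun j hj => hw2 _ (Submodule.subset_span ⟨j, hj, rfl⟩)⟩
  choose w hw hw1 hw2 using hex
  refine ⟨fun i => b (c i), fun j => (-1 : F) • w j, fun i => (b (c i)).2, fun j => W.smul_mem _ (hw j), fun i j => ?_⟩
  rw [map_smul, hB.skew']
  split_ifs with h
  · subst h
    rw [hw1]
    simp
  · rw [hw2 j i h]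
    simp

/-- changing the invariant -/
theorem change {x1 x2 : ι → F} (hx1 : x1 ∈ V) (hx2 : x2 ∈ W) (hx10 : x1 ≠ 0) (hx20 : x2 ≠ 0)
    (hs : σ (B x1 x2) = B x1 x2) (H : UT B K (x1 + x2)) {y1 y2 : ι → F} (hy1 : y1 ∈ V) (hy2 : y2 ∈ W) (hy10 : y1 ≠ 0)
    (hy20 : y2 ≠ 0) (ht : σ (B y1 y2) = B y1 y2) : UT B K (y1 + y2) := by
  obtain ⟨v, w, hv, hw, hvw⟩ := C.exists_dual_family hB
  obtain ⟨s, hs'⟩ : ∃ s, s = B x1 x2 := ⟨_, rfl⟩
  obtain ⟨t, ht'⟩ : ∃ t, t = B y1 y2 := ⟨_, rfl⟩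
  rw [← hs'] at hs
  rw [← ht'] at ht
  obtain ⟨r, hr⟩ := hB.exists_tr (t - 1 - 2 * s) (by
    rw [map_sub, map_sub, map_mul, hs, ht, map_one, show (2 : F) = 1 + 1 by norm_num, map_add, map_one])
  have e : ∀ i j, B (v i) (w j) = if i = j then 1 else 0 := hvw
  -- the vectors
  obtain ⟨a, ha⟩ : ∃ a, a = s • w 0 + r • w 1 + w 2 := ⟨_, rfl⟩
  obtain ⟨b, hb⟩ : ∃ b, b = (1 + σ r) • w 0 + s • w 1 + w 3 := ⟨_, rfl⟩
  have haW : a ∈ W := by rw [ha]; exact W.add_mem (W.add_mem (W.smul_mem _ (hw 0)) (W.smul_mem _ (hw 1))) (hw 2)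
  have hbW : b ∈ W := by rw [hb]; exact W.add_mem (W.add_mem (W.smul_mem _ (hw 0)) (W.smul_mem _ (hw 1))) (hw 3)
  have a0 : B (v 0) a = s := by rw [ha]; simp [e]
  have a1 : B (v 1) a = r := by rw [ha]; simp [e]
  have a2 : B (v 2) a = 1 := by rw [ha]; simp [e]
  have b0 : B (v 0) b = 1 + σ r := by rw [hb]; simp [e]
  have b1 : B (v 1) b = s := by rw [hb]; simp [e]
  have b2 : B (v 2) b = 0 := by rw [hb]; simp [e]
  have b3 : B (v 3) b = 1 := by rw [hb]; simp [e]
  have hv0 : ∀ i, v i ≠ 0 := by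
    intro i h0
    have := e i i
    rw [h0, map_zero, LinearMap.zero_apply, if_pos rfl] at this
    exact zero_ne_one this
  have ha0 : a ≠ 0 := by
    rintro h0
    rw [h0, map_zero] at a2
    exact zero_ne_one a2
  have hb0 : b ≠ 0 := by
    rintro h0
    rw [h0, map_zero] at b3
    exact zero_ne_one b3
  have hab0 : a + b ≠ 0 := by
    intro h0
    have : B (v 2) (a + b) = 1 := by rw [map_add, a2, b2, add_zero]
    rw [h0, map_zero] at this
    exact zero_ne_one this
  have hvv0 : v 0 + v 1 ≠ 0 := by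
    intro h0
    have : B (v 0 + v 1) (w 0) = 1 := by rw [map_add, LinearMap.add_apply, e, e]; simp
    rw [h0, map_zero, LinearMap.zero_apply] at this
    exact zero_ne_one this
  have k1 := C.trans hB hx1 hx2 (hv 0) haW hx10 hx20 (hv0 0) ha0 (by rw [a0, hs']) H
  have k2 := C.trans hB hx1 hx2 (hv 1) hbW hx10 hx20 (hv0 1) hb0 (by rw [b1, hs']) H
  have hva : B a (v 0) = -s := by rw [hB.skew', a0, hs]
  have hva1 : B a (v 1) = -σ r := by rw [hB.skew', a1]
  have hvb : B b (v 0) = -(1 + r) := by rw [hB.skew', b0, map_add, map_one, hB.inv]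
  have hvb1 : B b (v 1) = -s := by rw [hB.skew', b1, hs]
  have k3 := k1.line hB (y := v 1 + b) (b := 1) (by
    simp only [map_add, LinearMap.add_apply, C.hV _ (hv 1) _ (hv 1), C.hW b hbW b hbW, b1, hvb1]
    ring) (by
    simp only [map_add, LinearMap.add_apply, C.hV _ (hv 0) _ (hv 0), C.hW a haW a haW, a0, hva]
    ring) (by
    simp only [map_add, LinearMap.add_apply, C.hV _ (hv 0) _ (hv 1), C.hW a haW b hbW, b0, hva1]
    rw [show 0 + -σ r + (1 + σ r + 0) = 1 by ring]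
    exact one_ne_zero) k2 (by
    rw [one_smul]
    simp only [map_add, LinearMap.add_apply, C.hV _ (hv 0) _ (hv 1), C.hV _ (hv 1) _ (hv 0), C.hV _ (hv 0) _ (hv 0),
      C.hV _ (hv 1) _ (hv 1), C.hW a haW b hbW, C.hW b hbW a haW, C.hW a haW a haW, C.hW b hbW b hbW, b0, hva1, a0, a1, b1,
      hva, hvb, hvb1]
    ring)
  rw [one_smul, show v 0 + a + (v 1 + b) = (v 0 + v 1) + (a + b) by abel] at k3
  refine C.trans hB (V.add_mem (hv 0) (hv 1)) (W.add_mem haW hbW) hy1 hy2 hvv0 hab0 hy10 hy20 ?_ k3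
  simp only [map_add, LinearMap.add_apply, a0, a1, b0, b1, ← ht']
  linear_combination hr

theorem all_W {x1 x2 : ι → F} (hx1 : x1 ∈ V) (hx2 : x2 ∈ W) (hx10 : x1 ≠ 0) (hx20 : x2 ≠ 0)
    (hs : σ (B x1 x2) = B x1 x2) (H : UT B K (x1 + x2)) {p : ι → F} (hp : p ∈ W) (hp0 : p ≠ 0) : UT B K p := by
  obtain ⟨u, hu, hup, -⟩ := (C.symm hB).dual hB hp (S := ⊥) bot_le (by rwa [Submodule.mem_bot])
  obtain ⟨w, hw, hwu, -, hwn⟩ := C.avoid hB u u 0 0
  have hw0 : w ≠ 0 := by
    rintro rfl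
    exact hwn (Submodule.zero_mem _)
  have huw := hB.zero_swap hwu
  have hu0 : u ≠ 0 := by
    rintro rfl
    rw [map_zero, LinearMap.zero_apply] at hup
    exact zero_ne_one hup
  have huwp : B u (w + p) = 1 := by rw [map_add, huw, hup, zero_add]
  have hpu : B p u = -1 := by rw [hB.skew', hup, map_one]
  have hwp0 : w + p ≠ 0 := by
    intro h0
    rw [h0, map_zero] at huwp
    exact zero_ne_one huwp
  have k1 := C.change hB hx1 hx2 hx10 hx20 hs H hu hw hu0 hw0 (by rw [huw, map_zero])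
  have k2 := C.change hB hx1 hx2 hx10 hx20 hs H hu (W.add_mem hw hp) hu0 hwp0 (by rw [huwp, map_one])
  have k3 := k2.line hB (y := u + w) (b := -1) (by
    simp only [map_add, LinearMap.add_apply, C.hV u hu u hu, C.hW w hw w hw, huw, hwu]
    ring) (by
    simp only [map_add, LinearMap.add_apply, C.hV u hu u hu, C.hW w hw w hw, huw, hwu, C.hW p hp p hp, C.hW w hw p hp,
      C.hW p hp w hw, hup, hpu]
    ring) (by
    simp only [map_add, LinearMap.add_apply, C.hV u hu u hu, C.hW w hw w hw, huw, hwu, C.hW p hp w hw, hpu]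
    rw [show (0 : F) + (0 + -1) + (0 + (0 + 0)) = -1 by ring]
    exact neg_ne_zero.2 one_ne_zero) k1 (by
    rw [show u + (w + p) + (-1 : F) • (u + w) = p by module]
    exact C.hW p hp p hp)
  rwa [show u + (w + p) + (-1 : F) • (u + w) = p by module] at k3

/-- everything -/
theorem all {x1 x2 : ι → F} (hx1 : x1 ∈ V) (hx2 : x2 ∈ W) (hx10 : x1 ≠ 0) (hx20 : x2 ≠ 0)
    (hs : σ (B x1 x2) = B x1 x2) (H : UT B K (x1 + x2)) {x : ι → F} (hx : B x x = 0) : UT B K x := by
  obtain ⟨a, ha, b, hb, rfl⟩ := C.sup x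
  by_cases ha0 : a = 0
  · subst ha0
    rw [zero_add]
    by_cases hb0 : b = 0
    · subst hb0
      intro c _
      exact In.zero_left K _
    · exact C.all_W hB hx1 hx2 hx10 hx20 hs H hb hb0
  · by_cases hb0 : b = 0
    · subst hb0
      rw [add_zero]
      refine (C.symm hB).all_W hB hx2 hx1 hx20 hx10 ?_ (by rwa [add_comm] at H) ha ha0
      rw [hB.skew' x1 x2, hs, map_neg, hs]
    · refine C.change hB hx1 hx2 hx10 hx20 hs H ha hb ha0 hb0 ?_
      simp only [map_add, LinearMap.add_apply, C.hV a ha a ha, C.hW b hb b hb, zero_add, add_zero] at hx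
      have := hB.skew a b
      rw [this]
      linear_combination -hx

/-- **main theorem** -/
theorem main {s : GL ι F} (hsK : s ∈ K) (hsi : Isom B s) (hsV : ∀ x ∈ V, ap s x ∈ W) (hsW : ∀ x ∈ W, ap s x ∈ V)
    {z : ι → F} (hz0 : z ≠ 0) (hz : B z z = 0) (H : UT B K z) {x : ι → F} (hx : B x x = 0) : UT B K x := by
  have key : ∀ {V W : Submodule F (ι → F)} (_C : Ctx B K V W) (_hW : ∀ x ∈ W, ap s x ∈ V) (z : ι → F), z ∈ W → z ≠ 0 →
      UT B K z → UT B K x := by
    intro V W C hsW z hz hz0 H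
    have h1 := H.conj hsK hsi
    have h2 : ap s z ≠ 0 := fun h => hz0 (ap_eq_zero.1 h)
    obtain ⟨p, hp, hp1, -⟩ := C.dual hB (hsW z hz) (S := ⊥) bot_le (by rwa [Submodule.mem_bot])
    have hp0 : p ≠ 0 := by
      rintro rfl
      rw [map_zero, LinearMap.zero_apply] at hp1
      exact zero_ne_one hp1
    have h3 : UT B K p := by
      have := C.moveW hB (x1 := 0) V.zero_mem hz hp hz0 hp0 (by simp) (by rwa [zero_add])
      rwa [zero_add] at this
    have hzp : B (ap s z) p = -1 := by rw [hB.skew', hp1, map_one]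
    have h4 := h1.line hB (y := p) (b := 1) (C.hW p hp p hp) (C.hV _ (hsW z hz) _ (hsW z hz)) (by
      rw [hzp]; exact neg_ne_zero.2 one_ne_zero) h3 (by
      rw [one_smul]
      simp only [map_add, LinearMap.add_apply, C.hW p hp p hp, C.hV _ (hsW z hz) _ (hsW z hz), hzp, hp1]
      ring)
    rw [one_smul] at h4
    exact C.all hB (hsW z hz) hp h2 hp0 (by rw [hzp, map_neg, map_one]) h4 hx
  obtain ⟨a, ha, b, hb, rfl⟩ := C.sup z
  by_cases ha0 : a = 0
  · subst ha0
    rw [zero_add] at H hz0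
    exact key C hsW b hb hz0 H
  · by_cases hb0 : b = 0
    · subst hb0
      rw [add_zero] at H hz0
      exact key (C.symm hB) hsV a ha hz0 H
    · refine C.all hB ha hb ha0 hb0 ?_ H hx
      simp only [map_add, LinearMap.add_apply, C.hV a ha a ha, C.hW b hb b hb, zero_add, add_zero] at hz
      have := hB.skew a b
      rw [this]
      linear_combination -hz

/-- an isometry in `K` which does not preserve the pair -/
theorem main' {s : GL ι F} (hsK : s ∈ K) (hsi : Isom B s) (hsV : ∀ x ∈ V, ap s x ∈ W) (hsW : ∀ x ∈ W, ap s x ∈ V)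
    {g : GL ι F} (hg : g ∈ K) (hgi : Isom B g) {e : ι → F} (he : e ∈ V) (hgV : ap g e ∉ V) (hgW : ap g e ∉ W)
    {x : ι → F} (hx : B x x = 0) : UT B K x := by
  obtain ⟨x1, hx1, x2, hx2, hx12⟩ := C.sup (ap g e)
  have hx10 : x1 ≠ 0 := by
    rintro rfl
    rw [zero_add] at hx12
    rw [hx12] at hgW
    exact hgW hx2
  have hx20 : x2 ≠ 0 := by
    rintro rfl
    rw [add_zero] at hx12
    rw [hx12] at hgV
    exact hgV hx1
  obtain ⟨p, hp, hp1, -, hpn⟩ := C.avoid hB e e (ap g⁻¹ x1) (ap g⁻¹ x2)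
  have hep := hB.zero_swap hp1
  have h1 := (C.E e he p hp hep).conj hg hgi
  rw [hx12] at h1
  obtain ⟨z, hz0, hz, H⟩ := C.stepB hB hx1 hx10 hx2 hx20 (y := ap g p) (by
    intro h
    apply hpn
    obtain ⟨a, b, hab⟩ := Submodule.mem_span_pair.1 h
    refine Submodule.mem_span_pair.2 ⟨a, b, ?_⟩
    rw [← ap_smul, ← ap_smul, ← ap_add, hab, ap_inv_ap]) (by
    rw [← hx12, hgi]; exact C.hV e he e he) (by rw [← hx12, hgi, hep]) (by rw [hgi]; exact C.hW p hp p hp) h1
  exact C.main hB hsK hsi hsV hsW hz0 hz H hx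

end Ctx

/-- product of orthogonal transvections -/
theorem exists_multi (hB : Sk B) {k : ℕ} (w : Fin k → (ι → F)) (hw : ∀ i j, B (w i) (w j) = 0) :
    ∃ g : GL ι F, g ∈ Geo.specialLinear ι F ∧ Isom B g ∧ ∀ v, ap g v = v - ∑ j, B (w j) v • w j := by
  have key : ∀ S : Finset (Fin k), ∃ g : GL ι F, g ∈ Geo.specialLinear ι F ∧ Isom B g ∧
      ∀ v, ap g v = v - ∑ j ∈ S, B (w j) v • w j := by
    intro S
    induction S using Finset.induction_on with
    | empty => exact ⟨1, one_mem _, Isom.one, fun v => by rw [ap_one, Finset.sum_empty, sub_zero]⟩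
    | insert a S ha ih =>
      obtain ⟨g, hg, hgi, hgv⟩ := ih
      obtain ⟨T, hT⟩ := exists_tv (u := w a) (l := (-1 : F) • B (w a)) (by rw [LinearMap.smul_apply, hw, smul_zero])
      refine ⟨T * g, mul_mem (IsTv.mem_SL (by rw [LinearMap.smul_apply, hw, smul_zero]) hT) hg,
        (T_isom hB (hw a a) (by rw [map_neg, map_one]) hT).mul hgi, fun v => ?_⟩
      rw [ap_mul, hT, hgv, LinearMap.smul_apply, map_sub, map_sum, Finset.sum_insert ha]
      have : ∑ j ∈ S, B (w a) (B (w j) v • w j) = 0 := Finset.sum_eq_zero fun j _ => by rw [map_smul, hw, smul_zero]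
      rw [this, sub_zero]
      module
  exact key Finset.univ

theorem exists_swap (hB : Sk B) {V W : Submodule F (ι → F)} (hV : ∀ x ∈ V, ∀ y ∈ V, B x y = 0)
    (hW : ∀ x ∈ W, ∀ y ∈ W, B x y = 0) (sup : ∀ v, ∃ a ∈ V, ∃ b ∈ W, v = a + b) :
    ∃ s : GL ι F, s ∈ Geo.specialLinear ι F ∧ Isom B s ∧ (∀ x ∈ V, ap s x ∈ W) ∧ (∀ x ∈ W, ap s x ∈ V) := by
  let b := Module.finBasis F V
  have hli : LinearIndependent F (fun i => (b i : ι → F)) := b.linearIndependent.map' V.subtype (Submodule.ker_subtype V)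
  have hex : ∀ i, ∃ w ∈ W, B w (b i : ι → F) = 1 ∧ ∀ j, j ≠ i → B w (b j : ι → F) = 0 := by
    intro i
    have h1 := hli.notMem_span_image (s := {j | j ≠ i}) (x := i) (by simp)
    obtain ⟨w, hw, hw'⟩ := hB.exists_perp h1
    obtain ⟨x, hx, y, hy, rfl⟩ := sup w
    refine ⟨y, hy, ?_, fun j hj => ?_⟩
    · rwa [map_add, LinearMap.add_apply, hV x hx _ (b i).2, zero_add] at hw
    · have := hw' _ (Submodule.subset_span ⟨j, hj, rfl⟩)
      rwa [map_add, LinearMap.add_apply, hV x hx _ (b j).2, zero_add] at this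
  choose w₀ hw₀ hw1 hw2 using hex
  obtain ⟨w, hw⟩ : ∃ w : Fin (finrank F V) → (ι → F), ∀ j, w j = (-1 : F) • w₀ j := ⟨_, fun j => rfl⟩
  have hwW : ∀ j, w j ∈ W := fun j => by rw [hw]; exact W.smul_mem _ (hw₀ j)
  have hvw : ∀ i j, B (b i : ι → F) (w j) = if i = j then 1 else 0 := by
    intro i j
    rw [hw, map_smul, hB.skew']
    split_ifs with h
    · subst h
      rw [hw1]
      simp
    · rw [hw2 j i h]
      simp
  have hwv : ∀ j i, B (w j) (b i : ι → F) = if i = j then -1 else 0 := by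
    intro j i
    rw [hB.skew', hvw]
    split_ifs <;> simp
  -- expansions
  have e1 : ∀ a ∈ V, ∑ j, B (w j) a • (b j : ι → F) = -a := by
    intro a ha
    have h1 := b.sum_repr ⟨a, ha⟩
    have h2 : a = ∑ i, (b.repr ⟨a, ha⟩ i) • (b i : ι → F) := by
      have := congrArg (fun x : V => (x : ι → F)) h1
      simp only [Submodule.coe_sum, Submodule.coe_smul] at this
      exact this.symm
    have h3 : ∀ j, B (w j) a = -(b.repr ⟨a, ha⟩ j) := by
      intro j
      conv_lhs => rw [h2]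
      rw [map_sum, Finset.sum_eq_single j]
      · rw [map_smul, hwv, if_pos rfl]
        simp
      · intro i _ hi
        rw [map_smul, hwv, if_neg hi, smul_zero]
      · intro h
        exact absurd (Finset.mem_univ _) h
    conv_rhs => rw [h2]
    rw [← Finset.sum_neg_distrib]
    exact Finset.sum_congr rfl fun j _ => by rw [h3, neg_smul]
  have e2 : ∀ x ∈ W, ∑ j, B (b j : ι → F) x • w j = x := by
    intro x hx
    have h1 : x - ∑ j, B (b j : ι → F) x • w j = 0 := by
      apply hB.nd'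
      intro u
      obtain ⟨p, hp, r, hr, rfl⟩ := sup u
      have h2 : x - ∑ j, B (b j : ι → F) x • w j ∈ W := W.sub_mem hx (W.sum_mem fun j _ => W.smul_mem _ (hwW j))
      rw [map_add, LinearMap.add_apply, hW r hr _ h2, add_zero]
      have h3 : ∀ i, B (b i : ι → F) (x - ∑ j, B (b j : ι → F) x • w j) = 0 := by
        intro i
        rw [map_sub, map_sum, Finset.sum_eq_single i]
        · rw [map_smul, hvw, if_pos rfl, smul_eq_mul, mul_one, sub_self]
        · intro j _ hj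
          rw [map_smul, hvw, if_neg (Ne.symm hj), smul_zero]
        · intro h
          exact absurd (Finset.mem_univ _) h
      have h4 : p = -∑ j, B (w j) p • (b j : ι → F) := by rw [e1 p hp, neg_neg]
      rw [h4, map_neg, LinearMap.neg_apply, map_sum, LinearMap.sum_apply, Finset.sum_eq_zero, neg_zero]
      intro i _
      rw [LinearMap.map_smulₛₗ, LinearMap.smul_apply, h3, smul_zero]
    exact (sub_eq_zero.1 h1).symm
  obtain ⟨U, hU, hUi, hUv⟩ := exists_multi hB w (fun i j => hW _ (hwW i) _ (hwW j))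
  obtain ⟨U', hU', hUi', hUv'⟩ := exists_multi hB (fun i => (b i : ι → F)) (fun i j => hV _ (b i).2 _ (b j).2)
  have hUW : ∀ x ∈ W, ap U x = x := by
    intro x hx
    rw [hUv, Finset.sum_eq_zero, sub_zero]
    intro j _
    rw [hW _ (hwW j) x hx, zero_smul]
  have hUV : ∀ a ∈ V, ap U' a = a := by
    intro x hx
    rw [hUv', Finset.sum_eq_zero, sub_zero]
    intro j _
    rw [hV _ (b j).2 x hx, zero_smul]
  refine ⟨U * (U' * U), mul_mem hU (mul_mem hU' hU), hUi.mul (hUi'.mul hUi), fun a ha => ?_, fun x hx => ?_⟩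
  · have h1 : ap U a = a + (-∑ j, B (w j) a • w j) := by rw [hUv, sub_eq_add_neg]
    have h2 : -∑ j, B (w j) a • w j ∈ W := W.neg_mem (W.sum_mem fun j _ => W.smul_mem _ (hwW j))
    have h3 : ap U' (-∑ j, B (w j) a • w j) = (-∑ j, B (w j) a • w j) - a := by
      rw [hUv']
      congr 1
      have h4 : ∀ i, B (b i : ι → F) (-∑ j, B (w j) a • w j) = -B (w i) a := by
        intro i
        rw [map_neg, map_sum, Finset.sum_eq_single i]
        · rw [map_smul, hvw, if_pos rfl, smul_eq_mul, mul_one]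
        · intro j _ hj
          rw [map_smul, hvw, if_neg (Ne.symm hj), smul_zero]
        · intro h
          exact absurd (Finset.mem_univ _) h
      simp only [h4, neg_smul, Finset.sum_neg_distrib]
      rw [e1 a ha, neg_neg]
    have h5 : ap (U * (U' * U)) a = -∑ j, B (w j) a • w j := by
      rw [ap_mul, ap_mul, h1, ap_add, hUV a ha, h3, add_sub_cancel, hUW _ h2]
    rw [h5]
    exact h2
  · have h1 : ap U' x = x + (-∑ j, B (b j : ι → F) x • (b j : ι → F)) := by rw [hUv', sub_eq_add_neg]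
    have h2 : -∑ j, B (b j : ι → F) x • (b j : ι → F) ∈ V := V.neg_mem (V.sum_mem fun j _ => V.smul_mem _ (b j).2)
    have h3 : ap U (-∑ j, B (b j : ι → F) x • (b j : ι → F)) = (-∑ j, B (b j : ι → F) x • (b j : ι → F)) - x := by
      rw [hUv]
      congr 1
      have h4 : ∀ i, B (w i) (-∑ j, B (b j : ι → F) x • (b j : ι → F)) = B (b i : ι → F) x := by
        intro i
        rw [map_neg, map_sum, Finset.sum_eq_single i]
        · rw [map_smul, hwv, if_pos rfl, smul_eq_mul]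
          ring
        · intro j _ hj
          rw [map_smul, hwv, if_neg hj, smul_zero]
        · intro h
          exact absurd (Finset.mem_univ _) h
      simp only [h4]
      exact e2 x hx
    have h5 : ap (U * (U' * U)) x = -∑ j, B (b j : ι → F) x • (b j : ι → F) := by
      rw [ap_mul, ap_mul, hUW x hx, h1, ap_add, h3, hUW x hx, add_sub_cancel]
    rw [h5]
    exact h2

end Cfsg.Agent.H7.Pair
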