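import Cfsg.Agent.H7.Pair

set_option autoImplicit false

namespace Cfsg.Agent.H7.Pair

open Module Matrix Cfsg Cfsg.Agent.H7.Tv Cfsg.Agent.H7.Witt
open Cfsg.Agent.H7.UTv (Isom Isom.mul Isom.inv Isom.one Isom.comp)

variable {ι : Type} [Fintype ι] [DecidableEq ι] {F : Type*} [Field F]

theorem map_eq_of_le {g : GL ι F} {A C : Submodule F (ι → F)} (h : ∀ x ∈ A, ap g x ∈ C) (hd : finrank F A = finrank F C) :
    A.map (Matrix.toLin' (g : Matrix ι ι F)) = C := by
  apply Submodule.eq_of_le_of_finrank_eq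
  · rw [Submodule.map_le_iff_le_comap]
    exact fun x hx => h x hx
  · rw [← hd]
    exact LinearEquiv.finrank_map_eq (linE g) A

theorem sup_two {D : Fin 2 → Submodule F (ι → F)} (h : iSup D = ⊤) (v : ι → F) : ∃ a ∈ D 0, ∃ b ∈ D 1, v = a + b := by
  have h1 : iSup D ≤ D 0 ⊔ D 1 := by
    apply iSup_le
    intro i
    fin_cases i
    · exact le_sup_left
    · exact le_sup_right
  have h2 : v ∈ D 0 ⊔ D 1 := h1 (by rw [h]; exact Submodule.mem_top)
  obtain ⟨a, ha, b, hb, hab⟩ := Submodule.mem_sup.1 h2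
  exact ⟨a, ha, b, hb, hab.symm⟩

variable [Finite F] {σ : F →+* F} {B : (ι → F) →ₛₗ[σ] (ι → F) →ₗ[F] F}

theorem pair_maximal (hB : Sk B) (G : Subgroup (GL ι F)) (hG1 : ∀ g ∈ G, Isom B g)
    (hG2 : ∀ g, Isom B g → g ∈ Geo.specialLinear ι F → g ∈ G)
    (hgen : ∀ K : Subgroup (GL ι F), (∀ x, B x x = 0 → UT B K x) → G ≤ K)
    {k : ℕ} (hk : 7 ≤ k) {D : Fin 2 → Submodule F (ι → F)} (hD : Geo.IsMDecomposition k D)
    (hts : ∀ i, ∀ x ∈ D i, ∀ y ∈ D i, B x y = 0) :
    Geo.IsMaximalIn G (Geo.decompositionStabilizer D ⊓ G) := by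
  have hsup := sup_two hD.iSup_eq_top
  have hstab : ∀ g : GL ι F, (∀ x ∈ D 0, ap g x ∈ D 0) → (∀ x ∈ D 1, ap g x ∈ D 1) → g ∈ Geo.decompositionStabilizer D := by
    intro g h0 h1
    refine ⟨1, fun i => ?_⟩
    fin_cases i
    · exact map_eq_of_le h0 rfl
    · exact map_eq_of_le h1 rfl
  have hstab' : ∀ g : GL ι F, (∀ x ∈ D 0, ap g x ∈ D 1) → (∀ x ∈ D 1, ap g x ∈ D 0) → g ∈ Geo.decompositionStabilizer D := by
    intro g h0 h1
    refine ⟨Equiv.swap 0 1, fun i => ?_⟩
    fin_cases i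
    · exact map_eq_of_le h0 (by rw [hD.finrank_eq]; exact (hD.finrank_eq _).symm)
    · exact map_eq_of_le h1 (by rw [hD.finrank_eq]; exact (hD.finrank_eq _).symm)
  have hinf : ∀ x, x ∈ D 0 → x ∈ D 1 → x = 0 := by
    intro x h0 h1
    apply hB.nd
    intro u
    obtain ⟨a, ha, b, hb, rfl⟩ := hsup u
    rw [map_add, hts 0 x h0 a ha, hts 1 x h1 b hb, add_zero]
  have hctx : ∀ K : Subgroup (GL ι F), Geo.decompositionStabilizer D ⊓ G ≤ K → Ctx B K (D 0) (D 1) := by
    intro K hK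
    refine ⟨hts 0, hts 1, hsup, by rw [hD.finrank_eq]; exact hk, by rw [hD.finrank_eq]; exact hk, ?_⟩
    intro u hu w hw huw c g hg
    have huu := hts 0 u hu u hu
    have hww := hts 1 w hw w hw
    obtain ⟨g', hg', hgS⟩ := exists_E hB huu huw c
    have : g' = g := hg'.unique hg
    subst this
    refine hK ⟨hstab g' (fun x hx => ?_) (fun x hx => ?_), hG2 g' (hg.isom hB huu hww huw) hgS⟩
    · rw [hg, hts 0 u hu x hx, mul_zero, zero_smul, add_zero]
      exact (D 0).add_mem hx ((D 0).smul_mem _ hu)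
    · rw [hg, hts 1 w hw x hx, mul_zero, zero_smul, add_zero]
      exact (D 1).add_mem hx ((D 1).smul_mem _ hw)
  refine ⟨lt_of_le_of_ne inf_le_right ?_, ?_⟩
  · intro heq
    -- a transvection moving the pair
    have C := hctx (Geo.decompositionStabilizer D ⊓ G) le_rfl
    obtain ⟨v, w, hv, hw, hvw⟩ := C.exists_dual_family hB
    have h1 : B (v 0 + w 0) (v 0 + w 0) = 0 := by
      simp only [map_add, LinearMap.add_apply, hts 0 _ (hv 0) _ (hv 0), hts 1 _ (hw 0) _ (hw 0), hvw 0 0, hB.skew' (v 0) (w 0)]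
      simp
    obtain ⟨T, hT⟩ := exists_tv (u := v 0 + w 0) (l := (1 : F) • B (v 0 + w 0)) (by rw [LinearMap.smul_apply, h1, smul_zero])
    have hTG : T ∈ G := hG2 T (T_isom hB h1 (map_one σ) hT)
      (IsTv.mem_SL (by rw [LinearMap.smul_apply, h1, smul_zero]) hT)
    rw [← heq] at hTG
    obtain ⟨π, hπ⟩ := hTG.1
    have h2 : ap T (v 1 + v 0) ∈ D (π 0) := by
      rw [← hπ 0]
      exact ⟨v 1 + v 0, (D 0).add_mem (hv 1) (hv 0), rfl⟩
    have h3 : ap T (v 1 + v 0) = (v 1 + v 0 + (-1 : F) • v 0) + (-1 : F) • w 0 := by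
      rw [hT]
      simp only [map_add, LinearMap.add_apply, LinearMap.smul_apply, hts 0 _ (hv 0) _ (hv 0), hts 0 _ (hv 0) _ (hv 1),
        hB.skew' (v 1) (w 0), hB.skew' (v 0) (w 0), hvw]
      simp
    have hwne : w 0 ≠ 0 := by
      intro h0
      have := hvw 0 0
      rw [h0, map_zero] at this
      simp at this
    have hvne : v 1 ≠ 0 := by
      intro h0
      have := hvw 1 1
      rw [h0, map_zero, LinearMap.zero_apply] at this
      simp at this
    rw [h3] at h2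
    have h4 : v 1 + v 0 + (-1 : F) • v 0 = v 1 := by module
    rw [h4] at h2
    have h5 : π 0 = 0 ∨ π 0 = 1 := by
      have : ∀ i : Fin 2, i = 0 ∨ i = 1 := by decide
      exact this _
    rcases h5 with h5 | h5
    · rw [h5] at h2
      have h6 := (D 0).sub_mem h2 (hv 1)
      rw [add_sub_cancel_left] at h6
      have h7 : w 0 ∈ D 0 := by
        have := (D 0).smul_mem (-1 : F) h6
        rwa [smul_smul, neg_one_mul, neg_neg, one_smul] at this
      exact hwne (hinf _ h7 (hw 0))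
    · rw [h5] at h2
      have h6 := (D 1).sub_mem h2 ((D 1).smul_mem (-1 : F) (hw 0))
      rw [add_sub_cancel_right] at h6
      exact hvne (hinf _ (hv 1) h6)
  · intro K hMK hKG
    by_cases hKM : K ≤ Geo.decompositionStabilizer D ⊓ G
    · exact Or.inl (le_antisymm hKM hMK)
    right
    obtain ⟨g, hgK, hgM⟩ := SetLike.not_le_iff_exists.1 hKM
    have C := hctx K hMK
    obtain ⟨s, hsS, hsi, hs0, hs1⟩ := exists_swap hB (hts 0) (hts 1) hsup
    have hsK : s ∈ K := hMK ⟨hstab' s hs0 hs1, hG2 s hsi hsS⟩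
    have hgi := hG1 g (hKG hgK)
    apply le_antisymm hKG
    apply hgen
    intro x hx
    by_cases h0 : ∃ e ∈ D 0, ap g e ∉ D 0 ∧ ap g e ∉ D 1
    · obtain ⟨e, he, h1, h2⟩ := h0
      exact C.main' hB hsK hsi hs0 hs1 hgK hgi he h1 h2 hx
    by_cases h1 : ∃ e ∈ D 1, ap g e ∉ D 0 ∧ ap g e ∉ D 1
    · obtain ⟨e, he, h1, h2⟩ := h1
      exact (C.symm hB).main' hB hsK hsi hs1 hs0 hgK hgi he h2 h1 hx
    exfalso
    push Not at h0 h1
    -- a subspace in the union
    have hun : ∀ i, (∀ e ∈ D i, ap g e ∉ D 0 → ap g e ∈ D 1) → (∀ e ∈ D i, ap g e ∈ D 0) ∨ (∀ e ∈ D i, ap g e ∈ D 1) := by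
      intro i h
      by_contra hcon
      push Not at hcon
      obtain ⟨⟨a, ha, ha'⟩, b, hb, hb'⟩ := hcon
      have ha1 := h a ha ha'
      have hb1 : ap g b ∈ D 0 := by
        by_contra h2
        exact hb' (h b hb h2)
      by_cases h2 : ap g (a + b) ∈ D 0
      · apply ha'
        have := (D 0).sub_mem h2 hb1
        rwa [ap_add, add_sub_cancel_right] at this
      · apply hb'
        have := (D 1).sub_mem (h _ ((D i).add_mem ha hb) h2) ha1
        rwa [ap_add, add_sub_cancel_left] at this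
    have hinj : ∀ i, (∀ e ∈ D 0, ap g e ∈ D i) → (∀ e ∈ D 1, ap g e ∈ D i) → False := by
      intro i h2 h3
      have h4 := map_eq_of_le h2 (by rw [hD.finrank_eq, hD.finrank_eq])
      obtain ⟨v, w, hv, hw, hvw⟩ := C.exists_dual_family hB
      have h5 : ap g (w 0) ∈ (D 0).map (Matrix.toLin' (g : Matrix ι ι F)) := by
        rw [h4]
        exact h3 _ (hw 0)
      obtain ⟨x, hx, hx'⟩ := h5
      have h6 : x = w 0 := ap_injective g hx'
      rw [h6] at hx
      have h7 := hinf _ hx (hw 0)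
      have := hvw 0 0
      rw [h7, map_zero] at this
      simp at this
    apply hgM
    refine ⟨?_, hKG hgK⟩
    rcases hun 0 h0 with h2 | h2
    · rcases hun 1 h1 with h3 | h3
      · exact absurd (hinj 0 h2 h3) not_false
      · exact hstab g h2 h3
    · rcases hun 1 h1 with h3 | h3
      · exact hstab' g h2 h3
      · exact absurd (hinj 1 h2 h3) not_false

end Cfsg.Agent.H7.Pair
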