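import Cfsg.Agent.H7.Frames

/-!
Orders of parabolic subgroups and numbers of totally isotropic subspaces.
-/

set_option autoImplicit false
set_option linter.unusedSectionVars false

namespace Cfsg.Agent.H7.Witt

open Module Cfsg.Agent.H7.Tv Cfsg.Agent.H7.Quad Cfsg.Agent.H7.Herm

section symp

variable {F : Type*} [Field F] [Fintype F] {q : ℕ}

theorem sf_nd' (m : ℕ) (v : Fin m ⊕ Fin m → F) (h : ∀ u, sf m F v u = 0) : v = 0 := by
  apply (sf_alt m).nd
  intro x
  rw [(sf_alt m).skew, h, neg_zero]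

theorem finrank_sp (m : ℕ) : finrank F (Fin m ⊕ Fin m → F) = 2 * m := by
  rw [Module.finrank_fintype_fun_eq_card, Fintype.card_sum, Fintype.card_fin]
  ring

theorem card_sp_frames (hF : Fintype.card F = q) (m k : ℕ) :
    Nat.card {y : Fin k → (Fin m ⊕ Fin m → F) // LinearIndependent F y ∧ ∀ i j, sf m F (y i) (y j) = 0} =
      ∏ j ∈ Finset.range k, (q ^ (2 * m - j) - q ^ j) := by
  apply card_frames (fun x y => sf m F x y = 0) (fun x y h => by rw [(sf_alt m).skew, h, neg_zero])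
  intro j _ y hy hyB
  have h1 := count_alt (B := sf m F) (sf_alt m).alt (sf_nd' m) y hy hyB
  rw [finrank_sp, Nat.card_eq_fintype_card (α := F), hF] at h1
  exact h1

theorem card_sp (hF : Fintype.card F = q) (m : ℕ) :
    Nat.card (isoGrp (F := F) (fun u v => sf m F u v) (fun _ : Fin m ⊕ Fin m → F => (0 : F))) =
      q ^ (m ^ 2) * ∏ i ∈ Finset.range m, (q ^ (2 * (i + 1)) - 1) := by
  rw [card_symp m (sf m F) (sf_alt m).1 (sf_alt m).2 (finrank_sp m)]
  rw [Finset.prod_mul_distrib, mul_comm, Nat.card_eq_fintype_card, hF]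
  congr 1
  rw [Finset.prod_pow_eq_pow_sum]
  congr 1
  induction m with
  | zero => simp
  | succ m ih => rw [Finset.sum_range_succ, ih]; ring

theorem arith_sp (hq : 1 ≤ q) (k : ℕ) : ∀ r : ℕ,
    (∏ j ∈ Finset.range k, (q ^ (2 * (k + r) - j) - q ^ j)) *
      (q ^ (k * (k + 1) / 2 + 2 * k * r) * (q ^ (r ^ 2) * ∏ i ∈ Finset.range r, (q ^ (2 * (i + 1)) - 1))) =
    q ^ ((k + r) ^ 2) * ∏ i ∈ Finset.range (k + r), (q ^ (2 * (i + 1)) - 1) := by
  induction k with
  | zero => intro r; simp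
  | succ k ih =>
    intro r
    have h1 := ih (r + 1)
    rw [show k + 1 + r = k + (r + 1) by ring, ← h1, Finset.prod_range_succ, Finset.prod_range_succ (fun i => q ^ (2 * (i + 1)) - 1) r]
    have h2 : q ^ (2 * (k + (r + 1)) - k) - q ^ k = q ^ k * (q ^ (2 * (r + 1)) - 1) := by
      rw [Nat.mul_sub, mul_one, ← pow_add]
      congr 2
      omega
    have h3 : (k + 1) * (k + 1 + 1) / 2 = k * (k + 1) / 2 + (k + 1) := by
      have : (k + 1) * (k + 1 + 1) = k * (k + 1) + (k + 1) * 2 := by ring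
      rw [this, Nat.add_mul_div_right _ _ (by norm_num)]
    have h4 : q ^ (k * (k + 1) / 2 + 2 * k * (r + 1)) * q ^ ((r + 1) ^ 2) =
        q ^ k * (q ^ ((k + 1) * (k + 1 + 1) / 2 + 2 * (k + 1) * r) * q ^ (r ^ 2)) := by
      rw [← pow_add, ← pow_add, ← pow_add, h3]
      congr 1
      ring
    rw [h2]
    calc _ = (∏ x ∈ Finset.range k, (q ^ (2 * (k + (r + 1)) - x) - q ^ x)) *
          ((q ^ k * (q ^ ((k + 1) * (k + 1 + 1) / 2 + 2 * (k + 1) * r) * q ^ (r ^ 2))) *
            ((∏ i ∈ Finset.range r, (q ^ (2 * (i + 1)) - 1)) * (q ^ (2 * (r + 1)) - 1))) := by ring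
      _ = _ := by rw [← h4]; ring

theorem card_stab_sp (hF : Fintype.card F = q) (m k : ℕ) (hk : k ≤ m) (W : Submodule F (Fin m ⊕ Fin m → F))
    (hWk : finrank F W = k) (hW : ∀ u ∈ W, ∀ v ∈ W, sf m F u v = 0) :
    Nat.card (stab (fun u v => sf m F u v) (fun _ => (0 : F)) W) =
      q ^ (k * (k + 1) / 2 + 2 * k * (m - k)) * (q ^ ((m - k) ^ 2) * ∏ i ∈ Finset.range (m - k), (q ^ (2 * (i + 1)) - 1)) *
        ∏ i : Fin k, (q ^ k - q ^ (i : ℕ)) := by
  have hq1 : 1 < q := by rw [← hF]; exact Fintype.one_lt_card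
  let b := Module.finBasisOfFinrankEq F W hWk
  let x : Fin k → (Fin m ⊕ Fin m → F) := fun i => b i
  have hx : LinearIndependent F x := b.linearIndependent.map' W.subtype (Submodule.ker_subtype _)
  have hspan : Submodule.span F (Set.range x) = W := by
    apply Submodule.eq_of_le_of_finrank_eq
    · rw [Submodule.span_le]
      rintro _ ⟨i, rfl⟩
      exact (b i).2
    · rw [finrank_span_eq_card hx, Fintype.card_fin, hWk]
  have h1 := card_stab_ti (B := sf m F) (Q := fun _ => (0 : F)) (step_alt (sf_alt m).1 (sf_alt m).2) x hx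
    (fun i j => hW _ (b i).2 _ (b j).2) (fun _ _ => rfl)
  rw [hspan, card_sp hF] at h1
  have h2 : Nat.card {y : Fin k → (Fin m ⊕ Fin m → F) // LinearIndependent F y ∧ (∀ i j, sf m F (y i) (y j) = 0) ∧ ∀ _i : Fin k, (0 : F) = 0} =
      ∏ j ∈ Finset.range k, (q ^ (2 * m - j) - q ^ j) := by
    rw [← card_sp_frames hF]
    exact Nat.card_congr (Equiv.subtypeEquivRight fun y => by simp)
  rw [h2, Nat.card_eq_fintype_card (α := F), hF] at h1
  obtain ⟨r, rfl⟩ : ∃ r, m = k + r := ⟨m - k, by omega⟩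
  rw [Nat.add_sub_cancel_left]
  have h3 := arith_sp hq1.le k r
  rw [← h3] at h1
  have h4 : 0 < ∏ j ∈ Finset.range k, (q ^ (2 * (k + r) - j) - q ^ j) := by
    apply Finset.prod_pos
    intro j hj
    rw [Finset.mem_range] at hj
    apply Nat.sub_pos_of_lt
    exact Nat.pow_lt_pow_right hq1 (by omega)
  apply Nat.eq_of_mul_eq_mul_left h4
  rw [← h1]
  ring

end symp


section transfer

variable {F : Type*} [Field F]

theorem sp_stab_map (m : ℕ) (W : Submodule F (Fin m ⊕ Fin m → F)) :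
    (stabilizing (spToMat m F) (W : Set (Fin m ⊕ Fin m → F))).map (spIso m F : _ →* _) =
      stab (fun u v => sf m F u v) (fun _ => (0 : F)) W := by
  ext g
  constructor
  · rintro ⟨A, hA, rfl⟩
    exact hA
  · intro hg
    refine ⟨(spIso m F).symm g, ?_, (spIso m F).apply_symm_apply g⟩
    intro v
    have h1 := hg v
    rw [← (spIso m F).apply_symm_apply g] at h1
    exact h1

theorem card_sp_stab (m : ℕ) (W : Submodule F (Fin m ⊕ Fin m → F)) :
    Nat.card (stabilizing (spToMat m F) (W : Set (Fin m ⊕ Fin m → F))) =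
      Nat.card (stab (fun u v => sf m F u v) (fun _ => (0 : F)) W) := by
  rw [← sp_stab_map]
  exact Nat.card_congr ((spIso m F).subgroupMap _).toEquiv

theorem gu_stab_map [Fintype F] {q : ℕ} (n : ℕ) {σ : F →+* F} (hσ : ∀ x, σ x = x ^ q) (W : Submodule F (Fin n → F)) :
    ((stabilizing (glToMat (Fin n) F) (W : Set (Fin n → F))).subgroupOf (GU n F q)).map (guIso n hσ : _ →* _) =
      stab (fun u v => hB n σ u v) (fun _ => (0 : F)) W := by
  ext g
  constructor
  · rintro ⟨A, hA, rfl⟩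
    exact hA
  · intro hg
    refine ⟨(guIso n hσ).symm g, ?_, (guIso n hσ).apply_symm_apply g⟩
    intro v
    have h1 := hg v
    rw [← (guIso n hσ).apply_symm_apply g] at h1
    exact h1

theorem card_gu_stab [Fintype F] {q : ℕ} (n : ℕ) {σ : F →+* F} (hσ : ∀ x, σ x = x ^ q) (W : Submodule F (Fin n → F)) :
    Nat.card ((stabilizing (glToMat (Fin n) F) (W : Set (Fin n → F))).subgroupOf (GU n F q)) =
      Nat.card (stab (fun u v => hB n σ u v) (fun _ => (0 : F)) W) := by
  rw [← gu_stab_map n hσ]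
  exact Nat.card_congr ((guIso n hσ).subgroupMap _).toEquiv

end transfer

section herm

variable {F : Type*} [Field F] [Fintype F] {q : ℕ}

/-- the number of isotropic vectors -/
def isoN (q n : ℕ) : ℕ := if Even n then (q ^ n - 1) * (q ^ (n - 1) + 1) else (q ^ n + 1) * (q ^ (n - 1) - 1)

theorem card_gu_frames (hF : Fintype.card F = q ^ 2) {σ : F →+* F} (hσ : ∀ x, σ x = x ^ q) (n k : ℕ) (hk : 2 * k ≤ n) :
    Nat.card {y : Fin k → (Fin n → F) // LinearIndependent F y ∧ ∀ i j, hB n σ (y i) (y j) = 0} =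
      ∏ j ∈ Finset.range k, (q ^ 2) ^ j * isoN q (n - 2 * j) := by
  obtain ⟨σ', h1, h2, h3⟩ := exists_frob hF
  have : σ' = σ := RingHom.ext fun x => by rw [h1, hσ]
  subst this
  have hsz : ∀ x y, hB n σ' x y = 0 → hB n σ' y x = 0 := fun x y h => by rw [← hB_symm h2, h, map_zero]
  apply card_frames (fun x y => hB n σ' x y = 0) hsz
  intro j hj y hy hyB
  have key := count_core (B := hB n σ') hB_nd hsz (fun w => hB n σ' w w = 0) y hy hyB (by
    intro w hw u hu
    have hwu : hB n σ' w u = 0 := mem_prp_span.2 hu w hw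
    have hww : hB n σ' w w = 0 := by
      have h4 : Submodule.span F (Set.range y) ≤ prp (hB n σ') (Submodule.span F (Set.range y)) := by
        rw [Submodule.span_le]
        rintro _ ⟨i, rfl⟩
        exact mem_prp_span.2 (fun i' => hyB i' i)
      exact h4 hw w hw
    simp only [map_add, LinearMap.add_apply, hwu, hww, hsz _ _ hwu, zero_add, add_zero]) (by simp)
    (isoN q (n - 2 * j) + 1) (by
    intro U hU hUnd
    have hfU : finrank F U = n - 2 * j := by
      rw [Module.finrank_fintype_fun_eq_card, Fintype.card_fin] at hU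
      omega
    obtain ⟨φ, hφ⟩ := herm_iso h3 h2 (B := (hB n σ').domRestrict₁₂ U U) hfU (fun x y => hB_symm h2 _ _)
      (fun u h => Subtype.ext (hUnd u u.2 (fun v hv => h ⟨v, hv⟩)))
    rw [isoN, ← card_norm_zero hF]
    refine Nat.card_congr (Equiv.subtypeEquiv φ.toEquiv fun u => ?_)
    change hB n σ' u u = 0 ↔ hermForm (n - 2 * j) F q (φ u) (φ u) = 0
    rw [← hB_eq h1, hφ]
    rfl)
  rw [Nat.card_eq_fintype_card (α := F), hF, Nat.add_sub_cancel] at key
  exact key

end herm

end Cfsg.Agent.H7.Witt
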