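import Cfsg.Agent.H7.Parab

/-!
Parabolic subgroups of unitary groups.
-/

set_option autoImplicit false
set_option linter.unusedSectionVars false

namespace Cfsg.Agent.H7.Herm

open Module Matrix Cfsg.Agent.H7.Tv Cfsg.Agent.H7.Quad Cfsg.Agent.H7.Witt

variable {F : Type*} [Field F] [Fintype F] {q : ℕ}

/-- the trace is onto -/
theorem exists_trace {σ : F →+* F} (h3 : σ ≠ RingHom.id F) (h2 : ∀ a, σ (σ a) = a) (c : F) (hc : σ c = c) :
    ∃ a, a + σ a = c := by
  obtain ⟨e, he⟩ : ∃ e, e + σ e ≠ 0 := by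
    by_contra hcon
    push Not at hcon
    apply h3
    ext a
    have h1 := hcon 1
    have h2 := hcon a
    rw [map_one] at h1
    rw [RingHom.id_apply]
    have h4 : σ a = -a := by linear_combination h2
    rw [h4]
    linear_combination (-a) * h1
  have ht : σ (e + σ e) = e + σ e := by rw [map_add, h2, add_comm]
  refine ⟨e * (c / (e + σ e)), ?_⟩
  rw [map_mul, map_div₀, hc, ht]
  field_simp

variable {V : Type*} [AddCommGroup V] [Module F V]

/-- hyperbolic partners -/
theorem herm_partner {σ : F →+* F} (h3 : σ ≠ RingHom.id F) (h2 : ∀ a, σ (σ a) = a) {B : V →ₛₗ[σ] V →ₗ[F] F}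
    (hs : ∀ x y, σ (B x y) = B y x) (hnd : ∀ v, (∀ u, B v u = 0) → v = 0) {e : V} (he : e ≠ 0) (hee : B e e = 0) :
    ∃ f, B f f = 0 ∧ B e f = 1 := by
  obtain ⟨u, hu⟩ : ∃ u, B e u ≠ 0 := by
    by_contra hcon
    push Not at hcon
    exact he (hnd e hcon)
  set w := (B e u)⁻¹ • u with hw
  have hew : B e w = 1 := by rw [hw, map_smul, smul_eq_mul, inv_mul_cancel₀ hu]
  have hwe : B w e = 1 := by rw [← hs, hew, map_one]
  obtain ⟨a, ha⟩ := exists_trace h3 h2 (-(B w w)) (by rw [map_neg, hs])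
  refine ⟨w + a • e, ?_, ?_⟩
  · simp only [map_add, map_smul, LinearMap.add_apply, LinearMap.map_smulₛₗ, LinearMap.smul_apply, smul_eq_mul, hwe, hew, hee,
      RingHom.id_apply]
    linear_combination ha
  · have h5 : B e (a • e) = 0 := by rw [map_smul, hee, smul_zero]
    rw [map_add, h5, add_zero, hew]

theorem exists_pow_eq (hF : Fintype.card F = q ^ 2) (x : Fˣ) (hx : x ^ (q + 1) = 1) : ∃ l : Fˣ, l ^ (q - 1) = x := by
  have hq1 := one_lt_q hF
  have hcard : Nat.card Fˣ = (q + 1) * (q - 1) := by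
    rw [Nat.card_units, Nat.card_eq_fintype_card, hF]
    obtain ⟨r, rfl⟩ : ∃ r, q = r + 1 := ⟨q - 1, by omega⟩
    rw [Nat.add_sub_cancel]
    apply Nat.sub_eq_of_eq_add
    ring
  let f : Fˣ →* Fˣ := powMonoidHom (q - 1)
  have h1 : Nat.card f.ker = q - 1 := by
    have h1 := IsCyclic.card_powMonoidHom_ker Fˣ (q - 1)
    rw [hcard] at h1
    rw [h1]
    exact Nat.gcd_eq_right (Dvd.intro_left _ rfl)
  have h2 : Nat.card (powMonoidHom (q + 1) : Fˣ →* Fˣ).ker = q + 1 := by
    have h1 := IsCyclic.card_powMonoidHom_ker Fˣ (q + 1)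
    rw [hcard] at h1
    rw [h1]
    exact Nat.gcd_eq_right (Dvd.intro _ rfl)
  have h3 : f.range = (powMonoidHom (q + 1) : Fˣ →* Fˣ).ker := by
    apply Subgroup.eq_of_le_of_card_ge
    · rintro _ ⟨y, rfl⟩
      rw [MonoidHom.mem_ker, powMonoidHom_apply, powMonoidHom_apply, ← pow_mul, mul_comm, ← hcard, pow_card_eq_one']
    · rw [h2]
      have h4 : Nat.card f.ker * f.ker.index = Nat.card Fˣ := Subgroup.card_mul_index f.ker
      rw [h1, Subgroup.index_ker, hcard, mul_comm] at h4
      exact (Nat.eq_of_mul_eq_mul_right (by omega) h4).ge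
  have h4 : x ∈ f.range := by
    rw [h3, MonoidHom.mem_ker]
    exact hx
  exact h4

/-- elements of prescribed determinant in the stabiliser of a totally isotropic subspace -/
theorem exists_det (hF : Fintype.card F = q ^ 2) {n : ℕ} (hn : 1 ≤ n) (W : Submodule F (Fin n → F))
    (hW : ∀ u ∈ W, ∀ v ∈ W, hermForm n F q u v = 0) (x : Fˣ) (hx : x ^ (q + 1) = 1) :
    ∃ g : GL (Fin n) F, g ∈ GU n F q ∧ (∀ v, v ∈ W → ap g v ∈ W) ∧ (g : Matrix (Fin n) (Fin n) F).det = x := by
  by_cases hW0 : W = ⊥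
  · subst hW0
    have hxF : (x : F) ^ (q + 1) = 1 := by rw [← Units.val_pow_eq_pow_val, hx, Units.val_one]
    refine ⟨dg (Function.update 1 (⟨0, by omega⟩ : Fin n) x), dg_mem _ ?_, ?_, ?_⟩
    · intro i
      by_cases hi : i = ⟨0, by omega⟩
      · rw [hi, Function.update_self]
        exact hxF
      · rw [Function.update_of_ne hi]
        simp
    · intro v hv
      rw [Submodule.mem_bot] at hv ⊢
      rw [hv, ap_zero]
    · change (diagonal _).det = _
      rw [det_diagonal, Finset.prod_eq_single (⟨0, by omega⟩ : Fin n)]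
      · rw [Function.update_self]
      · intro i _ hi
        rw [Function.update_of_ne hi]
        simp
      · intro h
        exact absurd (Finset.mem_univ _) h
  obtain ⟨σ, h1, h2, h3⟩ := exists_frob hF
  obtain ⟨e, heW, he⟩ := Submodule.exists_mem_ne_zero_of_ne_bot hW0
  have hee : hB n σ e e = 0 := by rw [hB_eq h1]; exact hW e heW e heW
  obtain ⟨f, hff, hef⟩ := herm_partner h3 h2 (hB_symm (n := n) h2) hB_nd he hee
  have hfe : hB n σ f e = 1 := by rw [← hB_symm h2, hef, map_one]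
  have hq1 := one_lt_q hF
  obtain ⟨l, hl⟩ := exists_pow_eq hF x⁻¹ (by rw [inv_pow, hx, inv_one])
  -- `μ σ(l) = 1`
  set mu : F := (σ (l : F))⁻¹ with hmu
  have hl0 : (l : F) ≠ 0 := l.ne_zero
  have hsl0 : σ (l : F) ≠ 0 := by rwa [Ne, map_eq_zero]
  have hmul : mu * σ l = 1 := inv_mul_cancel₀ hsl0
  have hmul' : σ mu * l = 1 := by
    have := congrArg σ hmul
    rwa [map_mul, h2, map_one] at this
  have hlx : (l : F) * mu = x := by
    have h4 : σ (l : F) = ((x⁻¹ : Fˣ) : F) * l := by
      rw [h1, ← Units.val_pow_eq_pow_val, ← Units.val_mul, ← hl, ← pow_succ, Nat.sub_add_cancel hq1.le]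
    rw [hmu, h4, _root_.mul_inv_rev, ← mul_assoc, mul_inv_cancel₀ hl0, one_mul, Units.val_inv_eq_inv_val, inv_inv]
  let M1 : Matrix (Fin n) (Fin n) F := 1 + vecMulVec (((l : F) - 1) • e) (fun i => σ (f i))
  let M2 : Matrix (Fin n) (Fin n) F := 1 + vecMulVec ((mu - 1) • f) (fun i => σ (e i))
  have hdot : ∀ u v : Fin n → F, (fun i => σ (u i)) ⬝ᵥ v = hB n σ u v := by
    intro u v
    rw [hB_apply, dotProduct]
    exact Finset.sum_congr rfl fun i _ => mul_comm _ _
  have hd1 : M1.det = l := by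
    rw [show M1 = 1 + vecMulVec (((l : F) - 1) • e) (fun i => σ (f i)) from rfl, vecMulVec_eq Unit,
      Matrix.det_one_add_replicateCol_mul_replicateRow, hdot, map_smul, hfe, smul_eq_mul]
    ring
  have hd2 : M2.det = mu := by
    rw [show M2 = 1 + vecMulVec ((mu - 1) • f) (fun i => σ (e i)) from rfl, vecMulVec_eq Unit,
      Matrix.det_one_add_replicateCol_mul_replicateRow, hdot, map_smul, hef, smul_eq_mul]
    ring
  have hdet : (M1 * M2).det = x := by rw [Matrix.det_mul, hd1, hd2, hlx]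
  have hM1 : ∀ v, M1 *ᵥ v = v + (((l : F) - 1) * hB n σ f v) • e := by
    intro v
    rw [show M1 = 1 + vecMulVec (((l : F) - 1) • e) (fun i => σ (f i)) from rfl, Matrix.add_mulVec, Matrix.one_mulVec,
      Matrix.vecMulVec_mulVec, hdot]
    funext i
    simp
    ring
  have hM2 : ∀ v, M2 *ᵥ v = v + ((mu - 1) * hB n σ e v) • f := by
    intro v
    rw [show M2 = 1 + vecMulVec ((mu - 1) • f) (fun i => σ (e i)) from rfl, Matrix.add_mulVec, Matrix.one_mulVec,
      Matrix.vecMulVec_mulVec, hdot]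
    funext i
    simp
    ring
  have hM : ∀ v, (M1 * M2) *ᵥ v = v + (((l : F) - 1) * hB n σ f v) • e + ((mu - 1) * hB n σ e v) • f := by
    intro v
    rw [← Matrix.mulVec_mulVec, hM2, hM1, map_add, map_smul, hff, smul_zero, add_zero]
    abel
  refine ⟨Matrix.GeneralLinearGroup.mk'' (M1 * M2) (by rw [hdet]; exact x.isUnit), ?_, ?_, hdet⟩
  · rw [mem_GU]
    intro u v
    rw [← hB_eq h1, ← hB_eq h1]
    have e1 : ∀ w, ap (Matrix.GeneralLinearGroup.mk'' (M1 * M2) (by rw [hdet]; exact x.isUnit)) w = (M1 * M2) *ᵥ w := fun w => rfl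
    rw [e1, e1, hM, hM]
    simp only [map_add, LinearMap.map_smulₛₗ, LinearMap.add_apply, LinearMap.smul_apply, smul_eq_mul, hee, hff, hef, hfe,
      RingHom.id_apply, map_mul, map_sub, map_one, hB_symm h2]
    linear_combination (hB n σ v f * hB n σ e u) * hmul + (hB n σ v e * hB n σ f u) * hmul'
  · intro v hv
    have e1 : ap (Matrix.GeneralLinearGroup.mk'' (M1 * M2) (by rw [hdet]; exact x.isUnit)) v = (M1 * M2) *ᵥ v := rfl
    rw [e1, hM]
    have hev : hB n σ e v = 0 := by rw [hB_eq h1]; exact hW v hv e heW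
    rw [hev, mul_zero, zero_smul, add_zero]
    exact W.add_mem hv (W.smul_mem _ heW)

theorem card_su_stab (hF : Fintype.card F = q ^ 2) {n : ℕ} (hn : 1 ≤ n) (W : Submodule F (Fin n → F))
    (hW : ∀ u ∈ W, ∀ v ∈ W, hermForm n F q u v = 0) :
    (q + 1) * Nat.card ((stabilizing (slToMat n F) (W : Set (Fin n → F))).subgroupOf (SU n F q)) =
      Nat.card ((stabilizing (glToMat (Fin n) F) (W : Set (Fin n → F))).subgroupOf (GU n F q)) := by
  set H := (stabilizing (glToMat (Fin n) F) (W : Set (Fin n → F))).subgroupOf (GU n F q) with hH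
  let f : H →* Fˣ := ((Matrix.GeneralLinearGroup.det).comp (GU n F q).subtype).comp H.subtype
  have hf : ∀ g : H, ((f g : Fˣ) : F) = ((g.1 : GL (Fin n) F) : Matrix (Fin n) (Fin n) F).det := fun g => rfl
  have h1 : Nat.card f.ker = Nat.card ((stabilizing (slToMat n F) (W : Set (Fin n → F))).subgroupOf (SU n F q)) := by
    refine Nat.card_congr
      { toFun := fun g => ⟨⟨⟨((g.1.1 : GL (Fin n) F) : Matrix (Fin n) (Fin n) F), ?_⟩, g.1.1.2⟩, g.1.2⟩
        invFun := fun g => ⟨⟨⟨SpecialLinearGroup.toGL g.1.1, g.1.2⟩, g.2⟩, ?_⟩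
        left_inv := ?_
        right_inv := ?_ }
    · have := congrArg Units.val (MonoidHom.mem_ker.1 g.2)
      rwa [hf, Units.val_one] at this
    · rw [MonoidHom.mem_ker]
      apply Units.ext
      rw [hf]
      exact g.1.1.2
    · intro g
      apply Subtype.ext
      apply Subtype.ext
      apply Subtype.ext
      apply Units.ext
      rfl
    · intro g
      apply Subtype.ext
      apply Subtype.ext
      apply Subtype.ext
      rfl
  have h2 : Nat.card f.range = q + 1 := by
    rw [← Cfsg.Agent.S0754.result hF 1 one_ne_zero (one_pow q)]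
    refine Nat.card_congr
      { toFun := fun g => ⟨((g.1 : Fˣ) : F), ?_⟩
        invFun := fun x => ⟨Units.mk0 x.1 ?_, ?_⟩
        left_inv := ?_
        right_inv := ?_ }
    · obtain ⟨_, ⟨g, rfl⟩⟩ := g
      rw [hf]
      exact det_pow hF g.1.2
    · intro h
      have := x.2
      rw [h, zero_pow (by omega)] at this
      exact zero_ne_one this
    · have hx0 : x.1 ≠ 0 := by
        intro h
        have := x.2
        rw [h, zero_pow (by omega)] at this
        exact zero_ne_one this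
      obtain ⟨g, hg1, hg2, hg3⟩ := exists_det hF hn W hW (Units.mk0 x.1 hx0) (Units.ext (by
        rw [Units.val_pow_eq_pow_val]
        exact x.2))
      refine ⟨⟨⟨g, hg1⟩, ?_⟩, ?_⟩
      · have h4 : W.map (linE g : (Fin n → F) →ₗ[F] (Fin n → F)) = W := by
          apply Submodule.eq_of_le_of_finrank_eq
          · rintro _ ⟨v, hv, rfl⟩
            exact hg2 v hv
          · exact LinearEquiv.finrank_map_eq (linE g) W
        intro v
        constructor
        · exact hg2 v
        · intro hv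
          have hv' : ap g v ∈ W := hv
          rw [← h4] at hv'
          obtain ⟨u, hu, huv⟩ := hv'
          have h5 : u = v := ap_injective g huv
          rw [← h5]
          exact hu
      · apply Units.ext
        rw [hf]
        exact hg3
    · intro g
      apply Subtype.ext
      exact Units.ext rfl
    · intro x
      rfl
  have h3 : Nat.card f.ker * f.ker.index = Nat.card H := Subgroup.card_mul_index f.ker
  rw [Subgroup.index_ker, h1, h2] at h3
  rw [← h3, mul_comm]

theorem isoN_eq (q r : ℕ) : isoN q (r + 2) = (if Even r then q ^ (r + 1) + 1 else q ^ (r + 1) - 1) *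
    (if Even (r + 1) then q ^ (r + 1 + 1) + 1 else q ^ (r + 1 + 1) - 1) := by
  rw [isoN]
  rcases Nat.even_or_odd r with hr | hr
  · have h1 : Even (r + 2) := by rw [Nat.even_add]; simp [hr]
    have h2 : ¬ Even (r + 1) := by rw [Nat.even_add_one]; exact not_not.2 hr
    rw [if_pos h1, if_pos hr, if_neg h2, mul_comm]
    rfl
  · have hr' : ¬ Even r := by rwa [Nat.not_even_iff_odd]
    have h1 : ¬ Even (r + 2) := by rw [Nat.even_add]; simp [hr']
    have h2 : Even (r + 1) := by rw [Nat.even_add_one]; exact hr'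
    rw [if_neg h1, if_neg hr', if_pos h2, mul_comm]
    rfl

theorem arith_gu (q k : ℕ) : ∀ r : ℕ,
    (∏ j ∈ Finset.range k, (q ^ 2) ^ j * isoN q ((2 * k + r) - 2 * j)) *
      (q ^ (k * (2 * (2 * k + r) - 3 * k)) * (q ^ (r * (r - 1) / 2) *
        ∏ i ∈ Finset.range r, (if Even i then q ^ (i + 1) + 1 else q ^ (i + 1) - 1))) =
    q ^ ((2 * k + r) * (2 * k + r - 1) / 2) * ∏ i ∈ Finset.range (2 * k + r), (if Even i then q ^ (i + 1) + 1 else q ^ (i + 1) - 1) := by
  induction k with
  | zero => intro r; simp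
  | succ k ih =>
    intro r
    have h1 := ih (r + 2)
    rw [show 2 * (k + 1) + r = 2 * k + (r + 2) by ring, ← h1, Finset.prod_range_succ,
      Finset.prod_range_succ (fun i => if Even i then q ^ (i + 1) + 1 else q ^ (i + 1) - 1) (r + 1),
      Finset.prod_range_succ (fun i => if Even i then q ^ (i + 1) + 1 else q ^ (i + 1) - 1) r]
    rw [show 2 * k + (r + 2) - 2 * k = r + 2 by omega, isoN_eq]
    have h4 : q ^ (k * (2 * (2 * k + (r + 2)) - 3 * k)) * q ^ ((r + 2) * (r + 2 - 1) / 2) =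
        (q ^ 2) ^ k * (q ^ ((k + 1) * (2 * (2 * k + (r + 2)) - 3 * (k + 1))) * q ^ (r * (r - 1) / 2)) := by
      rw [← pow_mul, ← pow_add, ← pow_add, ← pow_add]
      congr 1
      have e1 : (r + 2) * (r + 2 - 1) / 2 = r * (r - 1) / 2 + (2 * r + 1) := by
        rcases Nat.eq_zero_or_pos r with rfl | hr
        · rfl
        · obtain ⟨s, rfl⟩ : ∃ s, r = s + 1 := ⟨r - 1, by omega⟩
          rw [show (s + 1 + 2) * (s + 1 + 2 - 1) = (s + 1) * (s + 1 - 1) + (2 * (s + 1) + 1) * 2 by
            rw [show s + 1 + 2 - 1 = s + 2 by omega, Nat.add_sub_cancel]; ring, Nat.add_mul_div_right _ _ (by norm_num)]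
      have e2 : 2 * (2 * k + (r + 2)) - 3 * k = k + 2 * r + 4 := by omega
      have e3 : 2 * (2 * k + (r + 2)) - 3 * (k + 1) = k + 2 * r + 1 := by omega
      rw [e1, e2, e3]
      ring
    calc _ = (∏ x ∈ Finset.range k, (q ^ 2) ^ x * isoN q (2 * k + (r + 2) - 2 * x)) *
          (((q ^ 2) ^ k * (q ^ ((k + 1) * (2 * (2 * k + (r + 2)) - 3 * (k + 1))) * q ^ (r * (r - 1) / 2))) *
            ((∏ x ∈ Finset.range r, if Even x then q ^ (x + 1) + 1 else q ^ (x + 1) - 1) *
              (if Even r then q ^ (r + 1) + 1 else q ^ (r + 1) - 1) *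
              (if Even (r + 1) then q ^ (r + 1 + 1) + 1 else q ^ (r + 1 + 1) - 1))) := by ring
      _ = _ := by rw [← h4]; ring

theorem card_gu_parab (hF : Fintype.card F = q ^ 2) (n k : ℕ) (hk : 2 * k ≤ n) (W : Submodule F (Fin n → F))
    (hWk : Module.finrank F W = k) (hW : ∀ u ∈ W, ∀ v ∈ W, hermForm n F q u v = 0) :
    Nat.card ((stabilizing (glToMat (Fin n) F) (W : Set (Fin n → F))).subgroupOf (GU n F q)) =
      q ^ (k * (2 * n - 3 * k)) * (∏ i : Fin k, ((q ^ 2) ^ k - (q ^ 2) ^ (i : ℕ))) *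
        (q ^ ((n - 2 * k) * ((n - 2 * k) - 1) / 2) *
          ∏ i ∈ Finset.range (n - 2 * k), (if Even i then q ^ (i + 1) + 1 else q ^ (i + 1) - 1)) := by
  obtain ⟨σ, h1, h2, h3⟩ := exists_frob hF
  have hq1 := one_lt_q hF
  have hsz : ∀ x y, hB n σ x y = 0 → hB n σ y x = 0 := fun x y h => by rw [← hB_symm h2, h, map_zero]
  let b := Module.finBasisOfFinrankEq F W hWk
  let x : Fin k → (Fin n → F) := fun i => b i
  have hx : LinearIndependent F x := b.linearIndependent.map' W.subtype (Submodule.ker_subtype _)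
  have hspan : Submodule.span F (Set.range x) = W := by
    apply Submodule.eq_of_le_of_finrank_eq
    · rw [Submodule.span_le]
      rintro _ ⟨i, rfl⟩
      exact (b i).2
    · rw [finrank_span_eq_card hx, Fintype.card_fin, hWk]
  have e1 := card_stab_ti (B := hB n σ) (Q := fun _ => (0 : F)) (step_herm h3 h2 (hB_symm h2) (fun v hv => hB_nd v (fun u => hsz _ _ (hv u)))) x hx
    (fun i j => by rw [hB_eq h1]; exact hW _ (b j).2 _ (b i).2) (fun _ _ => rfl)
  rw [hspan, ← card_gu_stab n h1, ← Nat.card_congr (guIso n h1).toEquiv, card_GU hF] at e1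
  have e2 : Nat.card {y : Fin k → (Fin n → F) // LinearIndependent F y ∧ (∀ i j, hB n σ (y i) (y j) = 0) ∧ ∀ _i : Fin k, (0 : F) = 0} =
      ∏ j ∈ Finset.range k, (q ^ 2) ^ j * isoN q (n - 2 * j) := by
    rw [← card_gu_frames hF h1 n k hk]
    exact Nat.card_congr (Equiv.subtypeEquivRight fun y => by simp)
  rw [e2, Nat.card_eq_fintype_card (α := F), hF] at e1
  obtain ⟨r, rfl⟩ : ∃ r, n = 2 * k + r := ⟨n - 2 * k, by omega⟩
  rw [show 2 * k + r - 2 * k = r by omega]
  have e3 := arith_gu q k r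
  rw [← e3] at e1
  have h4 : 0 < ∏ j ∈ Finset.range k, (q ^ 2) ^ j * isoN q ((2 * k + r) - 2 * j) := by
    apply Finset.prod_pos
    intro j hj
    rw [Finset.mem_range] at hj
    apply Nat.mul_pos (by positivity)
    obtain ⟨s, hs⟩ : ∃ s, 2 * k + r - 2 * j = s + 2 := ⟨2 * k + r - 2 * j - 2, by omega⟩
    rw [hs, isoN_eq]
    apply Nat.mul_pos
    · split_ifs
      · positivity
      · exact Nat.sub_pos_of_lt (Nat.one_lt_pow (by omega) hq1)
    · split_ifs
      · positivity
      · exact Nat.sub_pos_of_lt (Nat.one_lt_pow (by omega) hq1)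
  apply Nat.eq_of_mul_eq_mul_left h4
  rw [← e1]
  ring

end Cfsg.Agent.H7.Herm
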