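import Cfsg.Agent.H7.Parab2
import Cfsg.Agent.S0769

/-!
Parabolic subgroups of linear groups; Borel subgroups of symplectic groups.
-/

set_option autoImplicit false
set_option linter.unusedSectionVars false

namespace Cfsg.Agent.H7.Witt

open Module Matrix Cfsg.Agent.H7.Tv Cfsg.Agent.H7.Quad

section gl

variable {F V : Type*} [Field F] [AddCommGroup V] [Module F V] [FiniteDimensional F V]

theorem exists_functional (H : Submodule F V) {x y : V} (hx : x ∉ H) (hy : y ∉ H) :
    ∃ l : Dual F V, (∀ h ∈ H, l h = 0) ∧ l x = 1 ∧ l y ≠ 0 := by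
  have key : ∃ l : Dual F V, (∀ h ∈ H, l h = 0) ∧ l x ≠ 0 ∧ l y ≠ 0 := by
    obtain ⟨l1, h1, h1'⟩ := exists_dual_one hx
    obtain ⟨l2, h2, h2'⟩ := exists_dual_one hy
    by_cases hy1 : l1 y = 0
    · by_cases hx2 : l2 x = 0
      · refine ⟨l1 + l2, fun h hh => ?_, ?_, ?_⟩
        · rw [LinearMap.add_apply, h1' h hh, h2' h hh, add_zero]
        · rw [LinearMap.add_apply, h1, hx2, add_zero]
          exact one_ne_zero
        · rw [LinearMap.add_apply, h2, hy1, zero_add]
          exact one_ne_zero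
      · exact ⟨l2, h2', hx2, by rw [h2]; exact one_ne_zero⟩
    · exact ⟨l1, h1', by rw [h1]; exact one_ne_zero, hy1⟩
  obtain ⟨l, h1, h2, h3⟩ := key
  refine ⟨(l x)⁻¹ • l, fun h hh => ?_, ?_, ?_⟩
  · rw [LinearMap.smul_apply, h1 h hh, smul_zero]
  · rw [LinearMap.smul_apply, smul_eq_mul, inv_mul_cancel₀ h2]
  · rw [LinearMap.smul_apply, smul_eq_mul]
    exact mul_ne_zero (inv_ne_zero h2) h3

/-- Witt's theorem for the zero form -/
theorem step_zero : Step (σ := RingHom.id F) (0 : V →ₗ[F] V →ₗ[F] F) (fun _ => (0 : F)) := by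
  intro H x y hx hy _ _ _ _
  obtain ⟨l, h1, h2, h3⟩ := exists_functional H hx hy
  let T : V →ₗ[F] V := LinearMap.id + l.smulRight (y - x)
  have hT : ∀ v, T v = v + l v • (y - x) := fun v => rfl
  have hinj : Function.Injective T := by
    rw [injective_iff_map_eq_zero]
    intro v hv
    have h4 := congrArg l hv
    rw [hT, map_add, map_smul, map_sub, h2, map_zero, smul_eq_mul] at h4
    have h5 : l v * l y = 0 := by linear_combination h4
    have h6 := (mul_eq_zero.1 h5).resolve_right h3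
    rw [hT, h6, zero_smul, add_zero] at hv
    exact hv
  refine ⟨LinearEquiv.ofInjectiveEndo T hinj, ⟨fun _ _ => rfl, fun _ => rfl⟩, fun h hh => ?_, ?_⟩
  · change T h = h
    rw [hT, h1 h hh, zero_smul, add_zero]
  · change T x = y
    rw [hT, h2, one_smul, add_sub_cancel]

end gl

section coord

variable {F : Type*} [Field F]

/-- the general linear group as a group of linear equivalences -/
noncomputable def glIso (n : ℕ) (F : Type*) [Field F] :
    GL (Fin n) F ≃* isoGrp (F := F) (fun u v => (0 : (Fin n → F) →ₗ[F] (Fin n → F) →ₗ[F] F) u v) (fun _ : Fin n → F => (0 : F)) where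
  toFun g := ⟨linE g, fun u v => rfl, fun u => rfl⟩
  invFun e := ofE e.1
  left_inv g := by
    apply ap_ext
    intro v
    rw [ap_ofE, linE_apply]
  right_inv e := by
    apply Subtype.ext
    apply LinearEquiv.ext
    intro v
    rw [linE_apply, ap_ofE]
  map_mul' g h := by
    apply Subtype.ext
    apply LinearEquiv.ext
    intro v
    change linE (g * h) v = linE g (linE h v)
    rw [linE_apply, linE_apply, linE_apply, ap_mul]

/-- coordinate subspaces -/
def cs (n k : ℕ) (F : Type*) [Field F] : Submodule F (Fin n → F) where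
  carrier := {v | ∀ i : Fin n, k ≤ (i : ℕ) → v i = 0}
  add_mem' := fun {a b} ha hb i hi => by rw [Pi.add_apply, ha i hi, hb i hi, add_zero]
  zero_mem' := fun i _ => rfl
  smul_mem' := fun c v hv i hi => by rw [Pi.smul_apply, hv i hi, smul_zero]

theorem mem_cs {n k : ℕ} {v : Fin n → F} : v ∈ cs n k F ↔ ∀ i : Fin n, k ≤ (i : ℕ) → v i = 0 := Iff.rfl

/-- the frame of a coordinate subspace -/
def csf (n k : ℕ) (F : Type*) [Field F] (hk : k ≤ n) (i : Fin k) : Fin n → F := Pi.single (Fin.castLE hk i) 1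

theorem csf_li {n k : ℕ} (hk : k ≤ n) : LinearIndependent F (csf n k F hk) := by
  have h := (Pi.basisFun F (Fin n)).linearIndependent.comp (Fin.castLE hk) (Fin.castLE_injective hk)
  have h2 : (Pi.basisFun F (Fin n)) ∘ (Fin.castLE hk) = csf n k F hk := by
    funext i
    simp [csf]
  rwa [h2] at h

theorem csf_span {n k : ℕ} (hk : k ≤ n) : Submodule.span F (Set.range (csf n k F hk)) = cs n k F := by
  apply le_antisymm
  · rw [Submodule.span_le]
    rintro _ ⟨i, rfl⟩ j hj
    rw [csf, Pi.single_eq_of_ne]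
    intro h
    have := congrArg Fin.val h
    rw [Fin.val_castLE] at this
    omega
  · intro v hv
    have h1 : v = ∑ i : Fin k, v (Fin.castLE hk i) • csf n k F hk i := by
      funext j
      rw [Finset.sum_apply]
      by_cases hj : (j : ℕ) < k
      · rw [Finset.sum_eq_single ⟨j, hj⟩]
        · have : Fin.castLE hk ⟨j, hj⟩ = j := rfl
          rw [Pi.smul_apply, csf, this]
          simp
        · intro b _ hb
          rw [Pi.smul_apply, csf, Pi.single_eq_of_ne, smul_zero]
          intro h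
          apply hb
          apply Fin.ext
          exact (congrArg Fin.val h).symm
        · intro h
          exact absurd (Finset.mem_univ _) h
      · rw [hv j (by omega)]
        symm
        apply Finset.sum_eq_zero
        intro i _
        rw [Pi.smul_apply, csf, Pi.single_eq_of_ne, smul_zero]
        intro h
        rw [h, Fin.val_castLE] at hj
        exact hj i.2
    rw [h1]
    exact Submodule.sum_mem _ fun i _ => Submodule.smul_mem _ _ (Submodule.subset_span ⟨i, rfl⟩)

theorem gl_stab_map (n : ℕ) (W : Submodule F (Fin n → F)) :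
    (stabilizing (glToMat (Fin n) F) (W : Set (Fin n → F))).map (glIso n F : _ →* _) =
      stab (fun u v => (0 : (Fin n → F) →ₗ[F] (Fin n → F) →ₗ[F] F) u v) (fun _ => (0 : F)) W := by
  ext g
  constructor
  · rintro ⟨A, hA, rfl⟩
    exact hA
  · intro hg
    refine ⟨(glIso n F).symm g, ?_, (glIso n F).apply_symm_apply g⟩
    intro v
    have h1 := hg v
    rw [← (glIso n F).apply_symm_apply g] at h1
    exact h1

theorem card_gl_parab [Fintype F] {q : ℕ} (hF : Fintype.card F = q) (n k : ℕ) (hk : k ≤ n) :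
    Nat.card (stabilizing (glToMat (Fin n) F) (cs n k F : Set (Fin n → F))) =
      q ^ (k * (n - k)) * (∏ i : Fin k, (q ^ k - q ^ (i : ℕ))) * ∏ i : Fin (n - k), (q ^ (n - k) - q ^ (i : ℕ)) := by
  have hq1 : 1 < q := by rw [← hF]; exact Fintype.one_lt_card
  have h1 := card_stab_ti (B := (0 : (Fin n → F) →ₗ[F] (Fin n → F) →ₗ[F] F)) (Q := fun _ => (0 : F)) step_zero (csf n k F hk) (csf_li hk)
    (fun _ _ => rfl) (fun _ _ => rfl)
  rw [csf_span, ← gl_stab_map, ← Nat.card_congr ((glIso n F).subgroupMap _).toEquiv, ← Nat.card_congr (glIso n F).toEquiv,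
    Matrix.card_GL_field] at h1
  have h2 : Nat.card {y : Fin k → (Fin n → F) // LinearIndependent F y ∧ (∀ i j, (0 : (Fin n → F) →ₗ[F] (Fin n → F) →ₗ[F] F) (y i) (y j) = 0) ∧ ∀ _i : Fin k, (0 : F) = 0} =
      ∏ i : Fin k, (q ^ n - q ^ (i : ℕ)) := by
    have h3 := card_linearIndependent (K := F) (V := Fin n → F) (k := k) (by rw [Module.finrank_fintype_fun_eq_card, Fintype.card_fin]; exact hk)
    rw [Module.finrank_fintype_fun_eq_card, Fintype.card_fin, hF] at h3
    rw [← h3]
    exact Nat.card_congr (Equiv.subtypeEquivRight fun y => by simp)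
  rw [h2, Nat.card_eq_fintype_card (α := F), hF] at h1
  obtain ⟨r, rfl⟩ : ∃ r, n = k + r := ⟨n - k, by omega⟩
  rw [Nat.add_sub_cancel_left]
  have h4 : ∏ i : Fin (k + r), (q ^ (k + r) - q ^ (i : ℕ)) =
      (∏ i : Fin k, (q ^ (k + r) - q ^ (i : ℕ))) * (q ^ (k * r) * ∏ i : Fin r, (q ^ r - q ^ (i : ℕ))) := by
    rw [Fin.prod_univ_add]
    congr 1
    have h5 : ∀ i : Fin r, q ^ (k + r) - q ^ ((Fin.natAdd k i : Fin (k + r)) : ℕ) = q ^ k * (q ^ r - q ^ (i : ℕ)) := by
      intro i
      rw [Nat.mul_sub, ← pow_add, ← pow_add]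
      rfl
    rw [Finset.prod_congr rfl (fun i _ => h5 i), Finset.prod_mul_distrib, Finset.prod_const, Finset.card_univ, Fintype.card_fin,
      pow_mul]
  rw [h4] at h1
  have h6 : 0 < ∏ i : Fin k, (q ^ (k + r) - q ^ (i : ℕ)) := by
    apply Finset.prod_pos
    intro i _
    apply Nat.sub_pos_of_lt
    exact Nat.pow_lt_pow_right hq1 (by omega)
  apply Nat.eq_of_mul_eq_mul_left h6
  rw [← h1]
  ring

/-- block condition -/
theorem mem_stab_cs {n k : ℕ} {g : GL (Fin n) F} : g ∈ stabilizing (glToMat (Fin n) F) (cs n k F : Set (Fin n → F)) ↔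
    ∀ i j : Fin n, k ≤ (i : ℕ) → (j : ℕ) < k → (g : Matrix (Fin n) (Fin n) F) i j = 0 := by
  constructor
  · intro h i j hi hj
    have h1 := (h (Pi.single j 1)).1 (by
      intro l hl
      rw [Pi.single_eq_of_ne]
      intro h'
      rw [h'] at hl
      omega)
    have h2 := h1 i hi
    change ((g : Matrix (Fin n) (Fin n) F) *ᵥ Pi.single j 1) i = 0 at h2
    simpa using h2
  · intro h
    have h1 : ∀ v ∈ cs n k F, ap g v ∈ cs n k F := by
      intro v hv i hi
      rw [ap_def, Matrix.mulVec, dotProduct]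
      apply Finset.sum_eq_zero
      intro j _
      by_cases hj : (j : ℕ) < k
      · rw [h i j hi hj, zero_mul]
      · rw [hv j (by omega), mul_zero]
    have h2 : (cs n k F).map (linE g : (Fin n → F) →ₗ[F] (Fin n → F)) = cs n k F := by
      apply Submodule.eq_of_le_of_finrank_eq
      · rintro _ ⟨v, hv, rfl⟩
        exact h1 v hv
      · exact LinearEquiv.finrank_map_eq (linE g) _
    intro v
    constructor
    · exact h1 v
    · intro hv
      have hv' : ap g v ∈ cs n k F := hv
      rw [← h2] at hv'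
      obtain ⟨u, hu, huv⟩ := hv'
      have h5 : u = v := ap_injective g huv
      rw [← h5]
      exact hu

theorem stab_le_imp {n : ℕ} {W1 W2 : Submodule F (Fin n → F)} (h2 : W2 ≠ ⊤)
    (h : stabilizing (glToMat (Fin n) F) (W1 : Set (Fin n → F)) ≤ stabilizing (glToMat (Fin n) F) (W2 : Set (Fin n → F))) :
    W2 ≤ W1 := by
  intro w hw
  by_contra hw1
  obtain ⟨l, hl1, hl2⟩ := exists_dual_one hw1
  apply h2
  rw [Submodule.eq_top_iff']
  have key : ∀ v, l v = 0 → v ∈ W2 := by
    intro v hv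
    obtain ⟨g, hg⟩ := exists_tv hv
    have hgm : g ∈ stabilizing (glToMat (Fin n) F) (W1 : Set (Fin n → F)) := by
      intro x
      change x ∈ W1 ↔ ap g x ∈ W1
      rw [hg x]
      constructor
      · intro hx
        rw [hl2 x hx, zero_smul, add_zero]
        exact hx
      · intro hx
        have h3 := hl2 _ hx
        rw [map_add, map_smul, hv, smul_zero, add_zero] at h3
        rwa [h3, zero_smul, add_zero] at hx
    have h3 : ap g w ∈ W2 := (h hgm w).1 hw
    rw [hg w, hl1, one_smul] at h3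
    have := W2.sub_mem h3 hw
    rwa [add_sub_cancel_left] at this
  intro v
  have h3 : v = (v - l v • w) + l v • w := by abel
  rw [h3]
  refine W2.add_mem (key _ ?_) (W2.smul_mem _ hw)
  rw [map_sub, map_smul, hl1, smul_eq_mul, mul_one, sub_self]

end coord

section abstractFrames

variable {F V : Type*} [Field F] [AddCommGroup V] [Module F V] [FiniteDimensional F V]
variable {σ : F →+* F} {B : V →ₛₗ[σ] V →ₗ[F] F} {Q : V → F}

theorem exists_frame_count [Finite F] (step : Step B Q) {k : ℕ} (x : Fin k → V) (hx : LinearIndependent F x)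
    (hB : ∀ i j, B (x i) (x j) = 0) (hQ : ∀ i, Q (x i) = 0) :
    ∃ s : ℕ, Nat.card (isoGrp (F := F) (fun u v => B u v) Q) =
      Nat.card {y : Fin k → V // LinearIndependent F y ∧ (∀ i j, B (y i) (y j) = 0) ∧ ∀ i, Q (y i) = 0} * s ∧
      ∀ S : Set (Fin k → V), (∀ y ∈ S, LinearIndependent F y ∧ (∀ i j, B (y i) (y j) = 0) ∧ ∀ i, Q (y i) = 0) →
        Nat.card {g : isoGrp (F := F) (fun u v => B u v) Q // (fun i => g.1 (x i)) ∈ S} = Nat.card S * s := by
  classical
  haveI : Finite V := Module.finite_of_finite F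
  set G := isoGrp (F := F) (fun u v => B u v) Q with hG
  haveI : Finite (V ≃ₗ[F] V) := Finite.of_injective (fun e : V ≃ₗ[F] V => (e : V → V)) DFunLike.coe_injective
  have horb : ∀ y : Fin k → V, LinearIndependent F y → (∀ i j, B (y i) (y j) = 0) → (∀ i, Q (y i) = 0) →
      y ∈ MulAction.orbit G x := by
    intro y h1 h2 h3
    obtain ⟨g, hg, hgx⟩ := witt_families step k x y hx h1 (fun i j => by rw [hB, h2]) (fun i => by rw [hQ, h3])
    exact ⟨⟨g, hg⟩, funext hgx⟩
  refine ⟨Nat.card (MulAction.stabilizer G x), ?_, ?_⟩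
  · have e1 := card_smul_mem (G := G) x {y : Fin k → V | LinearIndependent F y ∧ (∀ i j, B (y i) (y j) = 0) ∧ ∀ i, Q (y i) = 0}
      (fun y hy => horb y hy.1 hy.2.1 hy.2.2)
    have e3 : Nat.card {g : G // g • x ∈ {y : Fin k → V | LinearIndependent F y ∧ (∀ i j, B (y i) (y j) = 0) ∧ ∀ i, Q (y i) = 0}} =
        Nat.card G := by
      refine Nat.card_congr (Equiv.subtypeUnivEquiv fun g => ⟨?_, ?_, ?_⟩)
      · exact hx.map' ((g.1 : V ≃ₗ[F] V) : V →ₗ[F] V) (LinearEquiv.ker _)
      · intro i j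
        exact (g.2.1 _ _).trans (hB i j)
      · intro i
        exact (g.2.2 _).trans (hQ i)
    rw [e3] at e1
    exact e1
  · intro S hS
    exact card_smul_mem (G := G) x S (fun y hy => horb y (hS y hy).1 (hS y hy).2.1 (hS y hy).2.2)

theorem li_map {k : ℕ} {x : Fin k → V} (hx : LinearIndependent F x) (g : V ≃ₗ[F] V) : LinearIndependent F (fun i => g (x i)) :=
  hx.map' (g : V →ₗ[F] V) (LinearEquiv.ker _)

end abstractFrames

section borel

variable {F : Type*} [Field F] [Fintype F] {q : ℕ}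

/-- the standard flag -/
def fl (m : ℕ) (F : Type*) [Field F] (k : Fin m) : Submodule F (Fin m ⊕ Fin m → F) where
  carrier := {v | (∀ i : Fin m, (k : ℕ) < (i : ℕ) → v (Sum.inl i) = 0) ∧ ∀ i : Fin m, v (Sum.inr i) = 0}
  add_mem' := fun {a b} ha hb => ⟨fun i hi => by rw [Pi.add_apply, ha.1 i hi, hb.1 i hi, add_zero], fun i => by
    rw [Pi.add_apply, ha.2 i, hb.2 i, add_zero]⟩
  zero_mem' := ⟨fun i _ => rfl, fun i => rfl⟩
  smul_mem' := fun c v hv => ⟨fun i hi => by rw [Pi.smul_apply, hv.1 i hi, smul_zero], fun i => by rw [Pi.smul_apply, hv.2 i, smul_zero]⟩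

/-- the standard frame -/
def flx (m : ℕ) (F : Type*) [Field F] (k : Fin m) : Fin m ⊕ Fin m → F := Pi.single (.inl k) 1

theorem flx_li (m : ℕ) : LinearIndependent F (flx m F) := by
  have h := (Pi.basisFun F (Fin m ⊕ Fin m)).linearIndependent.comp (Sum.inl : Fin m → Fin m ⊕ Fin m) Sum.inl_injective
  have h2 : (Pi.basisFun F (Fin m ⊕ Fin m)) ∘ (Sum.inl : Fin m → Fin m ⊕ Fin m) = flx m F := by
    funext i
    simp [flx]
  rwa [h2] at h

theorem flx_mem (m : ℕ) (i k : Fin m) (h : i ≤ k) : flx m F i ∈ fl m F k := by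
  refine ⟨fun j hj => ?_, fun j => ?_⟩
  · rw [flx, Pi.single_eq_of_ne]
    intro h'
    have := Sum.inl_injective h'
    subst this
    exact absurd (Fin.le_def.1 h) (by omega)
  · rw [flx, Pi.single_eq_of_ne]
    simp

theorem fl_decomp (m : ℕ) (k : Fin m) (v : Fin m ⊕ Fin m → F) (hv : v ∈ fl m F k) :
    v = ∑ i : Fin m, v (.inl i) • flx m F i := by
  funext j
  rw [Finset.sum_apply]
  rcases j with j | j
  · rw [Finset.sum_eq_single j]
    · simp [flx]
    · intro b _ hb
      rw [Pi.smul_apply, flx, Pi.single_eq_of_ne, smul_zero]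
      exact fun h => hb (Sum.inl_injective h).symm
    · intro h
      exact absurd (Finset.mem_univ _) h
  · rw [hv.2 j]
    symm
    apply Finset.sum_eq_zero
    intro i _
    rw [Pi.smul_apply, flx, Pi.single_eq_of_ne, smul_zero]
    simp

theorem fl_iff (m : ℕ) (g : (Fin m ⊕ Fin m → F) ≃ₗ[F] (Fin m ⊕ Fin m → F)) :
    (∀ k v, v ∈ fl m F k ↔ g v ∈ fl m F k) ↔ ∀ k, g (flx m F k) ∈ fl m F k := by
  constructor
  · exact fun h k => (h k _).1 (flx_mem m k k le_rfl)
  · intro h k
    have hmono : ∀ i : Fin m, i ≤ k → fl m F i ≤ fl m F k := by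
      intro i hi v hv
      exact ⟨fun j hj => hv.1 j (lt_of_le_of_lt hi hj), hv.2⟩
    have h1 : ∀ v ∈ fl m F k, g v ∈ fl m F k := by
      intro v hv
      have h2 : g v = ∑ i : Fin m, v (.inl i) • g (flx m F i) := by
        conv_lhs => rw [fl_decomp m k v hv]
        rw [map_sum]
        exact Finset.sum_congr rfl fun i _ => map_smul _ _ _
      rw [h2]
      apply Submodule.sum_mem
      intro i _
      by_cases hi : i ≤ k
      · exact Submodule.smul_mem _ _ (hmono i hi (h i))
      · rw [hv.1 i (not_le.1 hi), zero_smul]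
        exact Submodule.zero_mem _
    have h2 : (fl m F k).map (g : (Fin m ⊕ Fin m → F) →ₗ[F] (Fin m ⊕ Fin m → F)) = fl m F k := by
      apply Submodule.eq_of_le_of_finrank_eq
      · rintro _ ⟨v, hv, rfl⟩
        exact h1 v hv
      · exact LinearEquiv.finrank_map_eq g _
    intro v
    constructor
    · exact h1 v
    · intro hv
      rw [← h2] at hv
      obtain ⟨u, hu, huv⟩ := hv
      have h5 : u = v := g.injective huv
      rw [← h5]
      exact hu

/-- adapted frames -/
theorem card_adapted (hF : Fintype.card F = q) (m : ℕ) :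
    Nat.card {y : Fin m → (Fin m ⊕ Fin m → F) | LinearIndependent F y ∧ ∀ k, y k ∈ fl m F k} =
      q ^ (m * (m - 1) / 2) * (q - 1) ^ m := by
  classical
  rw [← Cfsg.Agent.S0769.result hF m]
  -- rows
  have hli : ∀ A : Matrix (Fin m) (Fin m) F, LinearIndependent F (fun k => (Sum.elim (A k) 0 : Fin m ⊕ Fin m → F)) ↔ IsUnit A := by
    intro A
    rw [← Matrix.linearIndependent_rows_iff_isUnit]
    let ι : (Fin m → F) →ₗ[F] (Fin m ⊕ Fin m → F) :=
      { toFun := fun v => Sum.elim v 0
        map_add' := fun u v => by funext i; rcases i with i | i <;> simp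
        map_smul' := fun c v => by funext i; rcases i with i | i <;> simp }
    have hι : LinearMap.ker ι = ⊥ := by
      rw [LinearMap.ker_eq_bot]
      intro u v h
      funext i
      have := congrFun h (.inl i)
      exact this
    constructor
    · intro h
      exact LinearIndependent.of_comp ι h
    · intro h
      exact h.map' ι hι
  refine Nat.card_congr
    { toFun := fun y => ⟨((hli (Matrix.of fun k j => y.1 k (.inl j))).1 ?_).unit, ?_⟩
      invFun := fun g => ⟨fun k => Sum.elim ((g.1 : Matrix (Fin m) (Fin m) F) k) 0, ?_, ?_⟩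
      left_inv := ?_
      right_inv := ?_ }
  · have h1 : (fun k => (Sum.elim ((Matrix.of fun k j => y.1 k (.inl j)) k) 0 : Fin m ⊕ Fin m → F)) = y.1 := by
      funext k i
      rcases i with i | i
      · rfl
      · exact ((y.2.2 k).2 i).symm
    rw [h1]
    exact y.2.1
  · intro i j hij
    exact (y.2.2 i).1 j hij
  · exact (hli _).2 g.1.isUnit
  · intro k
    exact ⟨fun i hi => g.2 k i hi, fun i => rfl⟩
  · rintro ⟨y, hy1, hy2⟩
    apply Subtype.ext
    funext k i
    rcases i with i | i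
    · rfl
    · exact ((hy2 k).2 i).symm
  · rintro ⟨g, hg⟩
    apply Subtype.ext
    apply Units.ext
    rfl

theorem card_borel (hF : Fintype.card F = q) (m : ℕ) :
    Nat.card ((⨅ k : Fin m, stabilizing (spToMat m F) (fl m F k : Set (Fin m ⊕ Fin m → F)) : Subgroup (symplecticGroup (Fin m) F))) =
      q ^ (m ^ 2) * (q - 1) ^ m := by
  classical
  have hq1 : 1 < q := by rw [← hF]; exact Fintype.one_lt_card
  have hfl0 : ∀ u v : (Fin m ⊕ Fin m → F), (∀ i, u (.inr i) = 0) → (∀ i, v (.inr i) = 0) → sf m F u v = 0 := by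
    intro u v hu hv
    rw [sf_apply, sympForm_eq]
    apply Finset.sum_eq_zero
    intro i _
    rw [hu, hv]
    ring
  have hx0 : ∀ i j, sf m F (flx m F i) (flx m F j) = 0 := by
    intro i j
    apply hfl0 <;> intro k <;> rw [flx, Pi.single_eq_of_ne] <;> simp
  obtain ⟨s, e1, h2⟩ := exists_frame_count (B := sf m F) (Q := fun _ => (0 : F)) (step_alt (sf_alt m).1 (sf_alt m).2) (flx m F)
    (flx_li m) hx0 (fun _ => rfl)
  have e2 := h2 {y : Fin m → (Fin m ⊕ Fin m → F) | LinearIndependent F y ∧ ∀ k, y k ∈ fl m F k}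
    (fun y hy => ⟨hy.1, (fun i j => hfl0 _ _ (hy.2 i).2 (hy.2 j).2), fun _ => rfl⟩)
  have e4 : Nat.card {g : isoGrp (F := F) (fun u v => sf m F u v) (fun _ : (Fin m ⊕ Fin m → F) => (0 : F)) //
      (fun i => g.1 (flx m F i)) ∈ {y : Fin m → (Fin m ⊕ Fin m → F) | LinearIndependent F y ∧ ∀ k, y k ∈ fl m F k}} =
      Nat.card ((⨅ k : Fin m, stabilizing (spToMat m F) (fl m F k : Set (Fin m ⊕ Fin m → F)) : Subgroup (symplecticGroup (Fin m) F))) := by
    symm
    have key : ∀ g : (Fin m ⊕ Fin m → F) ≃ₗ[F] (Fin m ⊕ Fin m → F), (∀ k v, v ∈ fl m F k ↔ g v ∈ fl m F k) ↔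
        (fun i => g (flx m F i)) ∈ {y : Fin m → (Fin m ⊕ Fin m → F) | LinearIndependent F y ∧ ∀ k, y k ∈ fl m F k} := by
      intro g
      rw [Set.mem_ofPred_eq, fl_iff m g]
      have h3 : LinearIndependent F (fun i => g (flx m F i)) := li_map (F := F) (V := Fin m ⊕ Fin m → F) (x := flx m F) (flx_li (F := F) m) g
      exact (and_iff_right h3).symm
    have key2 : ∀ A : symplecticGroup (Fin m) F, A ∈ (⨅ k : Fin m, stabilizing (spToMat m F) (fl m F k : Set (Fin m ⊕ Fin m → F)) : Subgroup (symplecticGroup (Fin m) F)) ↔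
        ∀ k v, v ∈ fl m F k ↔ (spIso m F A).1 v ∈ fl m F k := by
      intro A
      rw [Subgroup.mem_iInf]
      exact Iff.rfl
    exact Nat.card_congr (Equiv.subtypeEquiv (spIso m F).toEquiv fun A => (key2 A).trans (key (spIso m F A).1))
  rw [e4, card_adapted hF] at e2
  rw [card_sp hF] at e1
  have e5 : Nat.card {y : Fin m → (Fin m ⊕ Fin m → F) // LinearIndependent F y ∧ (∀ i j, sf m F (y i) (y j) = 0) ∧ ∀ _i : Fin m, (0 : F) = 0} =
      ∏ j ∈ Finset.range m, (q ^ (2 * m - j) - q ^ j) := by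
    rw [← card_sp_frames hF m m]
    exact Nat.card_congr (Equiv.subtypeEquivRight fun y => by simp)
  have e6 := arith_sp hq1.le m 0
  simp only [add_zero, mul_zero, Finset.range_zero, Finset.prod_empty, zero_pow two_ne_zero, pow_zero, mul_one] at e6
  rw [e5, ← e6] at e1
  have h4 : 0 < ∏ j ∈ Finset.range m, (q ^ (2 * m - j) - q ^ j) := by
    apply Finset.prod_pos
    intro j hj
    rw [Finset.mem_range] at hj
    apply Nat.sub_pos_of_lt
    exact Nat.pow_lt_pow_right hq1 (by omega)
  have e7 := Nat.eq_of_mul_eq_mul_left h4 e1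
  rw [e2, ← e7]
  have e8 : m * (m - 1) / 2 + m * (m + 1) / 2 = m ^ 2 := by
    rcases Nat.eq_zero_or_pos m with rfl | hm
    · rfl
    · obtain ⟨s, rfl⟩ : ∃ s, m = s + 1 := ⟨m - 1, by omega⟩
      have h5 : (s + 1) * (s + 1 - 1) % 2 = 0 := by
        rw [Nat.add_sub_cancel]
        exact Nat.even_iff.1 (by rw [mul_comm]; exact Nat.even_mul_succ_self s)
      have h6 : (s + 1) * (s + 1 + 1) % 2 = 0 := Nat.even_iff.1 (Nat.even_mul_succ_self (s + 1))
      have h7 : (s + 1) * (s + 1 - 1) + (s + 1) * (s + 1 + 1) = 2 * (s + 1) ^ 2 := by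
        rw [Nat.add_sub_cancel]
        ring
      omega
  rw [← e8, pow_add]
  ring

end borel

end Cfsg.Agent.H7.Witt
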