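import Cfsg.Agent.H7.IsoCl2
import Mathlib.FieldTheory.Finite.GaloisField

/-!
Quadratic extensions of finite fields.
-/

set_option autoImplicit false
set_option linter.unusedSectionVars false

namespace Cfsg.Agent.H7.QuadExt

open Polynomial

theorem mem_of_pow {L Oc : Type*} [Field L] [Fintype L] [Field Oc] (i : L →+* Oc) (x : Oc) (hx : x ^ Fintype.card L = x) :
    ∃ y, i y = x := by
  classical
  by_contra hcon
  push Not at hcon
  have hn : 1 < Fintype.card L := Fintype.one_lt_card
  set P : Oc[X] := X ^ Fintype.card L - X with hP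
  have hd : P.natDegree = Fintype.card L := FiniteField.X_pow_card_sub_X_natDegree_eq Oc hn
  have hP0 : P ≠ 0 := by
    intro h
    rw [h, natDegree_zero] at hd
    omega
  have hroot : ∀ y : Oc, y ^ Fintype.card L = y → y ∈ P.roots := by
    intro y hy
    rw [mem_roots hP0, IsRoot, hP, eval_sub, eval_pow, eval_X, hy, sub_self]
  have h1 : (insert x (Finset.univ.image i)).val ⊆ P.roots := by
    intro y hy
    rw [Finset.mem_val, Finset.mem_insert, Finset.mem_image] at hy
    rcases hy with rfl | ⟨z, -, rfl⟩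
    · exact hroot _ hx
    · apply hroot
      rw [← map_pow, FiniteField.pow_card]
  have h2 := card_le_degree_of_subset_roots h1
  rw [hd, Finset.card_insert_of_notMem, Finset.card_image_of_injective _ i.injective, Finset.card_univ] at h2
  · omega
  · intro h
    obtain ⟨z, -, hz⟩ := Finset.mem_image.1 h
    exact hcon z hz

theorem exists_hom {F K : Type*} [Field F] [Fintype F] [Field K] [Fintype K] {q : ℕ} (hF : Fintype.card F = q)
    (hK : Fintype.card K = q ^ 2) : Nonempty (F →+* K) := by
  obtain ⟨p, hp⟩ := CharP.exists F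
  haveI := hp
  obtain ⟨n, hpp, hn⟩ := FiniteField.card F p
  haveI : Fact p.Prime := ⟨hpp⟩
  obtain ⟨r, hr⟩ := CharP.exists K
  haveI := hr
  obtain ⟨m, hrp, hm⟩ := FiniteField.card K r
  have h1 : r ^ (m : ℕ) = p ^ (2 * (n : ℕ)) := by
    rw [← hm, hK, ← hF, hn, ← pow_mul, mul_comm]
  have hpr : r = p := by
    have h2 : r ∣ p ^ (2 * (n : ℕ)) := by rw [← h1]; exact dvd_pow_self r m.ne_zero
    exact (Nat.prime_dvd_prime_iff_eq hrp hpp).1 (hrp.dvd_of_dvd_pow h2)
  subst hpr
  have h3 : (m : ℕ) = 2 * n := Nat.pow_right_injective hpp.two_le h1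
  letI : Algebra (ZMod r) F := ZMod.algebra F r
  letI : Algebra (ZMod r) K := ZMod.algebra K r
  have e1 : Module.finrank (ZMod r) F = n := by
    have h4 := Module.card_eq_pow_finrank (K := ZMod r) (V := F)
    rw [hn, ZMod.card] at h4
    exact (Nat.pow_right_injective hpp.two_le h4).symm
  have e2 : Module.finrank (ZMod r) K = m := by
    have h4 := Module.card_eq_pow_finrank (K := ZMod r) (V := K)
    rw [hm, ZMod.card] at h4
    exact (Nat.pow_right_injective hpp.two_le h4).symm
  obtain ⟨φ⟩ := FiniteField.nonempty_algHom_of_finrank_dvd (F := ZMod r) (K := F) (L := K) (by rw [e1, e2, h3]; exact Dvd.intro_left 2 rfl)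
  exact ⟨φ.toRingHom⟩

theorem quad_ext {F K : Type*} [Field F] [Fintype F] [Field K] [Fintype K] {q : ℕ} (hF : Fintype.card F = q)
    (hK : Fintype.card K = q ^ 2) {a b : F} (hab : ∀ z₁ z₂ : F, z₁ ^ 2 + a * z₁ * z₂ + b * z₂ ^ 2 = 0 → z₁ = 0 ∧ z₂ = 0) :
    ∃ (f : F →+* K) (σ : K →+* K) (θ : K), (∀ x, σ x = x ^ q) ∧ (∀ x, σ (σ x) = x) ∧ (∀ y, σ (f y) = f y) ∧ (∀ x, σ x = x → ∃ y, f y = x) ∧
      θ + σ θ = f a ∧ θ * σ θ = f b ∧ σ θ ≠ θ := by
  obtain ⟨f⟩ := exists_hom hF hK
  obtain ⟨σ, hσ, hσσ, -⟩ := Cfsg.Agent.H7.Herm.exists_frob hK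
  have hσf : ∀ y, σ (f y) = f y := by
    intro y
    rw [hσ, ← map_pow, ← hF, FiniteField.pow_card]
  have hfix : ∀ x, σ x = x → ∃ y, f y = x := by
    intro x hx
    apply mem_of_pow f x
    rw [hF, ← hσ, hx]
  -- the root
  have hroot : ∃ θ : K, θ * θ - f a * θ + f b = 0 := by
    let Oc := AlgebraicClosure K
    let i : K →+* Oc := algebraMap K Oc
    obtain ⟨p, hp⟩ := CharP.exists K
    haveI := hp
    obtain ⟨n, hpp, hn⟩ := FiniteField.card K p
    haveI : Fact p.Prime := ⟨hpp⟩
    haveI : CharP Oc p := charP_of_injective_algebraMap (algebraMap K Oc).injective p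
    have hq : q ∣ p ^ (n : ℕ) := by rw [← hn, hK]; exact Dvd.intro_left q (by ring)
    obtain ⟨j, -, hj⟩ := (Nat.dvd_prime_pow hpp).1 hq
    let φ : Oc →+* Oc := iterateFrobenius Oc p j
    have hφ : ∀ x, φ x = x ^ q := fun x => by rw [iterateFrobenius_def, hj]
    obtain ⟨t, ht⟩ : ∃ t : Oc, t * t - i (f a) * t + i (f b) = 0 := by
      obtain ⟨t, ht⟩ := IsAlgClosed.exists_root (X ^ 2 + C (-(i (f a))) * X + C (i (f b)) : Oc[X]) (by
        have : (X ^ 2 + C (-(i (f a))) * X + C (i (f b)) : Oc[X]).degree = 2 := by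
          have := Polynomial.degree_quadratic (a := (1 : Oc)) (b := -(i (f a))) (c := i (f b)) one_ne_zero
          rwa [C_1, one_mul] at this
        rw [this]; norm_num)
      refine ⟨t, ?_⟩
      rw [IsRoot, eval_add, eval_add, eval_pow, eval_mul, eval_C, eval_C, eval_X] at ht
      linear_combination ht
    have hφf : ∀ y, φ (i (f y)) = i (f y) := by
      intro y
      rw [hφ, ← map_pow, ← map_pow, ← hF, FiniteField.pow_card]
    have hφt : ∀ s, s * s - i (f a) * s + i (f b) = 0 → φ s * φ s - i (f a) * φ s + i (f b) = 0 := by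
      intro s hs
      have := congrArg φ hs
      rw [map_add, map_sub, map_mul, map_mul, hφf, hφf, map_zero] at this
      exact this
    have hne : φ t ≠ t := by
      intro h
      obtain ⟨y, hy⟩ := mem_of_pow (i.comp f) t (by rw [hF, ← hφ, h])
      have h1 : i (f (y * y - a * y + b)) = 0 := by
        rw [map_add, map_sub, map_mul, map_mul, map_add, map_sub, map_mul, map_mul]
        change i (f y) = t at hy
        rw [hy]; exact ht
      have h2 : y * y - a * y + b = 0 := by
        apply f.injective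
        apply i.injective
        rw [h1, map_zero, map_zero]
      exact one_ne_zero (hab (-y) 1 (by linear_combination h2)).2
    have h1 := hφt t ht
    have h2 := hφt _ h1
    have h3 : φ t + t = i (f a) := by
      have h4 : (φ t - t) * (φ t + t - i (f a)) = 0 := by linear_combination h1 - ht
      rcases mul_eq_zero.1 h4 with h5 | h5
      · exact absurd (sub_eq_zero.1 h5) hne
      · exact sub_eq_zero.1 h5
    have h4 : φ (φ t) = t := by
      have h5 := congrArg φ h3
      rw [map_add, hφf] at h5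
      linear_combination h5 - h3
    obtain ⟨θ, hθ⟩ := mem_of_pow i t (by
      rw [hK, sq, pow_mul, ← hφ, ← hφ, h4])
    refine ⟨θ, ?_⟩
    apply i.injective
    rw [map_add, map_sub, map_mul, map_mul, hθ, ht, map_zero]
  obtain ⟨θ, hθ⟩ := hroot
  have hne : σ θ ≠ θ := by
    intro h
    obtain ⟨y, hy⟩ := hfix θ h
    have h2 : y * y - a * y + b = 0 := by
      apply f.injective
      rw [map_add, map_sub, map_mul, map_mul, hy, hθ, map_zero]
    exact one_ne_zero (hab (-y) 1 (by linear_combination h2)).2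
  have h1 : σ θ * σ θ - f a * σ θ + f b = 0 := by
    have := congrArg σ hθ
    rw [map_add, map_sub, map_mul, map_mul, hσf, hσf, map_zero] at this
    exact this
  have h3 : θ + σ θ = f a := by
    have h4 : (σ θ - θ) * (θ + σ θ - f a) = 0 := by linear_combination h1 - hθ
    rcases mul_eq_zero.1 h4 with h5 | h5
    · exact absurd (sub_eq_zero.1 h5) hne
    · exact sub_eq_zero.1 h5
  exact ⟨f, σ, θ, hσ, hσσ, hσf, hfix, h3, by linear_combination θ * h3 - hθ, hne⟩

end Cfsg.Agent.H7.QuadExt

namespace Cfsg.Agent.H7.Rho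

open Module Matrix
open Cfsg Cfsg.Agent.H7.Witt Cfsg.Agent.H7.Tv Cfsg.Agent.H7.Orth

variable {F K : Type*} [Field F] [Field K] {ι : Type} {Q : (ι → F) → F} {G : Type*} [Group G] {W : Type*} [AddCommGroup W] [Module K W]

/-- a representation on a form of a space over a larger field -/
structure Emb (F : Type*) [Field F] {K : Type*} [Field K] {ι : Type} (Q : (ι → F) → F) (G : Type*) [Group G] (W : Type*) [AddCommGroup W] [Module K W]
    where
  f : F →+* K
  E : (ι → F) → W
  inj : Function.Injective E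
  Eadd : ∀ v w, E (v + w) = E v + E w
  Esmul : ∀ (c : F) v, E (c • v) = f c • E v
  q' : W → K
  hq : ∀ w, q' (E w) = f (Q w)
  A : G → W → W
  A_one : ∀ w, A 1 w = w
  A_mul : ∀ g h w, A (g * h) w = A g (A h w)
  A_add : ∀ g v w, A g (v + w) = A g v + A g w
  A_smul : ∀ g (c : K) w, A g (c • w) = c • A g w
  A_q : ∀ g w, q' (A g w) = q' w
  range : ∀ g w, ∃ w', E w' = A g (E w)

theorem Emb.E_inv (e : Emb F (K := K) Q G W) (g : G) (w : ι → F) : e.E (Function.invFun e.E (e.A g (e.E w))) = e.A g (e.E w) :=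
  Function.invFun_eq (e.range g w)

/-- the representation -/
noncomputable def Emb.rep (e : Emb F (K := K) Q G W) : Rep F Q G where
  act g w := Function.invFun e.E (e.A g (e.E w))
  one w := by
    apply e.inj
    rw [e.E_inv, e.A_one]
  mul g h w := by
    apply e.inj
    rw [e.E_inv, e.E_inv, e.E_inv, e.A_mul]
  add g v w := by
    apply e.inj
    rw [e.E_inv, e.Eadd, e.Eadd, e.E_inv, e.E_inv, e.A_add]
  smul g c w := by
    apply e.inj
    rw [e.E_inv, e.Esmul, e.Esmul, e.E_inv, e.A_smul]
  q g w := by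
    apply e.f.injective
    rw [← e.hq, e.E_inv, e.A_q, e.hq]

theorem Emb.mem_ker [Fintype ι] [DecidableEq ι] (e : Emb F (K := K) Q G W) (g : G) : g ∈ e.rep.rho.ker ↔ ∀ w, e.A g (e.E w) = e.E w := by
  rw [e.rep.mem_ker]
  constructor
  · intro h w
    rw [← e.E_inv]
    exact congrArg e.E (h w)
  · intro h w
    apply e.inj
    change e.E (Function.invFun e.E (e.A g (e.E w))) = _
    rw [e.E_inv, h]

/-- isometric additive maps are injective -/
theorem inj_of_isometric [Fintype ι] [DecidableEq ι] {B : (ι → F) →ₗ[F] (ι → F) →ₗ[F] F} (hQ : Qf Q B) (f : F →+* K) (E : (ι → F) → W)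
    (Eadd : ∀ v w, E (v + w) = E v + E w) (q' : W → K) (hq : ∀ w, q' (E w) = f (Q w)) : Function.Injective E := by
  have h0 : ∀ w, E w = 0 → w = 0 := by
    intro w hw
    have h1 : ∀ u, Q (w + u) = Q u := by
      intro u
      apply f.injective
      rw [← hq, ← hq, Eadd, hw, zero_add]
    apply hQ.nd
    intro u
    have h2 := hQ.add w u
    rw [h1] at h2
    have h3 : Q w = 0 := by
      have := h1 0
      rw [add_zero] at this
      rw [this, hQ.zero]
    rw [h3] at h2
    linear_combination -h2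
  have hE0 : E 0 = 0 := by
    have := Eadd 0 0
    rw [add_zero] at this
    exact left_eq_add.1 this
  intro v w h
  rw [← sub_eq_zero]
  apply h0
  have h1 : E (v - w) + E w = E v := by rw [← Eadd, sub_add_cancel]
  rw [h] at h1
  exact left_eq_add.1 (by rw [add_comm]; exact h1.symm)

end Cfsg.Agent.H7.Rho
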