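import Cfsg.Agent.H7.Tv

set_option autoImplicit false

namespace Cfsg.Agent.H7.Tv

open Module Matrix Cfsg

variable {ι : Type} [Fintype ι] [DecidableEq ι] {F : Type*} [Field F]

/-- a subgroup containing all the transvections which stabilise `W` and moving `W` contains `SL` -/
theorem SL_le_of_moves {W : Submodule F (ι → F)} {M : Subgroup (GL ι F)}
    (hT1 : ∀ (u : ι → F) (l : Dual F (ι → F)), l u = 0 → u ∈ W → In M u l)
    (hT2 : ∀ (u : ι → F) (l : Dual F (ι → F)), l u = 0 → (∀ w ∈ W, l w = 0) → In M u l)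
    {g : GL ι F} (hgM : g ∈ M) (hgW : ∃ v ∈ W, ap g v ∉ W) : Geo.specialLinear ι F ≤ M := by
  classical
  -- the good centres
  let Pc : (ι → F) → Prop := fun u => ∀ l : Dual F (ι → F), l u = 0 → In M u l
  have hPW : ∀ u ∈ W, Pc u := fun u hu l hl k hk => (hT1 u l hl hu k hk)
  have hPg : ∀ u, ∀ h ∈ M, Pc u → Pc (ap h u) := by
    intro u h hh hu l hl
    have h1 : In M u (l.comp (lin h)) := hu _ hl
    have h2 := h1.conj hh
    have h3 : (l.comp (lin h)).comp (lin h⁻¹) = l := by
      apply LinearMap.ext
      intro x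
      change l (ap h (ap h⁻¹ x)) = l x
      rw [ap_ap_inv]
    rwa [h3] at h2
  have hPs : ∀ (u : ι → F) (c : F), Pc u → Pc (c • u) := by
    intro u c hu l hl
    by_cases hc : c = 0
    · rw [hc, zero_smul]
      exact In.zero_left M l
    · rw [In.smul_iff]
      apply hu
      rw [map_smul, smul_eq_mul] at hl
      rw [LinearMap.smul_apply, smul_eq_mul]
      rcases mul_eq_zero.1 hl with h | h
      · exact absurd h hc
      · rw [h, mul_zero]
  obtain ⟨u₀, hu₀, hPu₀⟩ : ∃ u₀, u₀ ∉ W ∧ Pc u₀ := by
    obtain ⟨v, hv, hv'⟩ := hgW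
    exact ⟨ap g v, hv', hPg v g hgM (hPW v hv)⟩
  apply SL_le
  intro u l hl
  by_cases hu : u ∈ W
  · exact hPW u hu l hl
  -- move `u₀` to `u`, possibly after scaling
  have hmove : ∀ x : ι → F, x ∉ W → (u - x ∈ W ∨ u ∉ W ⊔ Submodule.span F {x}) → Pc x → Pc u := by
    intro x hx hux hPx
    have : ∃ l' : Dual F (ι → F), l' x = 1 ∧ l' (u - x) = 0 ∧ ((u - x ∈ W) ∨ ∀ w ∈ W, l' w = 0) := by
      rcases hux with h | h
      · have hxs : x ∉ Submodule.span F {u - x} := by
          intro hx'
          apply hx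
          exact (Submodule.span_singleton_le_iff_mem _ _).2 h hx'
        obtain ⟨l', h1, h2⟩ := exists_dual_one hxs
        exact ⟨l', h1, h2 _ (Submodule.mem_span_singleton_self _), Or.inl h⟩
      · have hxs : x ∉ W ⊔ Submodule.span F {u - x} := by
          intro hx'
          obtain ⟨w, hw, y, hy, hwy⟩ := Submodule.mem_sup.1 hx'
          obtain ⟨c, rfl⟩ := Submodule.mem_span_singleton.1 hy
          by_cases hc : c = 0
          · rw [hc, zero_smul, add_zero] at hwy
            rw [← hwy] at hx
            exact hx hw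
          · apply h
            have : u = (-c⁻¹) • w + (c⁻¹ + 1) • x := by
              have h3 : c • u = x - w + c • x := by
                have : c • u = (w + c • (u - x)) - w + c • x := by rw [smul_sub]; abel
                rw [this, hwy]
              have h4 : u = c⁻¹ • (c • u) := by rw [smul_smul, inv_mul_cancel₀ hc, one_smul]
              rw [h4, h3]
              rw [smul_add, smul_sub, smul_smul, inv_mul_cancel₀ hc, add_smul, one_smul, neg_smul]
              abel
            rw [this]
            exact Submodule.add_mem_sup (W.smul_mem _ hw)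
              (Submodule.smul_mem _ _ (Submodule.mem_span_singleton_self x))
        obtain ⟨l', h1, h2⟩ := exists_dual_one hxs
        exact ⟨l', h1, h2 _ (Submodule.mem_sup_right (Submodule.mem_span_singleton_self _)),
          Or.inr (fun w hw => h2 w (Submodule.mem_sup_left hw))⟩
    obtain ⟨l', h1, h2, h3⟩ := this
    obtain ⟨k, hk⟩ := exists_tv h2
    have hkM : k ∈ M := by
      rcases h3 with h | h
      · exact hT1 _ _ h2 h k hk
      · exact hT2 _ _ h2 h k hk
    have h4 := hPg x k hkM hPx
    rw [hk, h1, one_smul, add_sub_cancel] at h4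
    exact h4
  by_cases hu' : u ∈ W ⊔ Submodule.span F {u₀}
  · obtain ⟨w, hw, y, hy, hwy⟩ := Submodule.mem_sup.1 hu'
    obtain ⟨c, rfl⟩ := Submodule.mem_span_singleton.1 hy
    have hc : c ≠ 0 := by
      rintro rfl
      rw [zero_smul, add_zero] at hwy
      rw [← hwy] at hu
      exact hu hw
    refine hmove (c • u₀) ?_ (Or.inl ?_) (hPs _ _ hPu₀) l hl
    · intro h
      exact hu₀ ((W.smul_mem_iff hc).1 h)
    · rw [← hwy, add_sub_cancel_right]
      exact hw
  · exact hmove u₀ hu₀ (Or.inr hu') hPu₀ l hl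

end Cfsg.Agent.H7.Tv
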