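import Cfsg.Agent.H7.Pair2
import Cfsg.Agent.H7.HermStd
import Cfsg.Agent.H7.SpGen

set_option autoImplicit false

namespace Cfsg.Agent.H7.Pair

open Module Matrix Cfsg Cfsg.Agent.H7.Tv Cfsg.Agent.H7.Witt Cfsg.Agent.H7.UTv

theorem two_ne_zero_of_odd {F : Type*} [Field F] [Fintype F] (h : Odd (Fintype.card F)) : (2 : F) ≠ 0 := by
  intro h2
  have h3 : ringChar F = 2 := by
    have h4 : ringChar F ∣ 2 := (ringChar.spec F 2).1 (by exact_mod_cast h2)
    rcases (Nat.dvd_prime Nat.prime_two).1 h4 with h5 | h5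
    · exact absurd h5 (CharP.ringChar_ne_one)
    · exact h5
  have h4 := FiniteField.even_card_of_char_two h3
  obtain ⟨r, hr⟩ := h
  omega

variable {ι : Type} [Fintype ι] [DecidableEq ι] {F : Type*} [Field F] [Finite F]

/-- symplectic forms in odd characteristic -/
theorem sk_of_alt (h2 : (2 : F) ≠ 0) {f : (ι → F) →ₗ[F] (ι → F) →ₗ[F] F} (hf : Alt f) :
    Sk (σ := RingHom.id F) f := by
  refine ⟨fun a => rfl, ⟨1, ?_⟩, fun x y => hf.skew x y, fun v hv => hf.nd v (fun x => hf.skew_zero (hv x))⟩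
  rw [RingHom.id_apply, one_add_one_eq_two]
  exact h2

theorem gen_of_alt {f : (ι → F) →ₗ[F] (ι → F) →ₗ[F] F} (hf : Alt f) {K : Subgroup (GL ι F)}
    (hK : ∀ x, f x x = 0 → UT (σ := RingHom.id F) f K x) {g : GL ι F} (hg : IsIso f g) : g ∈ K := by
  refine iso_mem hf (fun w c k hk => ?_) hg
  refine hK w (hf.alt w) (-c) rfl k (fun x => ?_)
  rw [hk, LinearMap.smul_apply, smul_eq_mul, hf.skew x w]
  congr 2
  ring

variable {σ : F →+* F} {B : (ι → F) →ₛₗ[σ] (ι → F) →ₗ[F] F}

/-- Hermitian forms -/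
theorem sk_of_herm (hB : Hm B) : ∃ k : F, k ≠ 0 ∧ k + σ k = 0 ∧ Sk (k • B) := by
  obtain ⟨k, hk0, hk⟩ := hB.exists_tz
  have hσk : σ k = -k := by rw [eq_neg_iff_add_eq_zero, add_comm]; exact hk
  refine ⟨k, hk0, hk, hB.inv, ?_, fun x y => ?_, fun v hv => hB.nd v (fun u => ?_)⟩
  · by_contra hcon
    push Not at hcon
    apply hB.ne
    ext a
    have h1 := hcon 1
    have h2 := hcon a
    rw [map_one] at h1
    rw [RingHom.id_apply]
    linear_combination h2 - a * h1
  · simp only [LinearMap.smul_apply, smul_eq_mul, map_mul, hσk, hB.symm]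
    ring
  · have := hv u
    simp only [LinearMap.smul_apply, smul_eq_mul] at this
    exact (mul_eq_zero.1 this).resolve_left hk0

theorem isom_smul {k : F} (hk0 : k ≠ 0) {g : GL ι F} : Isom (k • B) g ↔ Isom B g := by
  constructor
  · intro h x y
    have := h x y
    simp only [LinearMap.smul_apply, smul_eq_mul] at this
    exact mul_left_cancel₀ hk0 this
  · intro h x y
    simp only [LinearMap.smul_apply, h x y]

theorem uc_of_ut {k : F} (hk0 : k ≠ 0) (hk : k + σ k = 0) {K : Subgroup (GL ι F)} {x : ι → F}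
    (h : UT (k • B) K x) : UC B K x := by
  have hσk : σ k = -k := by rw [eq_neg_iff_add_eq_zero, add_comm]; exact hk
  intro c hc g hg
  have hσc : σ c = -c := by rw [eq_neg_iff_add_eq_zero, add_comm]; exact hc
  refine h (c * k⁻¹) (by rw [map_mul, map_inv₀, hσk, hσc]; field_simp) g (fun y => ?_)
  rw [hg]
  simp only [LinearMap.smul_apply, smul_eq_mul]
  congr 2
  field_simp

theorem gen_of_herm (hB : Hm B) (hn : 4 ≤ Fintype.card ι) {k : F} (hk0 : k ≠ 0) (hk : k + σ k = 0) {K : Subgroup (GL ι F)}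
    (hK : ∀ x, (k • B) x x = 0 → UT (k • B) K x) {g : GL ι F} (hg : Isom B g) (hS : g ∈ Geo.specialLinear ι F) : g ∈ K := by
  refine su_le hB hn (fun u hu => uc_of_ut hk0 hk (hK u ?_)) hg hS
  simp only [LinearMap.smul_apply, hu, smul_zero]

end Cfsg.Agent.H7.Pair
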