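import Cfsg.Agent.H7.SpIso

/-!
Orthogonal decompositions into nondegenerate alternating subspaces.
-/

set_option autoImplicit false
set_option linter.unusedSectionVars false

namespace Cfsg.Agent.H7.Tv

open Matrix Module
open scoped MatrixGroups

variable {ι : Type} [Fintype ι] [DecidableEq ι] {F : Type*} [Field F]
variable {f : (ι → F) →ₗ[F] (ι → F) →ₗ[F] F}

/-- orthogonal decomposition into nondegenerate subspaces -/
structure ODec (f : (ι → F) →ₗ[F] (ι → F) →ₗ[F] F) {t : ℕ} (D : Fin t → Submodule F (ι → F)) : Prop where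
  nd : ∀ i, Nd f (D i)
  orth : ∀ i j, i ≠ j → ∀ x ∈ D i, ∀ y ∈ D j, f x y = 0
  sup : iSup D = ⊤

namespace ODec

variable {t : ℕ} {D : Fin t → Submodule F (ι → F)} (hD : ODec f D)
include hD

theorem exists_sum (v : ι → F) : ∃ a : Fin t → (ι → F), (∀ i, a i ∈ D i) ∧ v = ∑ i, a i := by
  let S : Submodule F (ι → F) :=
    { carrier := {v | ∃ a : Fin t → (ι → F), (∀ i, a i ∈ D i) ∧ v = ∑ i, a i}
      zero_mem' := ⟨0, fun i => (D i).zero_mem, by simp⟩
      add_mem' := by
        rintro x y ⟨a, ha, rfl⟩ ⟨b, hb, rfl⟩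
        exact ⟨a + b, fun i => (D i).add_mem (ha i) (hb i), by simp [Finset.sum_add_distrib]⟩
      smul_mem' := by
        rintro c x ⟨a, ha, rfl⟩
        exact ⟨c • a, fun i => (D i).smul_mem c (ha i), by simp [Finset.smul_sum]⟩ }
  have hS : S = ⊤ := by
    rw [eq_top_iff, ← hD.sup]
    apply iSup_le
    intro i x hx
    refine ⟨Pi.single i x, fun j => ?_, by simp⟩
    by_cases h : j = i
    · subst h; simpa using hx
    · rw [Pi.single_eq_of_ne h]; exact (D j).zero_mem
  have : v ∈ S := by rw [hS]; trivial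
  exact this

theorem form_sum {a : Fin t → (ι → F)} (ha : ∀ i, a i ∈ D i) {j : Fin t} {x : ι → F} (hx : x ∈ D j) :
    f (∑ i, a i) x = f (a j) x := by
  rw [map_sum, LinearMap.sum_apply, Finset.sum_eq_single j]
  · intro i _ hij
    exact hD.orth i j hij _ (ha i) _ hx
  · intro h; exact absurd (Finset.mem_univ j) h

theorem form_sum_sum {a b : Fin t → (ι → F)} (ha : ∀ i, a i ∈ D i) (hb : ∀ i, b i ∈ D i) :
    f (∑ i, a i) (∑ i, b i) = ∑ i, f (a i) (b i) := by
  rw [map_sum]
  exact Finset.sum_congr rfl (fun i _ => hD.form_sum ha (hb i))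

theorem unique {a b : Fin t → (ι → F)} (ha : ∀ i, a i ∈ D i) (hb : ∀ i, b i ∈ D i) (h : ∑ i, a i = ∑ i, b i) :
    a = b := by
  funext j
  by_contra hne
  obtain ⟨z, hz, hz'⟩ := hD.nd j (a j - b j) ((D j).sub_mem (ha j) (hb j)) (sub_ne_zero.2 hne)
  apply hz'
  rw [map_sub, LinearMap.sub_apply, ← hD.form_sum ha hz, ← hD.form_sum hb hz, h, sub_self]

theorem mem_perp_of_ne {i j : Fin t} (hij : i ≠ j) {x : ι → F} (hx : x ∈ D i) : x ∈ perp f (D j) :=
  fun y hy => hD.orth i j hij x hx y hy

end ODec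

/-- every vector with support `S` is a centre of `M` -/
def Good (f : (ι → F) →ₗ[F] (ι → F) →ₗ[F] F) {t : ℕ} (D : Fin t → Submodule F (ι → F)) (M : Subgroup (GL ι F))
    (S : Finset (Fin t)) : Prop :=
  ∀ a : Fin t → (ι → F), (∀ i, a i ∈ D i) → (∀ i, a i ≠ 0 ↔ i ∈ S) → Ctr f M (∑ i, a i)

theorem good_of_exists (hf : Alt f) {t : ℕ} {D : Fin t → Submodule F (ι → F)} (hD : ODec f D)
    {M : Subgroup (GL ι F)} (hM : ∀ i, ∀ x ∈ D i, Ctr f M x)
    {S : Finset (Fin t)} {a : Fin t → (ι → F)} (ha : ∀ i, a i ∈ D i) (haS : ∀ i, a i ≠ 0 ↔ i ∈ S)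
    (hc : Ctr f M (∑ i, a i)) : Good f D M S := by
  intro b hb hbS
  have key : ∀ s : Finset (Fin t), Ctr f M (∑ i, (if i ∈ s then b i else a i)) := by
    intro s
    induction s using Finset.induction_on with
    | empty => simpa using hc
    | insert j s hj ih =>
      have hmem : ∀ i, (if i ∈ s then b i else a i) ∈ D i := by
        intro i
        split_ifs
        · exact hb i
        · exact ha i
      by_cases haj : a j = 0
      · have hbj : b j = 0 := by
          by_contra h
          exact ((haS j).2 ((hbS j).1 h)) haj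
        have : ∑ i, (if i ∈ insert j s then b i else a i) = ∑ i, (if i ∈ s then b i else a i) := by
          apply Finset.sum_congr rfl
          intro i _
          by_cases hij : i = j
          · subst hij
            simp [hj, haj, hbj]
          · simp [Finset.mem_insert, hij]
        rw [this]
        exact ih
      · have hbj : b j ≠ 0 := (hbS j).2 ((haS j).1 haj)
        obtain ⟨g, hg, hgi, hgx, hgf⟩ := move hf (hM j) (hD.nd j) (ha j) (hb j) haj hbj
        have h1 := Ctr.conj hg hgi ih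
        have h2 : ap g (∑ i, (if i ∈ s then b i else a i)) = ∑ i, (if i ∈ insert j s then b i else a i) := by
          have h3 : ∀ (u : Fin t → (ι → F)), ap g (∑ i, u i) = ∑ i, ap g (u i) := by
            intro u
            exact map_sum (lin g) u _
          rw [h3]
          apply Finset.sum_congr rfl
          intro i _
          by_cases hij : i = j
          · subst hij
            simp [hj, hgx]
          · simp only [Finset.mem_insert, hij, false_or]
            apply hgf
            intro w hw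
            exact hD.orth i j hij _ (hmem i) w hw
        rw [h2] at h1
        exact h1
  have := key Finset.univ
  simpa using this

/-- swapping indices -/
theorem good_swap (hf : Alt f) {t : ℕ} {D : Fin t → Submodule F (ι → F)} (hD : ODec f D)
    {M : Subgroup (GL ι F)} (hM : ∀ i, ∀ x ∈ D i, Ctr f M x) {i i' j : Fin t} (hij : i ≠ j) (hi'j : i' ≠ j)
    (hsw : i ≠ i' → ∃ g ∈ M, IsIso f g ∧ (∀ x ∈ D i, ap g x ∈ D i') ∧ ∀ x ∈ D j, ap g x = x)
    (hnz : ∀ i, ∃ x ∈ D i, x ≠ 0) (h : Good f D M {i, j}) : Good f D M {i', j} := by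
  by_cases hii : i = i'
  · rw [← hii]; exact h
  obtain ⟨g, hg, hgi, hg1, hg2⟩ := hsw hii
  obtain ⟨x, hx, hx0⟩ := hnz i
  obtain ⟨y, hy, hy0⟩ := hnz j
  have key : ∀ (k l : Fin t) (u w : ι → F), k ≠ l → ∑ r, (Pi.single k u + Pi.single l w : Fin t → (ι → F)) r = u + w := by
    intro k l u w _
    simp only [Pi.add_apply, Finset.sum_add_distrib]
    simp
  have memk : ∀ (k l : Fin t) (u w : ι → F), k ≠ l → u ∈ D k → w ∈ D l →
      ∀ r, (Pi.single k u + Pi.single l w : Fin t → (ι → F)) r ∈ D r := by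
    intro k l u w hkl hu hw r
    rw [Pi.add_apply]
    by_cases h1 : r = k
    · subst h1
      rw [Pi.single_eq_same, Pi.single_eq_of_ne hkl, add_zero]
      exact hu
    · rw [Pi.single_eq_of_ne h1, zero_add]
      by_cases h2 : r = l
      · subst h2; rw [Pi.single_eq_same]; exact hw
      · rw [Pi.single_eq_of_ne h2]; exact (D r).zero_mem
  have suppk : ∀ (k l : Fin t) (u w : ι → F), k ≠ l → u ≠ 0 → w ≠ 0 →
      ∀ r, (Pi.single k u + Pi.single l w : Fin t → (ι → F)) r ≠ 0 ↔ r ∈ ({k, l} : Finset (Fin t)) := by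
    intro k l u w hkl hu hw r
    rw [Pi.add_apply, Finset.mem_insert, Finset.mem_singleton]
    by_cases h1 : r = k
    · subst h1
      rw [Pi.single_eq_same, Pi.single_eq_of_ne hkl, add_zero]
      simp [hu]
    · rw [Pi.single_eq_of_ne h1, zero_add]
      by_cases h2 : r = l
      · subst h2; rw [Pi.single_eq_same]; simp [hw]
      · rw [Pi.single_eq_of_ne h2]; simp [h1, h2]
  have h1 : Ctr f M (x + y) := by
    have := h _ (memk i j x y hij hx hy) (suppk i j x y hij hx0 hy0)
    rwa [key i j x y hij] at this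
  have h2 := Ctr.conj hg hgi h1
  rw [ap_add, hg2 y hy] at h2
  have hgx0 : ap g x ≠ 0 := by rw [Ne, ap_eq_zero]; exact hx0
  refine good_of_exists hf hD hM (memk i' j (ap g x) y hi'j (hg1 x hx) hy) (suppk i' j (ap g x) y hi'j hgx0 hy0) ?_
  rw [key i' j _ _ hi'j]
  exact h2

end Cfsg.Agent.H7.Tv
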