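import Cfsg.Agent.H7.SUGen
import Cfsg.Agent.H7.SpGen
import Cfsg.Agent.H7.Herm

set_option autoImplicit false

/-! Subfield subgroups. -/

namespace Cfsg.Agent.H7.Subf

open Module Matrix Cfsg Cfsg.Agent.H7.Tv Cfsg.Agent.H7.Witt

variable {ι : Type} [Fintype ι] [DecidableEq ι] {F : Type*} [Field F] (F₀ : Subfield F)

/-- the coordinate inclusion -/
def cv (v : ι → F₀) : ι → F := fun i => (v i : F)

variable {F₀}

theorem cv_add (u v : ι → F₀) : cv F₀ (u + v) = cv F₀ u + cv F₀ v := rfl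
theorem cv_smul (c : F₀) (v : ι → F₀) : cv F₀ (c • v) = (c : F) • cv F₀ v := rfl
theorem cv_zero : cv F₀ (0 : ι → F₀) = 0 := rfl
theorem cv_inj {u v : ι → F₀} (h : cv F₀ u = cv F₀ v) : u = v := by
  funext i
  exact Subtype.ext (congrFun h i)

theorem ap_map (g : GL ι F₀) (v : ι → F₀) :
    ap (Matrix.GeneralLinearGroup.map (F₀.subtype : F₀ →+* F) g) (cv F₀ v) = cv F₀ (ap g v) := by
  funext i
  exact (RingHom.map_mulVec (F₀.subtype : F₀ →+* F) (g : Matrix ι ι F₀) v i).symm

variable (P : GL ι F)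

/-- the rational vectors -/
def rv (v : ι → F₀) : ι → F := ap P (cv F₀ v)

theorem rv_add (u v : ι → F₀) : rv P (u + v) = rv P u + rv P v := by rw [rv, cv_add, ap_add]; rfl
theorem rv_smul (c : F₀) (v : ι → F₀) : rv P (c • v) = (c : F) • rv P v := by rw [rv, cv_smul, ap_smul]; rfl
theorem rv_zero : rv P (0 : ι → F₀) = 0 := by rw [rv, cv_zero, ap_zero]
theorem rv_inj {u v : ι → F₀} (h : rv P u = rv P v) : u = v := cv_inj (ap_injective _ h)

/-- the embedding of the subfield group -/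
noncomputable def Φ : GL ι F₀ →* GL ι F :=
  (MulAut.conj P).toMonoidHom.comp (Matrix.GeneralLinearGroup.map (F₀.subtype : F₀ →+* F))

theorem ap_Φ (g : GL ι F₀) (v : ι → F₀) : ap (Φ P g) (rv P v) = rv P (ap g v) := by
  change ap (P * _ * P⁻¹) (ap P (cv F₀ v)) = _
  rw [ap_mul, ap_mul, ap_inv_ap, ap_map]
  rfl

theorem Φ_mem (g : GL ι F₀) : Φ P g ∈ Geo.subfieldSubgroup F₀ P :=
  Subgroup.mem_map_of_mem _ (Subgroup.mem_sup_left ⟨g, rfl⟩)

/-- rational vectors span -/
theorem ext_rv {V : Type*} [AddCommGroup V] [Module F V] {f g : (ι → F) →ₗ[F] V} (h : ∀ v : ι → F₀, f (rv P v) = g (rv P v)) :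
    f = g := by
  have h1 : f.comp (lin P) = g.comp (lin P) := by
    apply LinearMap.pi_ext'
    intro i
    apply LinearMap.ext_ring
    have h2 := h (Pi.single i 1)
    have h3 : cv F₀ (Pi.single i 1 : ι → F₀) = Pi.single i 1 := by
      funext j
      by_cases hj : j = i
      · subst hj
        simp [cv]
      · simp [cv, hj]
    rw [rv, h3] at h2
    exact h2
  apply LinearMap.ext
  intro x
  have h2 := LinearMap.congr_fun h1 (ap P⁻¹ x)
  change f (ap P (ap P⁻¹ x)) = g (ap P (ap P⁻¹ x)) at h2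
  rwa [ap_ap_inv] at h2

theorem ext_gl {g h : GL ι F} (H : ∀ v : ι → F₀, ap g (rv P v) = ap h (rv P v)) : g = h := by
  apply ap_ext
  intro x
  exact LinearMap.congr_fun (ext_rv (f := lin g) (g := lin h) P H) x

/-- a criterion -/
theorem mem_subfield_of {g : GL ι F} {l : F} (hl : l ≠ 0) (h : ∀ v : ι → F₀, ∃ v' : ι → F₀, ap g (rv P v) = l • rv P v') :
    g ∈ Geo.subfieldSubgroup F₀ P := by
  classical
  choose φ hφ using h
  let A : Matrix ι ι F₀ := fun i j => φ (Pi.single j 1) i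
  have h1 : ∀ j, ap (P⁻¹ * g * P) (Pi.single j 1) = l • (fun i => (A i j : F)) := by
    intro j
    have h3 : cv F₀ (Pi.single j 1 : ι → F₀) = Pi.single j 1 := by
      funext k
      by_cases hj : k = j
      · subst hj
        simp [cv]
      · simp [cv, hj]
    have h4 := hφ (Pi.single j 1)
    rw [rv, h3] at h4
    rw [ap_mul, ap_mul, h4, ap_smul, rv, ap_inv_ap]
    rfl
  have h2 : ((P⁻¹ * g * P : GL ι F) : Matrix ι ι F) = l • A.map (F₀.subtype : F₀ →+* F) := by
    ext i j
    have h3 := congrFun (h1 j) i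
    rw [ap_def, Matrix.mulVec_single_one] at h3
    exact h3
  have hdet : A.det ≠ 0 := by
    intro h0
    have h3 : ((P⁻¹ * g * P : GL ι F) : Matrix ι ι F).det ≠ 0 := (Matrix.GeneralLinearGroup.det (P⁻¹ * g * P)).ne_zero
    apply h3
    rw [h2, Matrix.det_smul]
    have h4 := RingHom.map_det (F₀.subtype : F₀ →+* F) A
    rw [h0, map_zero] at h4
    rw [RingHom.mapMatrix_apply] at h4
    rw [← h4, mul_zero]
  let g₀ : GL ι F₀ := Matrix.GeneralLinearGroup.mkOfDetNeZero A hdet
  let c : Fˣ := Units.mk0 l hl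
  have h3 : P⁻¹ * g * P = Matrix.GeneralLinearGroup.map (F₀.subtype : F₀ →+* F) g₀ *
      (Units.map (Matrix.scalar ι : F →+* Matrix ι ι F).toMonoidHom c) := by
    apply Units.ext
    rw [h2, Units.val_mul]
    ext i j
    simp only [Matrix.smul_apply, Matrix.map_apply, Units.coe_map, smul_eq_mul]
    change l * _ = ((A.map (F₀.subtype : F₀ →+* F)) * Matrix.scalar ι l) i j
    rw [Matrix.scalar_apply, Matrix.mul_diagonal, mul_comm]
    rfl
  refine Subgroup.mem_map.2 ⟨P⁻¹ * g * P, ?_, ?_⟩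
  · rw [h3]
    exact mul_mem (Subgroup.mem_sup_left ⟨g₀, rfl⟩) (Subgroup.mem_sup_right ⟨c, rfl⟩)
  · change P * (P⁻¹ * g * P) * P⁻¹ = g
    group

theorem of_mem_subfield {g : GL ι F} (h : g ∈ Geo.subfieldSubgroup F₀ P) : ∃ l : F, l ≠ 0 ∧
    ∀ v : ι → F₀, ∃ v' : ι → F₀, ap g (rv P v) = l • rv P v' := by
  obtain ⟨k, hk, rfl⟩ := Subgroup.mem_map.1 h
  obtain ⟨a, ⟨g₀, rfl⟩, z, hz, rfl⟩ := Subgroup.mem_sup_of_normal_right.1 hk
  obtain ⟨c, hc⟩ := (Geo.mem_scalars_iff z).1 hz
  refine ⟨c, c.ne_zero, fun v => ⟨ap g₀ v, ?_⟩⟩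
  change ap (P * (_ * z) * P⁻¹) (ap P (cv F₀ v)) = _
  have h1 : ap z (cv F₀ v) = (c : F) • cv F₀ v := by
    rw [ap_def, hc, Matrix.smul_mulVec, Matrix.one_mulVec]
  rw [ap_mul, ap_mul, ap_inv_ap, ap_mul, h1, ap_smul, ap_map, ap_smul]
  rfl

/-- if all the rational points are mapped to rational points, the multipliers agree -/
theorem ratio {g : GL ι F} (h : ∀ v : ι → F₀, ∃ (l : F) (v' : ι → F₀), ap g (rv P v) = l • rv P v') :
    ∃ l : F, l ≠ 0 ∧ ∀ v : ι → F₀, ∃ v' : ι → F₀, ap g (rv P v) = l • rv P v' := by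
  classical
  by_cases hne : Nonempty ι
  swap
  · rw [not_nonempty_iff] at hne
    refine ⟨1, one_ne_zero, fun v => ⟨0, ?_⟩⟩
    funext i
    exact hne.elim i
  obtain ⟨i₀⟩ := hne
  choose l φ hφ using h
  -- functionals on the rational space extend
  have hext : ∀ α : (ι → F₀) →ₗ[F₀] F₀, ∃ β : (ι → F) →ₗ[F] F, ∀ v : ι → F₀, β (rv P v) = (α v : F) := by
    intro α
    let β₀ : (ι → F) →ₗ[F] F := ∑ i, (α (Pi.single i 1) : F) • LinearMap.proj i
    refine ⟨β₀.comp (lin P⁻¹), fun v => ?_⟩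
    change β₀ (ap P⁻¹ (ap P (cv F₀ v))) = _
    rw [ap_inv_ap]
    have h1 : α v = ∑ i, v i * α (Pi.single i 1) := by
      conv_lhs => rw [pi_eq_sum_univ' v]
      rw [map_sum]
      exact Finset.sum_congr rfl fun i _ => by rw [map_smul, smul_eq_mul]
    rw [h1]
    push_cast
    rw [LinearMap.sum_apply]
    exact Finset.sum_congr rfl fun i _ => by
      rw [LinearMap.smul_apply, LinearMap.proj_apply, smul_eq_mul, mul_comm]
      rfl
  have hne0 : ∀ v : ι → F₀, v ≠ 0 → l v ≠ 0 := by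
    intro v hv hl
    have h1 := hφ v
    rw [hl, zero_smul] at h1
    have h2 := ap_eq_zero.1 h1
    rw [← rv_zero P] at h2
    exact hv (rv_inj P h2)
  -- independent vectors
  have key : ∀ v w : ι → F₀, (∀ a b : F₀, a • v + b • w = 0 → a = 0 ∧ b = 0) → ∃ r : F₀, l w = r * l v := by
    intro v w hvw
    have hv0 : v ≠ 0 := by
      rintro rfl
      have := (hvw 1 0 (by simp)).1
      exact one_ne_zero this
    have hw0 : w ≠ 0 := by
      rintro rfl
      have := (hvw 0 1 (by simp)).2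
      exact one_ne_zero this
    -- the images are independent
    have himg : φ w ∉ Submodule.span F₀ {φ v} := by
      intro hm
      obtain ⟨c, hc⟩ := Submodule.mem_span_singleton.1 hm
      -- then w is an F-multiple of v
      have h1 : ap g (rv P w) = (l w * c * (l v)⁻¹) • ap g (rv P v) := by
        rw [hφ w, hφ v, ← hc, rv_smul, smul_smul, smul_smul, mul_assoc (l w * _), inv_mul_cancel₀ (hne0 v hv0), mul_one]
      rw [← ap_smul] at h1
      have h2 := ap_injective _ h1
      -- use a functional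
      have h3 : w ∉ Submodule.span F₀ {v} := by
        intro hm'
        obtain ⟨d, hd⟩ := Submodule.mem_span_singleton.1 hm'
        have := (hvw d (-1) (by rw [hd]; module)).2
        exact one_ne_zero (neg_eq_zero.1 this)
      obtain ⟨α, hα, hα'⟩ := exists_dual_one h3
      obtain ⟨β, hβ⟩ := hext α
      have h4 := congrArg β h2
      rw [map_smul, hβ, hβ, hα, hα' v (Submodule.mem_span_singleton_self v)] at h4
      simp at h4
    have himg' : φ v ≠ 0 := by
      intro h0
      have h1 := hφ v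
      rw [h0, rv_zero, smul_zero] at h1
      have h2 := ap_eq_zero.1 h1
      rw [← rv_zero P] at h2
      exact hv0 (rv_inj P h2)
    have himg'' : φ v ∉ Submodule.span F₀ {φ w} := by
      intro hm
      obtain ⟨c, hc⟩ := Submodule.mem_span_singleton.1 hm
      apply himg
      have hc0 : c ≠ 0 := by
        rintro rfl
        rw [zero_smul] at hc
        exact himg' hc.symm
      refine Submodule.mem_span_singleton.2 ⟨c⁻¹, ?_⟩
      rw [← hc, smul_smul, inv_mul_cancel₀ hc0, one_smul]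
    obtain ⟨α, hα, hα'⟩ := exists_dual_one himg
    obtain ⟨γ, hγ, hγ'⟩ := exists_dual_one himg''
    obtain ⟨β, hβ⟩ := hext α
    obtain ⟨δ, hδ⟩ := hext γ
    have h1 := hφ (v + w)
    rw [rv_add, ap_add, hφ v, hφ w] at h1
    have h2 := congrArg β h1
    have h3 := congrArg δ h1
    simp only [map_add, map_smul, smul_eq_mul, hβ, hδ, hα, hγ, hα' _ (Submodule.mem_span_singleton_self _),
      hγ' _ (Submodule.mem_span_singleton_self _)] at h2 h3
    push_cast at h2 h3
    simp only [mul_zero, mul_one, zero_add, add_zero] at h2 h3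
    refine ⟨α (φ (v + w)) * (γ (φ (v + w)))⁻¹, ?_⟩
    have h4 : (γ (φ (v + w)) : F) ≠ 0 := by
      intro h0
      rw [h0, mul_zero] at h3
      exact hne0 v hv0 h3
    rw [h2, h3]
    push_cast
    field_simp
  have hl₀ := hne0 (Pi.single i₀ 1) (by
    intro h0
    have := congrFun h0 i₀
    simp at this)
  refine ⟨l (Pi.single i₀ 1), hl₀, ?_⟩
  -- basis vectors
  have hbas : ∀ i : ι, ∃ w : ι → F₀, ap g (rv P (Pi.single i 1 : ι → F₀)) = l (Pi.single i₀ 1) • rv P w := by
    intro i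
    by_cases hi : i = i₀
    · subst hi
      exact ⟨_, hφ _⟩
    · obtain ⟨r, hr⟩ := key (Pi.single i₀ 1) (Pi.single i 1) (by
        intro a b hab
        have h1 := congrFun hab i₀
        have h2 := congrFun hab i
        simp [hi, Ne.symm hi] at h1 h2
        exact ⟨h1, h2⟩)
      refine ⟨r • φ (Pi.single i 1), ?_⟩
      rw [hφ, hr, rv_smul, smul_smul, mul_comm]
  choose ψ hψ using hbas
  intro v
  refine ⟨∑ i, v i • ψ i, ?_⟩
  have hrv : ∀ (s : Finset ι) (f : ι → (ι → F₀)), rv P (∑ i ∈ s, f i) = ∑ i ∈ s, rv P (f i) := by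
    intro s f
    induction s using Finset.induction_on with
    | empty => rw [Finset.sum_empty, Finset.sum_empty, rv_zero]
    | insert a s ha ih => rw [Finset.sum_insert ha, Finset.sum_insert ha, rv_add, ih]
  have hap : ∀ (s : Finset ι) (f : ι → (ι → F)), ap g (∑ i ∈ s, f i) = ∑ i ∈ s, ap g (f i) := by
    intro s f
    exact map_sum (lin g) f s
  conv_lhs => rw [pi_eq_sum_univ' v]
  rw [hrv, hap, hrv, Finset.smul_sum]
  refine Finset.sum_congr rfl fun i _ => ?_
  rw [rv_smul, ap_smul, hψ, rv_smul, smul_comm]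

/-- functionals on the rational space extend -/
theorem exists_ext (α : (ι → F₀) →ₗ[F₀] F₀) : ∃ β : (ι → F) →ₗ[F] F, ∀ v : ι → F₀, β (rv P v) = (α v : F) := by
  let β₀ : (ι → F) →ₗ[F] F := ∑ i, (α (Pi.single i 1) : F) • LinearMap.proj i
  refine ⟨β₀.comp (lin P⁻¹), fun v => ?_⟩
  change β₀ (ap P⁻¹ (ap P (cv F₀ v))) = _
  rw [ap_inv_ap]
  have h1 : α v = ∑ i, v i * α (Pi.single i 1) := by
    conv_lhs => rw [pi_eq_sum_univ' v]
    rw [map_sum]
    exact Finset.sum_congr rfl fun i _ => by rw [map_smul, smul_eq_mul]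
  rw [h1]
  push_cast
  rw [LinearMap.sum_apply]
  exact Finset.sum_congr rfl fun i _ => by
    rw [LinearMap.smul_apply, LinearMap.proj_apply, smul_eq_mul, mul_comm]
    rfl

theorem not_rational {a b : ι → F₀} (hab : LinearIndependent F₀ ![a, b]) {w : F} (hw : w ∉ F₀) (l : F) (v : ι → F₀) :
    rv P a + w • rv P b ≠ l • rv P v := by
  rw [LinearIndependent.pair_iff] at hab
  have h1 : b ∉ Submodule.span F₀ {a} := by
    intro h
    obtain ⟨c, hc⟩ := Submodule.mem_span_singleton.1 h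
    have := (hab c (-1) (by rw [hc]; module)).2
    exact one_ne_zero (neg_eq_zero.1 this)
  have h2 : a ∉ Submodule.span F₀ {b} := by
    intro h
    obtain ⟨c, hc⟩ := Submodule.mem_span_singleton.1 h
    have := (hab (-1) c (by rw [hc]; module)).1
    exact one_ne_zero (neg_eq_zero.1 this)
  obtain ⟨α, hα, hα'⟩ := exists_dual_one h1
  obtain ⟨γ, hγ, hγ'⟩ := exists_dual_one h2
  obtain ⟨β, hβ⟩ := exists_ext P α
  obtain ⟨δ, hδ⟩ := exists_ext P γ
  intro h
  have h3 := congrArg β h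
  have h4 := congrArg δ h
  simp only [map_add, map_smul, smul_eq_mul, hβ, hδ, hα, hγ, hα' _ (Submodule.mem_span_singleton_self _),
    hγ' _ (Submodule.mem_span_singleton_self _)] at h3 h4
  push_cast at h3 h4
  simp only [mul_zero, mul_one, zero_add, add_zero] at h3 h4
  apply hw
  have h5 : (γ v : F) ≠ 0 := by
    intro h0
    rw [h0, mul_zero] at h4
    exact one_ne_zero h4
  have h6 : l ≠ 0 := by
    rintro rfl
    rw [zero_mul] at h4
    exact one_ne_zero h4
  have h7 : w = ((α v * (γ v)⁻¹ : F₀) : F) := by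
    push_cast
    rw [h3]
    have h8 : (γ v : F) = l⁻¹ := by field_simp; rw [mul_comm]; exact h4.symm
    rw [h8, inv_inv, mul_comm]
  rw [h7]
  exact SetLike.coe_mem _

theorem mem_subfield_of_points {g : GL ι F} (h : ∀ v : ι → F₀, ∃ (l : F) (v' : ι → F₀), ap g (rv P v) = l • rv P v') :
    g ∈ Geo.subfieldSubgroup F₀ P := by
  obtain ⟨l, hl, h'⟩ := ratio P h
  exact mem_subfield_of P hl h'

end Cfsg.Agent.H7.Subf
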