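import Cfsg.Agent.H7.FieldSub

/-!
Stabilisers of tensor products.
-/

set_option autoImplicit false
set_option linter.unusedSectionVars false

namespace Cfsg.Agent.H7.Tps

open Matrix Module
open scoped MatrixGroups Kronecker
open Cfsg Cfsg.Geo

section
variable {ι : Type} [Fintype ι] [DecidableEq ι] {F : Type*} [Field F] {n₁ n₂ : ℕ}

/-- the algebra isomorphism attached to a tensor decomposition -/
def Th (e : ι ≃ Fin n₁ × Fin n₂) (P : GL ι F) (X : Matrix (Fin n₁ × Fin n₂) (Fin n₁ × Fin n₂) F) : Matrix ι ι F :=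
  (P : Matrix ι ι F) * Matrix.reindex e.symm e.symm X * ((P⁻¹ : GL ι F) : Matrix ι ι F)

variable (e : ι ≃ Fin n₁ × Fin n₂) (P : GL ι F)

theorem P_inv : ((P⁻¹ : GL ι F) : Matrix ι ι F) * (P : Matrix ι ι F) = 1 := by
  rw [← Units.val_mul, inv_mul_cancel, Units.val_one]

theorem P_inv' : (P : Matrix ι ι F) * ((P⁻¹ : GL ι F) : Matrix ι ι F) = 1 := by
  rw [← Units.val_mul, mul_inv_cancel, Units.val_one]

theorem Th_mul (X Y) : Th e P (X * Y) = Th e P X * Th e P Y := by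
  have h1 : Matrix.reindex e.symm e.symm (X * Y) = Matrix.reindex e.symm e.symm X * Matrix.reindex e.symm e.symm Y :=
    map_mul (Matrix.reindexAlgEquiv F F e.symm) X Y
  rw [Th, Th, Th, h1]
  calc _ = (P : Matrix ι ι F) * Matrix.reindex e.symm e.symm X * 1 * Matrix.reindex e.symm e.symm Y * ((P⁻¹ : GL ι F) : Matrix ι ι F) := by
        simp only [mul_assoc, mul_one, one_mul]
    _ = _ := by
        rw [← P_inv P]
        simp only [mul_assoc]

theorem Th_one : Th e P 1 = 1 := by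
  have h1 : Matrix.reindex e.symm e.symm (1 : Matrix (Fin n₁ × Fin n₂) (Fin n₁ × Fin n₂) F) = 1 :=
    map_one (Matrix.reindexAlgEquiv F F e.symm)
  rw [Th, h1, mul_one, P_inv']

theorem Th_add (X Y) : Th e P (X + Y) = Th e P X + Th e P Y := by
  have h1 : Matrix.reindex e.symm e.symm (X + Y) = Matrix.reindex e.symm e.symm X + Matrix.reindex e.symm e.symm Y := rfl
  rw [Th, Th, Th, h1, mul_add, add_mul]

theorem Th_smul (c : F) (X) : Th e P (c • X) = c • Th e P X := by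
  have h1 : Matrix.reindex e.symm e.symm (c • X) = c • Matrix.reindex e.symm e.symm X := rfl
  rw [Th, Th, h1, mul_smul_comm, smul_mul_assoc]

theorem Th_zero : Th e P 0 = 0 := by
  have := Th_smul e P 0 0
  rwa [zero_smul, zero_smul] at this

theorem Th_inj : Function.Injective (Th e P) := by
  intro X Y h
  have h1 : ((P⁻¹ : GL ι F) : Matrix ι ι F) * Th e P X * P = ((P⁻¹ : GL ι F) : Matrix ι ι F) * Th e P Y * P := by rw [h]
  have h2 : ∀ Z, ((P⁻¹ : GL ι F) : Matrix ι ι F) * Th e P Z * P = Matrix.reindex e.symm e.symm Z := by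
    intro Z
    rw [Th]
    calc _ = (((P⁻¹ : GL ι F) : Matrix ι ι F) * P) * Matrix.reindex e.symm e.symm Z * (((P⁻¹ : GL ι F) : Matrix ι ι F) * P) := by
          simp only [mul_assoc]
      _ = _ := by rw [P_inv, one_mul, mul_one]
  rw [h2, h2] at h1
  exact (Matrix.reindex e.symm e.symm).injective h1

theorem mem_tps {g : GL ι F} : g ∈ tensorProductSubgroup n₁ n₂ e P ↔
    ∃ (a : GL (Fin n₁) F) (b : GL (Fin n₂) F), (g : Matrix ι ι F) = Th e P ((a : Matrix (Fin n₁) (Fin n₁) F) ⊗ₖ (b : Matrix (Fin n₂) (Fin n₂) F)) := by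
  constructor
  · rintro ⟨_, ⟨k, ⟨a, b, hk⟩, rfl⟩, rfl⟩
    refine ⟨a, b, ?_⟩
    rw [← hk]
    rfl
  · rintro ⟨a, b, h⟩
    let k : GL (Fin n₁ × Fin n₂) F := ⟨(a : Matrix (Fin n₁) (Fin n₁) F) ⊗ₖ (b : Matrix (Fin n₂) (Fin n₂) F),
      ((a⁻¹ : GL (Fin n₁) F) : Matrix (Fin n₁) (Fin n₁) F) ⊗ₖ ((b⁻¹ : GL (Fin n₂) F) : Matrix (Fin n₂) (Fin n₂) F), by
        rw [← Matrix.mul_kronecker_mul, P_inv', P_inv', Matrix.one_kronecker_one], by
        rw [← Matrix.mul_kronecker_mul, P_inv, P_inv, Matrix.one_kronecker_one]⟩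
    refine ⟨_, ⟨k, ⟨a, b, rfl⟩, rfl⟩, ?_⟩
    apply Units.ext
    rw [h]
    rfl

end

end Cfsg.Agent.H7.Tps
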