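import Cfsg.Agent.H7.FormBasis
import Cfsg.Prelude

/-!
The parity of the intersections of maximal totally singular subspaces.
-/

set_option autoImplicit false
set_option linter.unusedSectionVars false

namespace Cfsg.Agent.H7.TwoFam

open Module
open Cfsg Cfsg.Agent.H7.FormBasis

section
variable {F V : Type*} [Field F] [AddCommGroup V] [Module F V] [FiniteDimensional F V]

theorem alt_rank {B : V →ₗ[F] V →ₗ[F] F} (hA : ∀ x, B x x = 0) :
    ∃ r, finrank F V = 2 * r + finrank F (LinearMap.ker B) := by
  obtain ⟨m, k, b, hef, hee, hff, hr⟩ := exists_symplectic_basis hA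
  have hsk : ∀ x y, B x y = - B y x := by
    intro x y
    have h := hA (x + y)
    simp only [map_add, LinearMap.add_apply, hA, zero_add, add_zero] at h
    exact eq_neg_of_add_eq_zero_right h
  refine ⟨m, ?_⟩
  rw [Module.finrank_eq_card_basis b]
  simp only [Fintype.card_sum, Fintype.card_fin]
  have h1 : k ≤ finrank F (LinearMap.ker B) := by
    have hli : LinearIndependent F (fun j : Fin k => b (Sum.inr j)) :=
      b.linearIndependent.comp Sum.inr Sum.inr_injective
    have h2 := finrank_span_eq_card hli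
    rw [Fintype.card_fin] at h2
    rw [← h2]
    apply Submodule.finrank_mono
    rw [Submodule.span_le]
    rintro _ ⟨j, rfl⟩
    exact LinearMap.mem_ker.2 (LinearMap.ext fun v => hr j v)
  have h2 : finrank F (LinearMap.ker B) ≤ k := by
    let φ : LinearMap.ker B →ₗ[F] (Fin k → F) :=
      (LinearMap.funLeft F F (Sum.inr : Fin k → (Fin m ⊕ Fin m) ⊕ Fin k)) ∘ₗ b.equivFun.toLinearMap ∘ₗ (LinearMap.ker B).subtype
    have hφ : Function.Injective φ := by
      rw [injective_iff_map_eq_zero]
      intro v hv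
      apply Subtype.ext
      have hv' : ∀ x, B v.1 x = 0 := fun x => by rw [LinearMap.mem_ker.1 v.2]; rfl
      apply b.ext_elem
      rintro ((i | i) | j)
      · have h3 := hv' (b (Sum.inl (Sum.inr i)))
        rw [← b.sum_repr v.1, map_sum, LinearMap.sum_apply, Finset.sum_eq_single (Sum.inl (Sum.inl i))] at h3
        · simpa [hef] using h3
        · rintro ((i' | i') | j') _ hne
          · have : i' ≠ i := fun h => hne (by rw [h])
            rw [map_smul, LinearMap.smul_apply, hef, if_neg this, smul_zero]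
          · rw [map_smul, LinearMap.smul_apply, hff, smul_zero]
          · rw [map_smul, LinearMap.smul_apply, hr, smul_zero]
        · intro h; exact absurd (Finset.mem_univ _) h
      · have h3 := hv' (b (Sum.inl (Sum.inl i)))
        rw [← b.sum_repr v.1, map_sum, LinearMap.sum_apply, Finset.sum_eq_single (Sum.inl (Sum.inr i))] at h3
        · rw [map_smul, LinearMap.smul_apply, hsk, hef] at h3
          simpa using h3
        · rintro ((i' | i') | j') _ hne
          · rw [map_smul, LinearMap.smul_apply, hee, smul_zero]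
          · have : i ≠ i' := fun h => hne (by rw [h])
            rw [map_smul, LinearMap.smul_apply, hsk, hef, if_neg this, neg_zero, smul_zero]
          · rw [map_smul, LinearMap.smul_apply, hr, smul_zero]
        · intro h; exact absurd (Finset.mem_univ _) h
      · have h3 := congrFun hv j
        simpa [φ] using h3
    have := LinearMap.finrank_le_finrank_of_injective hφ
    rwa [Module.finrank_fintype_fun_eq_card, Fintype.card_fin] at this
  omega

/-- the parity theorem -/
theorem parity {Q : V → F} {B : LinearMap.BilinForm F V} (hQ : ∀ x y, Q (x + y) = Q x + Q y + B x y)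
    (hs : ∀ x y, B x y = B y x) (hnd : B.Nondegenerate) {m : ℕ} (hV : finrank F V = 2 * m)
    {U W X : Submodule F V} (hU : finrank F U = m) (hU0 : ∀ x ∈ U, Q x = 0)
    (hW : finrank F W = m) (hW0 : ∀ x ∈ W, Q x = 0) (hX : finrank F X = m) (hX0 : ∀ x ∈ X, Q x = 0) :
    Even ((m - finrank F (U ⊓ W : Submodule F V)) + (m - finrank F (W ⊓ X : Submodule F V)) +
      (m - finrank F (U ⊓ X : Submodule F V))) := by
  have hB0 : ∀ {A : Submodule F V}, (∀ x ∈ A, Q x = 0) → ∀ x ∈ A, ∀ y ∈ A, B x y = 0 := by
    intro A hA x hx y hy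
    have := hQ x y
    rw [hA _ (A.add_mem hx hy), hA x hx, hA y hy] at this
    simpa using this.symm
  have hrefl : B.IsRefl := fun x y h => by rw [hs]; exact h
  have hpp : ∀ A : Submodule F V, B.orthogonal (B.orthogonal A) = A := fun A =>
    LinearMap.BilinForm.orthogonal_orthogonal hnd hrefl A
  have hdim : ∀ A : Submodule F V, finrank F (B.orthogonal A) + finrank F A = 2 * m := by
    intro A
    have h1 := LinearMap.BilinForm.finrank_orthogonal hnd A
    have h2 := Submodule.finrank_le A
    rw [hV] at h1 h2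
    omega
  have hself : ∀ {A : Submodule F V}, finrank F A = m → (∀ x ∈ A, Q x = 0) → B.orthogonal A = A := by
    intro A hA hA0
    symm
    apply Submodule.eq_of_le_of_finrank_le
    · intro x hx
      rw [LinearMap.BilinForm.mem_orthogonal_iff]
      intro y hy
      exact hB0 hA0 y hy x hx
    · have := hdim A; omega
  have hUo := hself hU hU0
  have hWo := hself hW hW0
  have hXo := hself hX hX0
  -- projection
  obtain ⟨π, hπU, hπW⟩ : ∃ π : V →ₗ[F] V, (∀ v, π v ∈ U) ∧ ∀ y ∈ U ⊔ W, y - π y ∈ W := by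
    obtain ⟨U', hU'⟩ := Submodule.exists_isCompl ((U ⊓ W).comap U.subtype)
    let U1 := U'.map U.subtype
    have hU1 : U1 ≤ U := by
      rintro _ ⟨x, -, rfl⟩
      exact x.2
    have hdec : ∀ u ∈ U, ∃ t ∈ U ⊓ W, ∃ u' ∈ U1, u = t + u' := by
      intro u hu
      have h1 : (⟨u, hu⟩ : U) ∈ (U ⊓ W).comap U.subtype ⊔ U' := by rw [hU'.sup_eq_top]; trivial
      obtain ⟨t, ht, u', hu', h2⟩ := Submodule.mem_sup.1 h1
      exact ⟨t.1, ht, u'.1, ⟨u', hu', rfl⟩, (congrArg Subtype.val h2).symm⟩
    have hdis : Disjoint W U1 := by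
      rw [Submodule.disjoint_def]
      rintro _ hx ⟨x, hx', rfl⟩
      have h1 : x ∈ (U ⊓ W).comap U.subtype ⊓ U' := ⟨⟨x.2, hx⟩, hx'⟩
      rw [hU'.inf_eq_bot, Submodule.mem_bot] at h1
      rw [h1]; rfl
    obtain ⟨W1, hWW1, hc⟩ := hdis.exists_isCompl
    refine ⟨U1.subtype ∘ₗ U1.projectionOnto W1 hc.symm, fun v => hU1 (Subtype.property _), ?_⟩
    intro y hy
    obtain ⟨u, hu, w, hw, rfl⟩ := Submodule.mem_sup.1 hy
    obtain ⟨t, ht, u', hu', rfl⟩ := hdec u hu
    have h1 : U1.projectionOnto W1 hc.symm (t + u' + w) = ⟨u', hu'⟩ := by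
      have h2 : t + u' + w = (⟨u', hu'⟩ : U1).1 + (t + w) := by
        show t + u' + w = u' + (t + w)
        abel
      rw [h2, map_add, Submodule.projectionOnto_apply_left,
        (Submodule.projectionOnto_apply_eq_zero_iff (p := U1) (q := W1) hc.symm).2 (W1.add_mem (hWW1 ht.2) (hWW1 hw)), add_zero]
    rw [LinearMap.comp_apply, h1]
    show t + u' + w - u' ∈ W
    have : t + u' + w - u' = t + w := by abel
    rw [this]
    exact W.add_mem ht.2 hw
  -- the alternating form
  set Y : Submodule F V := (U ⊔ W) ⊓ X with hY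
  have hYo : B.orthogonal Y = (U ⊓ W) ⊔ X := by
    have h1 : B.orthogonal ((U ⊓ W) ⊔ X) = Y := by
      have h2 : B.orthogonal (U ⊓ W) = U ⊔ W := by
        rw [← hpp (U ⊔ W)]
        congr 1
        apply le_antisymm
        · intro x hx
          rw [LinearMap.BilinForm.mem_orthogonal_iff]
          intro y hy
          obtain ⟨u, hu, w, hw, rfl⟩ := Submodule.mem_sup.1 hy
          show B (u + w) x = 0
          rw [map_add, LinearMap.add_apply, hB0 hU0 u hu x hx.1, hB0 hW0 w hw x hx.2, add_zero]
        · refine le_inf ?_ ?_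
          · rw [← hUo]; exact LinearMap.BilinForm.orthogonal_le (by rw [hUo]; exact le_sup_left)
          · rw [← hWo]; exact LinearMap.BilinForm.orthogonal_le (by rw [hWo]; exact le_sup_right)
      rw [hY, ← h2]
      apply le_antisymm
      · refine le_inf (LinearMap.BilinForm.orthogonal_le le_sup_left) ?_
        conv_rhs => rw [← hXo]
        exact LinearMap.BilinForm.orthogonal_le le_sup_right
      · intro x hx
        rw [LinearMap.BilinForm.mem_orthogonal_iff]
        intro y hy
        obtain ⟨t, ht, z, hz, rfl⟩ := Submodule.mem_sup.1 hy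
        show B (t + z) x = 0
        have h3 : B t x = 0 := (LinearMap.BilinForm.mem_orthogonal_iff.1 hx.1) t ht
        rw [map_add, LinearMap.add_apply, h3, hB0 hX0 z hz x hx.2, add_zero]
    rw [← h1, hpp]
  let β : Y →ₗ[F] Y →ₗ[F] F := (B.compl₁₂ (π ∘ₗ Y.subtype) Y.subtype)
  have hβ : ∀ y y' : Y, β y y' = B (π y.1) y'.1 := fun y y' => rfl
  have halt : ∀ y, β y y = 0 := by
    intro y
    rw [hβ]
    have h1 : B (π y.1) (y.1 - π y.1) = 0 := by
      have h2 := hQ (π y.1) (y.1 - π y.1)
      rw [add_sub_cancel, hX0 _ y.2.2, hU0 _ (hπU _), hW0 _ (hπW _ y.2.1)] at h2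
      simpa using h2.symm
    rw [map_sub, hB0 hU0 _ (hπU _) _ (hπU _), sub_zero] at h1
    exact h1
  have hker : (LinearMap.ker β).map Y.subtype = (U ⊓ X) ⊔ (W ⊓ X) := by
    apply le_antisymm
    · rintro _ ⟨y, hy, rfl⟩
      have h1 : π y.1 ∈ (U ⊓ W) ⊔ X := by
        rw [← hYo, LinearMap.BilinForm.mem_orthogonal_iff]
        intro y' hy'
        show B y' (π y.1) = 0
        rw [hs]
        have := LinearMap.congr_fun (LinearMap.mem_ker.1 hy) ⟨y', hy'⟩
        exact this
      obtain ⟨t, ht, x, hx, h2⟩ := Submodule.mem_sup.1 h1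
      have hxU : x ∈ U := by
        have : x = π y.1 - t := by rw [← h2]; abel
        rw [this]; exact U.sub_mem (hπU _) ht.1
      refine Submodule.mem_sup.2 ⟨x, ⟨hxU, hx⟩, y.1 - x, ⟨?_, X.sub_mem y.2.2 hx⟩, by simp⟩
      have : y.1 - x = t + (y.1 - π y.1) := by rw [← h2]; abel
      rw [this]
      exact W.add_mem ht.2 (hπW _ y.2.1)
    · refine sup_le ?_ ?_
      · rintro y ⟨hyU, hyX⟩
        have hyY : y ∈ Y := ⟨Submodule.mem_sup_left hyU, hyX⟩
        refine ⟨⟨y, hyY⟩, ?_, rfl⟩
        rw [SetLike.mem_coe, LinearMap.mem_ker]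
        apply LinearMap.ext
        intro y'
        rw [hβ]
        show B (π y) y'.1 = 0
        have h1 : π y ∈ B.orthogonal Y := by
          rw [hYo]
          have : π y = - (y - π y) + y := by abel
          rw [this]
          have h2 := hπW y hyY.1
          exact Submodule.add_mem_sup (Submodule.neg_mem _ ⟨U.sub_mem hyU (hπU _), h2⟩) hyX
        rw [hs]
        exact (LinearMap.BilinForm.mem_orthogonal_iff.1 h1) y'.1 y'.2
      · rintro y ⟨hyW, hyX⟩
        have hyY : y ∈ Y := ⟨Submodule.mem_sup_right hyW, hyX⟩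
        refine ⟨⟨y, hyY⟩, ?_, rfl⟩
        rw [SetLike.mem_coe, LinearMap.mem_ker]
        apply LinearMap.ext
        intro y'
        rw [hβ]
        show B (π y) y'.1 = 0
        have h1 : π y ∈ B.orthogonal Y := by
          rw [hYo]
          refine Submodule.mem_sup_left ⟨hπU _, ?_⟩
          have : π y = y - (y - π y) := by abel
          rw [this]
          exact W.sub_mem hyW (hπW y hyY.1)
        rw [hs]
        exact (LinearMap.BilinForm.mem_orthogonal_iff.1 h1) y'.1 y'.2
  obtain ⟨r, hr⟩ := alt_rank halt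
  have e1 : finrank F (LinearMap.ker β) = finrank F ((U ⊓ X) ⊔ (W ⊓ X) : Submodule F V) := by
    rw [← hker]
    exact (LinearEquiv.finrank_eq (Submodule.equivMapOfInjective _ Y.injective_subtype _))
  have e2 := Submodule.finrank_sup_add_finrank_inf_eq (U ⊓ X) (W ⊓ X)
  have e3 : (U ⊓ X) ⊓ (W ⊓ X) = (U ⊓ W) ⊓ X := by
    ext v; simp only [Submodule.mem_inf]; tauto
  rw [e3] at e2
  have e4 := Submodule.finrank_sup_add_finrank_inf_eq (U ⊓ W) X
  have e5 := hdim Y
  rw [hYo] at e5
  have e6 : finrank F (U ⊓ W : Submodule F V) ≤ m := by rw [← hU]; exact Submodule.finrank_mono inf_le_left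
  have e7 : finrank F (W ⊓ X : Submodule F V) ≤ m := by rw [← hW]; exact Submodule.finrank_mono inf_le_left
  have e8 : finrank F (U ⊓ X : Submodule F V) ≤ m := by rw [← hU]; exact Submodule.finrank_mono inf_le_left
  rw [Nat.even_iff]
  omega

end

end Cfsg.Agent.H7.TwoFam
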