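import Cfsg.Agent.H7.Dick3
import Cfsg.Agent.H7.OrthStd3
import Cfsg.Agent.H7.FormBasis

/-!
Maximal totally singular subspaces of plus type spaces.
-/

set_option autoImplicit false
set_option linter.unusedSectionVars false

namespace Cfsg.Agent.H7.Orth

open Matrix Module
open scoped MatrixGroups
open Cfsg Cfsg.Geo Cfsg.Agent.H7.Witt Cfsg.Agent.H7.Tv

section
variable {ι : Type} [Fintype ι] [DecidableEq ι] {F : Type*} [Field F] [Finite F]
variable {Q : (ι → F) → F} {B : (ι → F) →ₗ[F] (ι → F) →ₗ[F] F}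

theorem two_max (hQ : Qf Q B) {P W : Submodule F (ι → F)} (hP : ∀ a ∈ P, Q a = 0)
    (hd : 2 * finrank F P = Fintype.card ι) (hW : ∀ a ∈ W, Q a = 0) (hdW : 2 * (finrank F W + 1) = Fintype.card ι) :
    ∃ e f, Q e = 0 ∧ Q f = 0 ∧ B e f = 1 ∧ (∀ w ∈ W, B w e = 0) ∧ (∀ w ∈ W, B w f = 0) ∧
      ∀ v, (∀ w ∈ W, B w v = 0) → ∃ w ∈ W, v = w + B f v • e + B e v • f := by
  obtain ⟨A, hA, hdA, hWA⟩ := exists_max_ts hQ hP hd hW
  obtain ⟨C, hPS⟩ := exists_ps hQ hA hdA
  have hAA := ts_ortho hQ hA
  obtain ⟨e, he, heW⟩ : ∃ e ∈ A, e ∉ W := by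
    by_contra hcon
    push Not at hcon
    have := Submodule.finrank_mono (show A ≤ W from hcon)
    omega
  obtain ⟨f, hf, hfe, hfW⟩ := hPS.exists_dual hQ hWA he heW
  have hef : B e f = 1 := by rw [hQ.symm]; exact hfe
  have hQe := hA e he
  have hQf := hPS.tsC f hf
  -- `W` and `e` span `A`
  have hWe : W ⊔ Submodule.span F {e} = A := by
    apply Submodule.eq_of_le_of_finrank_le (sup_le hWA (by rw [Submodule.span_singleton_le_iff_mem]; exact he))
    have h1 : W < W ⊔ Submodule.span F {e} := by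
      refine lt_of_le_of_ne le_sup_left (fun h => heW ?_)
      rw [h]; exact Submodule.mem_sup_right (Submodule.mem_span_singleton_self e)
    have := Submodule.finrank_lt_finrank_of_lt h1
    omega
  refine ⟨e, f, hQe, hQf, hef, fun w hw => hAA w (hWA hw) e he, fun w hw => by rw [hQ.symm]; exact hfW w hw, ?_⟩
  intro v hv
  refine ⟨v - B f v • e - B e v • f, ?_, by module⟩
  have h1 : v - B f v • e - B e v • f ∈ A := by
    rw [← ts_prp hQ hA hdA, ← hWe, mem_prp_sup, mem_prp_one]
    refine ⟨?_, ?_⟩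
    · rw [mem_prp]
      intro w hw
      rw [map_sub, map_sub, map_smul, map_smul, hv w hw, hAA w (hWA hw) e he, hQ.symm w f, hfW w hw]
      simp
    · rw [map_sub, map_sub, map_smul, map_smul, hAA e he e he, hef]
      simp
  rw [← hWe] at h1
  obtain ⟨w, hw, z, hz, h2⟩ := Submodule.mem_sup.1 h1
  obtain ⟨l, rfl⟩ := Submodule.mem_span_singleton.1 hz
  have h3 : B f (v - B f v • e - B e v • f) = l := by
    rw [← h2, map_add, map_smul, hfe, hfW w hw]; simp
  rw [map_sub, map_sub, map_smul, map_smul, hfe, hQ.self, hQf] at h3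
  have h4 : l = 0 := by rw [← h3]; simp
  rw [← h2, h4, zero_smul, add_zero]
  exact hw

theorem two_max_card (hQ : Qf Q B) {m : ℕ} (hm : 2 * m = Fintype.card ι) {P W : Submodule F (ι → F)} (hP : ∀ a ∈ P, Q a = 0)
    (hd : 2 * finrank F P = Fintype.card ι) (hW : ∀ a ∈ W, Q a = 0) (hdW : finrank F W + 1 = m) :
    Nat.card {A : Submodule F (ι → F) // finrank F A = m ∧ (∀ w ∈ A, Q w = 0) ∧ W ≤ A} = 2 := by
  obtain ⟨e, f, hQe, hQf, hef, hWe, hWf, hv⟩ := two_max hQ hP hd hW (by omega)
  have hfe : B f e = 1 := by rw [hQ.symm]; exact hef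
  have heW : e ∉ W := fun h => by
    have := hWf e h
    rw [hef] at this; exact one_ne_zero this
  have hfW : f ∉ W := fun h => by
    have := hWe f h
    rw [hfe] at this; exact one_ne_zero this
  have hdim : ∀ x, x ∉ W → finrank F (W ⊔ Submodule.span F {x} : Submodule F (ι → F)) = m := by
    intro x hx
    have h3 := Submodule.finrank_sup_add_finrank_inf_eq W (Submodule.span F {x})
    have h4 : W ⊓ Submodule.span F {x} = ⊥ := by
      rw [Submodule.eq_bot_iff]
      rintro v ⟨hv, hv'⟩
      obtain ⟨l, rfl⟩ := Submodule.mem_span_singleton.1 hv'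
      by_cases hl : l = 0
      · rw [hl, zero_smul]
      · exact absurd ((W.smul_mem_iff hl).1 hv) hx
    have h6 : finrank F (Submodule.span F {x}) = 1 := finrank_span_singleton (fun h => hx (by rw [h]; exact zero_mem _))
    rw [h4, finrank_bot] at h3
    omega
  have hts : ∀ x, Q x = 0 → (∀ w ∈ W, B w x = 0) → ∀ v ∈ W ⊔ Submodule.span F {x}, Q v = 0 := by
    intro x hx hwx v hv
    obtain ⟨w, hw, z, hz, rfl⟩ := Submodule.mem_sup.1 hv
    obtain ⟨l, rfl⟩ := Submodule.mem_span_singleton.1 hz
    rw [hQ.add, hQ.smul, hx, hW w hw, map_smul, hwx w hw]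
    simp
  rw [Nat.card_eq_two_iff]
  refine ⟨⟨W ⊔ Submodule.span F {e}, hdim e heW, hts e hQe hWe, le_sup_left⟩,
    ⟨W ⊔ Submodule.span F {f}, hdim f hfW, hts f hQf hWf, le_sup_left⟩, ?_, ?_⟩
  · intro h
    have h1 : W ⊔ Submodule.span F {e} = W ⊔ Submodule.span F {f} := congrArg Subtype.val h
    have h2 : e ∈ W ⊔ Submodule.span F {f} := by
      rw [← h1]; exact Submodule.mem_sup_right (Submodule.mem_span_singleton_self e)
    have h3 := ts_ortho hQ (hts f hQf hWf) e h2 f (Submodule.mem_sup_right (Submodule.mem_span_singleton_self f))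
    rw [hef] at h3
    exact one_ne_zero h3
  · rw [Set.eq_univ_iff_forall]
    rintro ⟨A, hdA, hA, hWA⟩
    obtain ⟨x, hx, hxW⟩ : ∃ e ∈ A, e ∉ W := by
      by_contra hcon
      push Not at hcon
      have := Submodule.finrank_mono (show A ≤ W from hcon)
      omega
    obtain ⟨w, hw, h1⟩ := hv x (fun w hw => ts_ortho hQ hA w (hWA hw) x hx)
    have h2 : B f x * B e x = 0 := by
      have h3 : Q x = 0 := hA x hx
      rw [h1, hQ.add, hQ.add, hW w hw, hQ.smul, hQ.smul, hQe, hQf] at h3
      simp only [map_add, map_smul, LinearMap.add_apply, LinearMap.smul_apply, hef, hWe w hw, hWf w hw, smul_eq_mul] at h3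
      linear_combination h3
    have hfin : ∀ (l : F) (y : ι → F), y ∉ W → x = w + l • y → A = W ⊔ Submodule.span F {y} := by
      intro l y hy h
      symm
      have hl : l ≠ 0 := by
        rintro rfl
        rw [zero_smul, add_zero] at h
        exact hxW (h ▸ hw)
      have h4 : y ∈ A := by
        have h5 : l • y ∈ A := by
          have : l • y = x - w := by rw [h]; abel
          rw [this]
          exact A.sub_mem hx (hWA hw)
        exact (A.smul_mem_iff hl).1 h5
      apply Submodule.eq_of_le_of_finrank_le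
      · exact sup_le hWA (by rw [Submodule.span_singleton_le_iff_mem]; exact h4)
      · rw [hdim y hy, hdA]
    rcases mul_eq_zero.1 h2 with h3 | h3
    · right
      rw [Set.mem_singleton_iff, Subtype.mk.injEq]
      rw [h3, zero_smul, add_zero] at h1
      exact hfin _ f hfW h1
    · left
      rw [Subtype.mk.injEq]
      rw [h3, zero_smul, add_zero] at h1
      exact hfin _ e heW h1

end

section
variable {F : Type*} [Field F]

/-- the standard totally singular subspace -/
def plm (m : ℕ) (F : Type*) [Field F] : (Fin m → F) →ₗ[F] (Fin m ⊕ Fin m → F) where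
  toFun v := Sum.elim v 0
  map_add' v w := by ext (i | i) <;> simp
  map_smul' a v := by ext (i | i) <;> simp

theorem plm_inj (m : ℕ) : Function.Injective (plm m F) := by
  intro v w h
  funext i
  exact congrFun h (Sum.inl i)

theorem plm_q (m : ℕ) : ∀ v ∈ LinearMap.range (plm m F), quadFormPlus m F v = 0 := by
  rintro _ ⟨v, rfl⟩
  simp [quadFormPlus, plm]

theorem plm_rank (m : ℕ) : finrank F (LinearMap.range (plm m F)) = m := by
  rw [LinearMap.finrank_range_of_inj (plm_inj m), Module.finrank_fintype_fun_eq_card, Fintype.card_fin]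

end

end Cfsg.Agent.H7.Orth
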