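import Cfsg.Agent.H7.UniStd

set_option autoImplicit false
set_option linter.unusedSectionVars false

/-! Maximality of the stabilisers of subspaces in special unitary groups. -/

namespace Cfsg.Agent.H7.UTv

open Module Matrix Cfsg Cfsg.Agent.H7.Tv Cfsg.Agent.H7.Witt

variable {ι : Type} [Fintype ι] [DecidableEq ι] {F : Type*} [Field F] [Finite F]
variable {σ : F →+* F} {B : (ι → F) →ₛₗ[σ] (ι → F) →ₗ[F] F}

theorem hilbert90 (hB : Hm B) {d : F} (hd : d * σ d = 1) : ∃ l : F, l ≠ 0 ∧ l * (σ l)⁻¹ = d := by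
  obtain ⟨x, hx⟩ : ∃ x, x + d * σ x ≠ 0 := by
    by_contra hcon
    push Not at hcon
    apply hB.ne
    ext a
    have h1 := hcon 1
    have h2 := hcon a
    rw [map_one, mul_one] at h1
    rw [RingHom.id_apply]
    linear_combination -h2 + σ a * h1
  have hd0 : d ≠ 0 := by rintro rfl; rw [zero_mul] at hd; exact zero_ne_one hd
  refine ⟨x + d * σ x, hx, ?_⟩
  have h1 : d * σ (x + d * σ x) = x + d * σ x := by
    rw [map_add, map_mul, hB.inv]
    linear_combination x * hd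
  have h2 : σ (x + d * σ x) ≠ 0 := (map_ne_zero σ).2 hx
  nth_rewrite 1 [← h1]
  rw [mul_assoc, mul_inv_cancel₀ h2, mul_one]

theorem exists_dia (hB : Hm B) {e f : ι → F} (he : B e e = 0) (hf : B f f = 0) (hef : B e f = 1) {l : F} (hl : l ≠ 0) :
    ∃ h : GL ι F, Isom B h ∧ (∀ x, ap h x = x + ((l - 1) * B f x) • e + (((σ l)⁻¹ - 1) * B e x) • f) ∧
      LinearMap.det (lin h) = l * (σ l)⁻¹ := by
  have hfe : B f e = 1 := by rw [← hB.symm, hef, map_one]
  have hσl : σ l ≠ 0 := (map_ne_zero σ).2 hl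
  obtain ⟨D1, hD1⟩ := exists_gtv (u := e) (l := (l - 1) • B f) (by
    rw [LinearMap.smul_apply, hfe, smul_eq_mul, mul_one, add_sub_cancel]; exact hl)
  obtain ⟨D2, hD2⟩ := exists_gtv (u := f) (l := ((σ l)⁻¹ - 1) • B e) (by
    rw [LinearMap.smul_apply, hef, smul_eq_mul, mul_one, add_sub_cancel]; exact inv_ne_zero hσl)
  have ht : ∀ x, ap (D1 * D2) x = x + ((l - 1) * B f x) • e + (((σ l)⁻¹ - 1) * B e x) • f := by
    intro x
    rw [ap_mul, hD2, hD1]
    simp only [LinearMap.smul_apply, map_add, map_smul, smul_eq_mul, hf, mul_zero, add_zero]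
    abel
  refine ⟨D1 * D2, ?_, ht, ?_⟩
  · intro x y
    rw [ht, ht]
    simp only [map_add, LinearMap.add_apply, map_smul, LinearMap.map_smulₛₗ, LinearMap.smul_apply, smul_eq_mul, he, hf, hef,
      hfe, mul_zero, add_zero, zero_add, mul_one, map_mul, map_sub, map_inv₀, map_one, hB.inv, hB.symm]
    field_simp
    ring
  · rw [det_mul_lin, det_of_tv hD1, det_of_tv hD2]
    simp only [LinearMap.smul_apply, hef, hfe, smul_eq_mul, mul_one]
    ring

theorem exists_qr (hB : Hm B) {a : ι → F} (ha : B a a ≠ 0) {d : F} (hd : d * σ d = 1) : ∃ h : GL ι F, Isom B h ∧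
    (∀ x, ap h x = x + ((d - 1) * (B a a)⁻¹ * B a x) • a) ∧ LinearMap.det (lin h) = d := by
  have hd0 : d ≠ 0 := by rintro rfl; rw [zero_mul] at hd; exact zero_ne_one hd
  obtain ⟨D, hD⟩ := exists_gtv (u := a) (l := ((d - 1) * (B a a)⁻¹) • B a) (by
    rw [LinearMap.smul_apply, smul_eq_mul, mul_assoc, inv_mul_cancel₀ ha, mul_one, add_sub_cancel]; exact hd0)
  have ht : ∀ x, ap D x = x + ((d - 1) * (B a a)⁻¹ * B a x) • a := by
    intro x
    rw [hD, LinearMap.smul_apply, smul_eq_mul]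
  refine ⟨D, ?_, ht, ?_⟩
  · intro x y
    rw [ht, ht]
    have h1 := hB.self_fixed a
    simp only [map_add, LinearMap.add_apply, map_smul, LinearMap.map_smulₛₗ, LinearMap.smul_apply, smul_eq_mul, map_mul,
      map_sub, map_inv₀, map_one, hB.symm]
    field_simp
    linear_combination (B x a * B a y) * hd
  · rw [det_of_tv hD, LinearMap.smul_apply, smul_eq_mul, mul_assoc, inv_mul_cancel₀ ha, mul_one, add_sub_cancel]

theorem step_GL (hB : Hm B) {H : Submodule F (ι → F)} {x y : ι → F} (hx : x ∉ H) (hy : y ∉ H)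
    (h1 : ∀ h ∈ H, B x h = B y h) (h2 : B x x = B y y) : ∃ g : GL ι F, Isom B g ∧ (∀ h ∈ H, ap g h = h) ∧ ap g x = y := by
  obtain ⟨g, hg, h3, h4⟩ := step_herm (B := B) hB.ne hB.inv hB.symm (fun v h => hB.nd' v h) H x y hx hy h1
    (fun h hh => by rw [← hB.symm, h1 h hh, hB.symm]) h2 rfl
  obtain ⟨k, hk⟩ := exists_ap g
  exact ⟨k, fun u v => by rw [hk, hk]; exact hg.1 u v, fun h hh => by rw [hk, h3 h hh], by rw [hk, h4]⟩

theorem UC.smul' (hB : Hm B) {M : Subgroup (GL ι F)} {u : ι → F} {a : F} (ha : a ≠ 0) (h : UC B M (a • u)) : UC B M u := by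
  have := UC.smul hB.inv h a⁻¹
  rwa [smul_smul, inv_mul_cancel₀ ha, one_smul] at this

/-- the determinants of isometries have norm one -/
def DetOne (B : (ι → F) →ₛₗ[σ] (ι → F) →ₗ[F] F) : Prop :=
  ∀ g : GL ι F, Isom B g → LinearMap.det (lin g) * σ (LinearMap.det (lin g)) = 1

theorem su_maximal (hB : Hm B) (h4 : 4 ≤ Fintype.card ι) {H : Subgroup (GL ι F)} (hH : H ≤ SUn B)
    (hne : ∃ g ∈ SUn B, g ∉ H) (hM : ∀ M : Subgroup (GL ι F), H ≤ M → M ≤ SUn B → ∀ g ∈ M, g ∉ H →
      ∀ u, B u u = 0 → UC B M u) : Geo.IsMaximalIn (SUn B) H := by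
  refine ⟨lt_of_le_of_ne hH ?_, fun M hHM hMS => ?_⟩
  · rintro rfl
    obtain ⟨g, hg, hg'⟩ := hne
    exact hg' hg
  · by_cases h : M ≤ H
    · exact Or.inl (le_antisymm h hHM)
    · right
      obtain ⟨g, hg, hgH⟩ := SetLike.not_le_iff_exists.1 h
      have h1 := hM M hHM hMS g hg hgH
      exact le_antisymm hMS (fun k hk => su_le hB h4 h1 hk.1 hk.2)

theorem ts_UC (hB : Hm B) (hdet : DetOne B) {W : Submodule F (ι → F)} (hW : ∀ x ∈ W, ∀ y ∈ W, B x y = 0)
    {M : Subgroup (GL ι F)} (hH : ∀ g ∈ SUn B, (∀ x ∈ W, ap g x ∈ W) → g ∈ M) {g : GL ι F} (hg : g ∈ M) (hgI : Isom B g)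
    (hgW : ∃ x ∈ W, ap g x ∉ W) : ∀ u, B u u = 0 → UC B M u := by
  have hWR : ∀ x, (∀ w ∈ prp B W, B w x = 0) → x ∈ W := by
    intro x hx
    rw [← prp_prp hB.nd (fun x y => hB.zero_swap) W]
    exact hx
  have hR : ∀ u ∈ prp B W, B u u = 0 → UC B M u := by
    intro u hu huu c hc t ht
    apply hH t ⟨isom_utv hB.symm huu hc ht, IsTv.mem_SL (by rw [LinearMap.smul_apply, huu, smul_zero]) ht⟩
    intro x hx
    rw [ht, LinearMap.smul_apply, hB.zero_swap (hu x hx), smul_zero, zero_smul, add_zero]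
    exact hx
  obtain ⟨u₀, hu₀, hu₀R, hu₀M⟩ : ∃ u₀, B u₀ u₀ = 0 ∧ u₀ ∉ prp B W ∧ UC B M u₀ := by
    obtain ⟨w, hw, hgw⟩ := hgW
    have hww := hW w hw w hw
    by_cases h1 : ap g w ∈ prp B W
    · obtain ⟨y, hy, hyv⟩ : ∃ y ∈ prp B W, B (ap g w) y ≠ 0 := by
        by_contra hcon
        push Not at hcon
        exact hgw (hWR _ (fun y hy => hB.zero_swap (hcon y hy)))
      have hvv : B (ap g w) (ap g w) = 0 := by rw [hgI, hww]
      obtain ⟨t, ht1, ht2⟩ := iso_add hB (e := ap g w) (f := (B (ap g w) y)⁻¹ • y) hvv (by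
        rw [map_smul, smul_eq_mul, inv_mul_cancel₀ hyv])
      have hz := (prp B W).add_mem ((prp B W).smul_mem (B (ap g w) y)⁻¹ hy) ((prp B W).smul_mem t h1)
      refine ⟨ap g⁻¹ ((B (ap g w) y)⁻¹ • y + t • ap g w), ?_, ?_, UC.conj (inv_mem hg) hgI.inv (hR _ hz ht1)⟩
      · rw [hgI.inv, ht1]
      · intro h2
        have h3 := h2 w hw
        rw [← hgI, ap_ap_inv, ht2] at h3
        exact one_ne_zero h3
    · refine ⟨ap g w, by rw [hgI, hww], h1, ?_⟩
      exact UC.conj hg hgI (hR w (fun x hx => hW x hx w hw) hww)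
  intro u' hu'
  by_cases hu'R : u' ∈ prp B W
  · exact hR u' hu'R hu'
  -- the functionals
  obtain ⟨w1, hw1, hw1'⟩ : ∃ w ∈ W, B u₀ w ≠ 0 := by
    by_contra hcon
    push Not at hcon
    exact hu₀R (fun w hw => hB.zero_swap (hcon w hw))
  obtain ⟨w2, hw2, hw2'⟩ : ∃ w ∈ W, B u' w ≠ 0 := by
    by_contra hcon
    push Not at hcon
    exact hu'R (fun w hw => hB.zero_swap (hcon w hw))
  obtain ⟨z, hz, hz1, hz2⟩ : ∃ z ∈ W, B u' z = 1 ∧ B u₀ z ≠ 0 := by
    obtain ⟨z, hz, hz1, hz2⟩ : ∃ z ∈ W, B u' z ≠ 0 ∧ B u₀ z ≠ 0 := by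
      by_cases h1 : B u' w1 = 0
      · by_cases h2 : B u₀ w2 = 0
        · exact ⟨w1 + w2, W.add_mem hw1 hw2, by rw [map_add, h1, zero_add]; exact hw2', by
            rw [map_add, h2, add_zero]; exact hw1'⟩
        · exact ⟨w2, hw2, hw2', h2⟩
      · exact ⟨w1, hw1, h1, hw1'⟩
    refine ⟨(B u' z)⁻¹ • z, W.smul_mem _ hz, by rw [map_smul, smul_eq_mul, inv_mul_cancel₀ hz1], ?_⟩
    rw [map_smul, smul_eq_mul]
    exact mul_ne_zero (inv_ne_zero hz1) hz2
  let T : W →ₗ[F] W := LinearMap.id + ((B u₀ - B u').comp W.subtype).smulRight ⟨z, hz⟩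
  have hTap : ∀ w : W, ((T w : W) : ι → F) = (w : ι → F) + (B u₀ w - B u' w) • z := by
    intro w
    simp [T]
  have hinj : Function.Injective T := by
    rw [injective_iff_map_eq_zero]
    intro w hw
    have h1 := hTap w
    rw [hw] at h1
    have h2 := congrArg (B u') h1
    rw [map_add, map_smul, hz1, smul_eq_mul, mul_one, ZeroMemClass.coe_zero, map_zero] at h2
    have h3 : B u₀ w = 0 := by linear_combination -h2
    have h4 := congrArg (B u₀) h1
    rw [map_add, map_smul, h3, ZeroMemClass.coe_zero, map_zero, zero_add, zero_sub, smul_eq_mul] at h4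
    have h5 : B u' w = 0 := by
      rcases mul_eq_zero.1 h4.symm with h6 | h6
      · exact neg_eq_zero.1 h6
      · exact absurd h6 hz2
    rw [h3, h5, sub_self, zero_smul, add_zero] at h1
    exact Subtype.ext h1.symm
  obtain ⟨G0, hG0, hG0'⟩ := witt_subspaces (step_herm (B := B) hB.ne hB.inv hB.symm (fun v h => hB.nd' v h)) W W
    (LinearEquiv.ofInjectiveEndo T hinj) (fun x x' => by rw [hW _ (Subtype.mem _) _ (Subtype.mem _),
      hW _ (Subtype.mem _) _ (Subtype.mem _)]) (fun x => rfl)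
  obtain ⟨g0, hg0⟩ := exists_ap G0
  have hg0I : Isom B g0 := fun x y => by rw [hg0, hg0]; exact hG0.1 x y
  have hg0W : ∀ w : W, ap g0 w = T w := fun w => by rw [hg0, hG0']; rfl
  have hfun : ∀ y ∈ W, B (ap g0 u₀) y = B u' y := by
    intro y hy
    obtain ⟨w, hw⟩ : ∃ w : W, T w = ⟨y, hy⟩ := by
      have hs := LinearMap.injective_iff_surjective.1 hinj
      exact hs _
    have h1 : ap g0 w = y := by rw [hg0W, hw]
    rw [← h1, hg0I, hg0W, hTap, map_add, map_smul, hz1, smul_eq_mul, mul_one]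
    ring
  have hprp : ∀ v, v ∈ prp B W ↔ ∀ y ∈ W, B v y = 0 := fun v =>
    ⟨fun h y hy => hB.zero_swap (h y hy), fun h y hy => hB.zero_swap (h y hy)⟩
  have hWR' : ∀ v ∈ W, v ∈ prp B W := fun v hv x hx => hW x hx v hv
  obtain ⟨g1, hg1I, hg1W, hg1u⟩ := step_GL hB (H := W) (x := ap g0 u₀) (y := u') (by
      intro h
      apply hu'R
      rw [hprp]
      intro y hy
      rw [← hfun y hy]
      exact hW _ h y hy) (fun h => hu'R (hWR' _ h)) hfun (by rw [hg0I, hu₀, hu'])
  -- the determinant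
  have hgI' := hg1I.mul hg0I
  have hd := hdet _ hgI'
  have hd0 : LinearMap.det (lin (g1 * g0)) ≠ 0 := by
    intro h
    rw [h, zero_mul] at hd
    exact zero_ne_one hd
  obtain ⟨l, hl, hl'⟩ := hilbert90 hB (d := (LinearMap.det (lin (g1 * g0)))⁻¹) (by
    rw [map_inv₀, ← mul_inv, hd, inv_one])
  have hzu : B z u' = 1 := by rw [← hB.symm, hz1, map_one]
  obtain ⟨h, hhI, hh, hhd⟩ := exists_dia hB (e := u') (f := z) hu' (hW z hz z hz) hz1 hl
  have hMem : h * (g1 * g0) ∈ M := by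
    apply hH
    · refine ⟨hhI.mul hgI', ?_⟩
      rw [mem_SL_iff', det_mul_lin, hhd, hl', inv_mul_cancel₀ hd0]
    · intro x hx
      have h1 : ap g0 x ∈ W := by
        have := hg0W ⟨x, hx⟩
        rw [this]
        exact Subtype.mem _
      rw [ap_mul, ap_mul, hg1W _ h1, hh, hW z hz _ h1, mul_zero, zero_smul, add_zero]
      exact W.add_mem h1 (W.smul_mem _ hz)
  have h1 := UC.conj hMem (hhI.mul hgI') hu₀M
  have h2 : ap (h * (g1 * g0)) u₀ = l • u' := by
    rw [ap_mul, ap_mul, hg1u, hh, hzu, hu', mul_zero, zero_smul, add_zero, mul_one]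
    module
  rw [h2] at h1
  exact UC.smul' hB hl h1

theorem exists_norm (hB : Hm B) {D : Submodule F (ι → F)} (hD : Nd B D) (hd : 2 ≤ finrank F D) {γ : F} (hγ : σ γ = γ) :
    ∃ y ∈ D, y ≠ 0 ∧ B y y = γ := by
  obtain ⟨e, he, f, hf, hee, hff, hef⟩ := exists_hyp hB hD hd
  have hfe : B f e = 1 := by rw [← hB.symm, hef, map_one]
  obtain ⟨t, ht⟩ := hB.exists_tr γ hγ
  refine ⟨e + t • f, D.add_mem he (D.smul_mem _ hf), ?_, ?_⟩
  · intro h
    have := congrArg (B f) h
    rw [map_add, map_smul, hff, smul_zero, add_zero, hfe, map_zero] at this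
    exact one_ne_zero this
  · simp only [map_add, LinearMap.add_apply, map_smul, LinearMap.map_smulₛₗ, LinearMap.smul_apply, smul_eq_mul, hee, hff, hef,
      hfe]
    linear_combination ht

theorem nd_UC (hB : Hm B) (hdet : DetOne B) {W : Submodule F (ι → F)} (hW : Nd B W)
    (hdim : finrank F W < finrank F (prp B W)) (h7 : 7 ≤ finrank F (prp B W))
    {M : Subgroup (GL ι F)} (hH : ∀ g ∈ SUn B, (∀ x ∈ W, ap g x ∈ W) → g ∈ M) {g : GL ι F} (hg : g ∈ M) (hgI : Isom B g)
    (hgW : ∃ x ∈ W, ap g x ∉ W) : ∀ u, B u u = 0 → UC B M u := by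
  have hWR : ∀ x, (∀ w ∈ prp B W, B w x = 0) → x ∈ W := by
    intro x hx
    rw [← prp_prp hB.nd (fun x y => hB.zero_swap) W]
    exact hx
  have hND : Nd B (prp B W) := by
    have h1 := nd_inf hB (nd_top hB) le_top hW
    rwa [top_inf_eq] at h1
  have hdisj : ∀ x ∈ W, x ∈ prp B W → x = 0 := fun x hx hx' => hW x hx hx'
  have hsum : ∀ v, ∃ x ∈ W, ∃ y ∈ prp B W, v = x + y := by
    intro v
    obtain ⟨w, hw, hw'⟩ := nd_proj hB hW v
    exact ⟨w, hw, v - w, fun z hz => by rw [map_sub, hw' z hz, sub_self], by abel⟩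
  have hxy : ∀ x ∈ W, ∀ y ∈ prp B W, B x y = 0 := fun x hx y hy => hy x hx
  have hR : ∀ u ∈ prp B W, B u u = 0 → UC B M u := by
    intro u hu huu c hc t ht
    apply hH t ⟨isom_utv hB.symm huu hc ht, IsTv.mem_SL (by rw [LinearMap.smul_apply, huu, smul_zero]) ht⟩
    intro x hx
    rw [ht, LinearMap.smul_apply, hB.zero_swap (hu x hx), smul_zero, zero_smul, add_zero]
    exact hx
  have hRW : ∀ u ∈ W, B u u = 0 → UC B M u := by
    intro u hu huu c hc t ht
    apply hH t ⟨isom_utv hB.symm huu hc ht, IsTv.mem_SL (by rw [LinearMap.smul_apply, huu, smul_zero]) ht⟩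
    intro x hx
    rw [ht]
    exact W.add_mem hx (W.smul_mem _ hu)
  have hisum : ∀ x ∈ W, ∀ y ∈ prp B W, B (x + y) (x + y) = B x x + B y y := by
    intro x hx y hy
    simp only [map_add, LinearMap.add_apply, hxy x hx y hy, hB.zero_swap (hxy x hx y hy), zero_add, add_zero]
  -- transitivity
  have trans : ∀ x ∈ W, ∀ y ∈ prp B W, ∀ x' ∈ W, ∀ y' ∈ prp B W, x ≠ 0 → y ≠ 0 → x' ≠ 0 → y' ≠ 0 → B x x = B x' x' →
      B y y = B y' y' → UC B M (x + y) → UC B M (x' + y') := by
    intro x hx y hy x' hx' y' hy' hx0 hy0 hx'0 hy'0 h1 h2 h3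
    obtain ⟨g1, hg1I, hg1R, hg1x⟩ := step_GL hB (H := prp B W) (x := x) (y := x') (fun h => hx0 (hdisj x hx h))
      (fun h => hx'0 (hdisj x' hx' h)) (fun h hh => by rw [hxy x hx h hh, hxy x' hx' h hh]) h1
    obtain ⟨g2, hg2I, hg2W, hg2y⟩ := step_GL hB (H := W) (x := y) (y := y') (fun h => hy0 (hdisj y h hy))
      (fun h => hy'0 (hdisj y' h hy')) (fun h hh => by rw [hB.zero_swap (hxy h hh y hy), hB.zero_swap (hxy h hh y' hy')]) h2
    have hgI' := hg2I.mul hg1I
    have hd := hdet _ hgI'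
    have hd0 : LinearMap.det (lin (g2 * g1)) ≠ 0 := by
      intro h
      rw [h, zero_mul] at hd
      exact zero_ne_one hd
    have h4 := finrank_inf_prp hB hND (span_one_le hy')
    rw [finrank_span_self hy'0] at h4
    obtain ⟨a, ha, haa⟩ := exists_aniso_in hB hND (U := prp B W ⊓ prp B (Submodule.span F {y'})) inf_le_left (by omega)
    have hay' : B a y' = 0 := hB.zero_swap (mem_prp_one.1 ha.2)
    obtain ⟨h, hhI, hh, hhd⟩ := exists_qr hB haa (d := (LinearMap.det (lin (g2 * g1)))⁻¹) (by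
      rw [map_inv₀, ← mul_inv, hd, inv_one])
    have hhW : ∀ w ∈ W, ap h w = w := by
      intro w hw
      rw [hh, hB.zero_swap (hxy w hw a ha.1), mul_zero, zero_smul, add_zero]
    have hMem : h * (g2 * g1) ∈ M := by
      apply hH
      · refine ⟨hhI.mul hgI', ?_⟩
        rw [mem_SL_iff', det_mul_lin, hhd, inv_mul_cancel₀ hd0]
      · intro w hw
        have h5 : ap g1 w ∈ W := by
          apply hWR
          intro r hr
          rw [← hg1R r hr, hg1I]
          exact hB.zero_swap (hxy w hw r hr)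
        rw [ap_mul, ap_mul, hg2W _ h5, hhW _ h5]
        exact h5
    have h5 := UC.conj hMem (hhI.mul hgI') h3
    have h6 : ap (h * (g2 * g1)) (x + y) = x' + y' := by
      rw [ap_mul, ap_mul, ap_add, hg1x, hg1R y hy, ap_add, hg2W x' hx', hg2y, ap_add, hhW x' hx', hh, hay', mul_zero, zero_smul,
        add_zero]
    rwa [h6] at h5
  -- scaling
  have trans1 : ∀ x ∈ W, ∀ y ∈ prp B W, ∀ x' ∈ W, ∀ y' ∈ prp B W, B x x ≠ 0 → B x' x' ≠ 0 → B x x + B y y = 0 →
      B x' x' + B y' y' = 0 → UC B M (x + y) → UC B M (x' + y') := by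
    intro x hx y hy x' hx' y' hy' hxx hxx' h1 h2 h3
    obtain ⟨l, hl⟩ := hB.norm (B x' x' * (B x x)⁻¹) (by rw [map_mul, map_inv₀, hB.self_fixed, hB.self_fixed])
    have hl0 : l ≠ 0 := by
      rintro rfl
      rw [zero_mul] at hl
      exact mul_ne_zero hxx' (inv_ne_zero hxx) hl.symm
    have h4 : ∀ v : ι → F, B (l • v) (l • v) = l * σ l * B v v := by
      intro v
      simp only [map_smul, LinearMap.map_smulₛₗ, LinearMap.smul_apply, smul_eq_mul]
      ring
    have h5 : B (l • x) (l • x) = B x' x' := by rw [h4, hl, mul_assoc, inv_mul_cancel₀ hxx, mul_one]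
    have h6 : B (l • y) (l • y) = B y' y' := by
      have : B y y = -(B x x) := by linear_combination h1
      rw [h4, this, hl, mul_neg, mul_assoc, inv_mul_cancel₀ hxx, mul_one]
      linear_combination -h2
    have hne : ∀ {v : ι → F}, B v v ≠ 0 → v ≠ 0 := fun h => ne_zero_of_aniso h
    have hyy : B y y ≠ 0 := fun h => hxx (by rw [h, add_zero] at h1; exact h1)
    have hyy' : B y' y' ≠ 0 := fun h => hxx' (by rw [h, add_zero] at h2; exact h2)
    refine trans (l • x) (W.smul_mem _ hx) (l • y) ((prp B W).smul_mem _ hy) x' hx' y' hy' (smul_ne_zero hl0 (hne hxx))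
      (smul_ne_zero hl0 (hne hyy)) (hne hxx') (hne hyy') h5 h6 ?_
    rw [← smul_add]
    exact UC.smul hB.inv h3 l
  -- a mixed vector
  obtain ⟨x₀, hx₀, y₀, hy₀, hx₀0, hy₀0, hu₀, hu₀M⟩ : ∃ x₀ ∈ W, ∃ y₀ ∈ prp B W, x₀ ≠ 0 ∧ y₀ ≠ 0 ∧ B x₀ x₀ + B y₀ y₀ = 0 ∧
      UC B M (x₀ + y₀) := by
    by_contra hcon
    have h1 : ∀ z ∈ prp B W, B z z = 0 → ap g z ∈ W ∨ ap g z ∈ prp B W := by
      intro z hz hzz
      by_contra h2
      push Not at h2
      obtain ⟨x, hx, y, hy, hxy'⟩ := hsum (ap g z)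
      apply hcon
      refine ⟨x, hx, y, hy, ?_, ?_, ?_, ?_⟩
      · rintro rfl
        rw [zero_add] at hxy'
        exact h2.2 (by rw [hxy']; exact hy)
      · rintro rfl
        rw [add_zero] at hxy'
        exact h2.1 (by rw [hxy']; exact hx)
      · rw [← hisum x hx y hy, ← hxy', hgI, hzz]
      · rw [← hxy']
        exact UC.conj hg hgI (hR z hz hzz)
    have h2 : (∀ z ∈ prp B W, B z z = 0 → ap g z ∈ W) ∨ (∀ z ∈ prp B W, B z z = 0 → ap g z ∈ prp B W) := by
      by_contra h3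
      push Not at h3
      obtain ⟨⟨a, ha, haa, haW⟩, ⟨b, hb, hbb, hbR⟩⟩ := h3
      have haR := (h1 a ha haa).resolve_left haW
      have hbW := (h1 b hb hbb).resolve_right hbR
      have hab : B a b = 0 := by
        rw [← hgI]
        exact hB.zero_swap (hxy _ hbW _ haR)
      have hs : B (a + b) (a + b) = 0 := by
        simp only [map_add, LinearMap.add_apply, haa, hbb, hab, hB.zero_swap hab, add_zero]
      rcases h1 (a + b) ((prp B W).add_mem ha hb) hs with h4 | h4
      · rw [ap_add] at h4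
        exact haW ((W.add_mem_iff_left hbW).1 h4)
      · rw [ap_add] at h4
        exact hbR (((prp B W).add_mem_iff_right haR).1 h4)
    rcases h2 with h2 | h2
    · have h3 : ∀ z ∈ prp B W, ap g z ∈ W := by
        intro z hz
        refine iso_induction hB hND (by omega) (fun z => ap g z ∈ W) h2 (fun s _ t _ h4 h5 => ?_) hz
        rw [ap_add]
        exact W.add_mem h4 h5
      have h4 : finrank F (prp B W) ≤ finrank F W := by
        have h5 : finrank F ((prp B W).map (lin g)) = finrank F (prp B W) :=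
          LinearEquiv.finrank_eq (Submodule.equivMapOfInjective (lin g) (ap_injective g) (prp B W)).symm
        rw [← h5]
        apply Submodule.finrank_mono
        rintro _ ⟨z, hz, rfl⟩
        exact h3 z hz
      omega
    · have h3 : ∀ z ∈ prp B W, ap g z ∈ prp B W := by
        intro z hz
        refine iso_induction hB hND (by omega) (fun z => ap g z ∈ prp B W) h2 (fun s _ t _ h4 h5 => ?_) hz
        rw [ap_add]
        exact (prp B W).add_mem h4 h5
      have h4 : (prp B W).map (lin g) = prp B W := by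
        apply Submodule.eq_of_le_of_finrank_eq
        · rintro _ ⟨z, hz, rfl⟩
          exact h3 z hz
        · exact LinearEquiv.finrank_eq (Submodule.equivMapOfInjective (lin g) (ap_injective g) (prp B W)).symm
      obtain ⟨x, hx, hgx⟩ := hgW
      apply hgx
      apply hWR
      intro r hr
      rw [← h4] at hr
      obtain ⟨r', hr', rfl⟩ := hr
      rw [lin_apply, hgI]
      exact hB.zero_swap (hxy x hx r' hr')
  obtain ⟨k, hk0, hk⟩ := hB.exists_tz
  -- the move
  have move : ∀ u v, B u u = 0 → UC B M u → UC B M v → k * B u v = 1 → UC B M (v + u) := by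
    intro u v hu hu' hv' huv
    obtain ⟨t, ht⟩ := exists_utv hu k
    have h1 := UC.conj (hu' k hk t ht) (isom_utv hB.symm hu hk ht) hv'
    rw [ht, LinearMap.smul_apply, smul_eq_mul, huv, one_smul] at h1
    exact h1
  obtain ⟨μ, hμ⟩ := hB.exists_tr 1 (map_one σ)
  have hσk : σ k = -k := by rw [eq_neg_iff_add_eq_zero, add_comm]; exact hk
  -- class one
  have P1 : ∀ x ∈ W, ∀ y ∈ prp B W, B x x ≠ 0 → B x x + B y y = 0 → UC B M (x + y) := by
    by_cases h0 : B x₀ x₀ = 0
    · obtain ⟨x₁, hx₁, hx₁₁, hx₀₁⟩ := exists_partner hB hW hx₀ hx₀0 h0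
      have hx₁₀ : B x₁ x₀ = 1 := by rw [← hB.symm, hx₀₁, map_one]
      have hy₀' : B y₀ y₀ = 0 := by rw [h0, zero_add] at hu₀; exact hu₀
      have hμ0 : μ ≠ 0 := by rintro rfl; rw [map_zero, add_zero] at hμ; exact zero_ne_one hμ
      -- the partner in the complement
      obtain ⟨β, hβ⟩ : ∃ β, β = k⁻¹ - μ := ⟨_, rfl⟩
      have hβ0 : β ≠ 0 := by
        intro h
        have h5 : μ = k⁻¹ := by
          rw [h] at hβ
          exact (sub_eq_zero.1 hβ.symm).symm
        rw [h5, map_inv₀, hσk, inv_neg, add_neg_cancel] at hμ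
        exact zero_ne_one hμ
      obtain ⟨y₁, hy₁, hy₁₁, hy₀₁⟩ := exists_partner hB hND hy₀ hy₀0 hy₀'
      have hne1 : x₁ ≠ 0 := by rintro rfl; rw [map_zero] at hx₀₁; exact zero_ne_one hx₀₁
      have hne2 : y₁ ≠ 0 := by rintro rfl; rw [map_zero] at hy₀₁; exact zero_ne_one hy₀₁
      have hU1 : UC B M (μ • x₁ + β • y₁) := by
        refine trans x₀ hx₀ y₀ hy₀ (μ • x₁) (W.smul_mem _ hx₁) (β • y₁) ((prp B W).smul_mem _ hy₁) hx₀0 hy₀0
          (smul_ne_zero hμ0 hne1) (smul_ne_zero hβ0 hne2) ?_ ?_ hu₀M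
        · rw [h0, map_smul, LinearMap.map_smulₛₗ, LinearMap.smul_apply, hx₁₁, smul_zero, smul_zero]
        · rw [hy₀', map_smul, LinearMap.map_smulₛₗ, LinearMap.smul_apply, hy₁₁, smul_zero, smul_zero]
      have h5 := move (x₀ + y₀) (μ • x₁ + β • y₁) (by rw [hisum x₀ hx₀ y₀ hy₀, hu₀]) hu₀M hU1 (by
        simp only [map_add, LinearMap.add_apply, map_smul, smul_eq_mul, hx₀₁, hy₀₁, hxy x₀ hx₀ y₁ hy₁,
          hB.zero_swap (hxy x₁ hx₁ y₀ hy₀), mul_zero, mul_one, add_zero, zero_add]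
        rw [hβ]
        field_simp
        ring)
      have h6 : (μ • x₁ + β • y₁) + (x₀ + y₀) = (x₀ + μ • x₁) + (y₀ + β • y₁) := by abel
      rw [h6] at h5
      have hXW : x₀ + μ • x₁ ∈ W := W.add_mem hx₀ (W.smul_mem _ hx₁)
      have hYR : y₀ + β • y₁ ∈ prp B W := (prp B W).add_mem hy₀ ((prp B W).smul_mem _ hy₁)
      have h7 : B (x₀ + μ • x₁) (x₀ + μ • x₁) = 1 := by
        simp only [map_add, LinearMap.add_apply, map_smul, LinearMap.map_smulₛₗ, LinearMap.smul_apply, smul_eq_mul, h0, hx₁₁,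
          hx₀₁, hx₁₀]
        linear_combination hμ
      have h8 : B (y₀ + β • y₁) (y₀ + β • y₁) = -1 := by
        have hy₁₀ : B y₁ y₀ = 1 := by rw [← hB.symm, hy₀₁, map_one]
        simp only [map_add, LinearMap.add_apply, map_smul, LinearMap.map_smulₛₗ, LinearMap.smul_apply, smul_eq_mul, hy₀', hy₁₁,
          hy₀₁, hy₁₀]
        rw [hβ, map_sub, map_inv₀, hσk, inv_neg]
        linear_combination -hμ
      intro x hx y hy hxx hs
      exact trans1 _ hXW _ hYR x hx y hy (by rw [h7]; exact one_ne_zero) hxx (by rw [h7, h8]; ring) hs h5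
    · intro x hx y hy hxx hs
      exact trans1 x₀ hx₀ y₀ hy₀ x hx y hy h0 hxx hu₀ hs hu₀M
  -- class zero
  have P0 : ∀ x ∈ W, ∀ y ∈ prp B W, x ≠ 0 → y ≠ 0 → B x x = 0 → B y y = 0 → UC B M (x + y) := by
    intro x hx y hy hx0 hy0 hxx hyy
    obtain ⟨f, hf, hff, hxf⟩ := exists_partner hB hW hx hx0 hxx
    have hfx : B f x = 1 := by rw [← hB.symm, hxf, map_one]
    obtain ⟨a, ha⟩ : ∃ a, a = μ • x + f := ⟨_, rfl⟩
    obtain ⟨b, hb⟩ : ∃ b, b = (1 - μ) • x - f := ⟨_, rfl⟩
    have haW : a ∈ W := by rw [ha]; exact W.add_mem (W.smul_mem _ hx) hf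
    have hbW : b ∈ W := by rw [hb]; exact W.sub_mem (W.smul_mem _ hx) hf
    have haa : B a a = 1 := by
      rw [ha]
      simp only [map_add, LinearMap.add_apply, map_smul, LinearMap.map_smulₛₗ, LinearMap.smul_apply, smul_eq_mul, hxx, hff,
        hxf, hfx]
      linear_combination hμ
    have hbb : B b b = -1 := by
      rw [hb]
      simp only [map_sub, LinearMap.sub_apply, map_smul, LinearMap.map_smulₛₗ, LinearMap.smul_apply, smul_eq_mul, hxx, hff,
        hxf, hfx, map_one]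
      linear_combination hμ
    have hab : a + b = x := by rw [ha, hb]; module
    -- the vectors of the complement
    obtain ⟨y1, hy1, hy10, hy11⟩ := exists_norm hB hND (by omega) (γ := -1) (by rw [map_neg, map_one])
    have h4 := finrank_inf_prp hB hND (span_one_le hy1)
    rw [finrank_span_self hy10] at h4
    have hn1 := nd_inf hB hND (span_one_le hy1) (nd_span_one hB (by rw [hy11]; exact neg_ne_zero.2 one_ne_zero))
    -- `B (b + y2) (a + y1) = k⁻¹`
    obtain ⟨β, hβ⟩ : ∃ β, β = k⁻¹ - B b a := ⟨_, rfl⟩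
    obtain ⟨s, hs⟩ : ∃ s, s = -(σ β) := ⟨_, rfl⟩
    obtain ⟨y3, hy3, hy30, hy33⟩ := exists_norm hB hn1 (by omega) (γ := 1 + s * σ s) (by
      rw [map_add, map_one, map_mul, hB.inv, mul_comm (σ s) s])
    have hy13 : B y1 y3 = 0 := mem_prp_one.1 hy3.2
    have hy31 := hB.zero_swap hy13
    obtain ⟨y2, hy2⟩ : ∃ y2, y2 = s • y1 + y3 := ⟨_, rfl⟩
    have hy2R : y2 ∈ prp B W := by rw [hy2]; exact (prp B W).add_mem ((prp B W).smul_mem _ hy1) hy3.1
    have hy22 : B y2 y2 = 1 := by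
      rw [hy2]
      simp only [map_add, LinearMap.add_apply, map_smul, LinearMap.map_smulₛₗ, LinearMap.smul_apply, smul_eq_mul, hy11, hy13,
        hy31, hy33]
      ring
    have hy21 : B y2 y1 = β := by
      rw [hy2, map_add, LinearMap.add_apply, LinearMap.map_smulₛₗ, LinearMap.smul_apply, hy11, hy31, hs, map_neg, hB.inv,
        smul_eq_mul]
      ring
    have h5 := move (b + y2) (a + y1) (by rw [hisum b hbW y2 hy2R, hbb, hy22]; ring)
      (P1 b hbW y2 hy2R (by rw [hbb]; exact neg_ne_zero.2 one_ne_zero) (by rw [hbb, hy22]; ring))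
      (P1 a haW y1 hy1 (by rw [haa]; exact one_ne_zero) (by rw [haa, hy11]; ring)) (by
        simp only [map_add, LinearMap.add_apply, hxy b hbW y1 hy1, hB.zero_swap (hxy a haW y2 hy2R), hy21, add_zero, zero_add]
        rw [hβ]
        field_simp
        ring)
    have h6 : (a + y1) + (b + y2) = x + (y1 + y2) := by rw [← hab]; abel
    rw [h6] at h5
    have hYR := (prp B W).add_mem hy1 hy2R
    have hYY : B (y1 + y2) (y1 + y2) = 0 := by
      have h7 : B (x + (y1 + y2)) (x + (y1 + y2)) = B x x + B (y1 + y2) (y1 + y2) := hisum x hx _ hYR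
      have h8 : B (x + (y1 + y2)) (x + (y1 + y2)) = 0 := by
        rw [← h6]
        have e1 : B (b + y2) (a + y1) = k⁻¹ := by
          simp only [map_add, LinearMap.add_apply, hxy b hbW y1 hy1, hB.zero_swap (hxy a haW y2 hy2R), hy21, add_zero, zero_add]
          rw [hβ]
          ring
        have e2 : B (a + y1) (b + y2) = -k⁻¹ := by
          rw [← hB.symm, e1, map_inv₀, hσk, inv_neg]
        have e3 : B (a + y1) (a + y1) = 0 := by rw [hisum a haW y1 hy1, haa, hy11]; ring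
        have e4 : B (b + y2) (b + y2) = 0 := by rw [hisum b hbW y2 hy2R, hbb, hy22]; ring
        rw [map_add (B (a + y1 + (b + y2))), map_add B, LinearMap.add_apply, LinearMap.add_apply, e1, e2, e3, e4]
        ring
      rw [hxx, zero_add] at h7
      rw [← h7, h8]
    have hY0 : y1 + y2 ≠ 0 := by
      intro h7
      have h8 : (1 + s) • y1 + y3 = 0 := by rw [← h7, hy2]; module
      have h9 := congrArg (B y1) h8
      rw [map_add, map_smul, hy11, hy13, add_zero, map_zero, smul_eq_mul] at h9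
      have h10 : 1 + s = 0 := by linear_combination -h9
      rw [h10, zero_smul, zero_add] at h8
      exact hy30 h8
    exact trans x hx (y1 + y2) hYR x hx y hy hx0 hY0 hx0 hy0 rfl (by rw [hYY, hyy]) h5
  intro u hu
  obtain ⟨x, hx, y, hy, rfl⟩ := hsum u
  rw [hisum x hx y hy] at hu
  by_cases hx0 : x = 0
  · rw [hx0, zero_add]
    rw [hx0, map_zero, zero_add] at hu
    exact hR y hy hu
  by_cases hy0 : y = 0
  · rw [hy0, add_zero]
    rw [hy0, map_zero, add_zero] at hu
    exact hRW x hx hu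
  by_cases hxx : B x x = 0
  · rw [hxx, zero_add] at hu
    exact P0 x hx y hy hx0 hy0 hxx hu
  · exact P1 x hx y hy hxx hu

end Cfsg.Agent.H7.UTv
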