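import Cfsg.Agent.H7.IsoCl

/-!
The exterior square of a four-dimensional space.
-/

set_option autoImplicit false
set_option linter.unusedSectionVars false

namespace Cfsg.Agent.H7.Wedge

open Module Matrix
open Cfsg Cfsg.Agent.H7.Witt Cfsg.Agent.H7.Tv Cfsg.Agent.H7.Orth

variable {F : Type*} [Field F]

abbrev V6 (F : Type*) := Fin 3 ⊕ Fin 3 → F

/-- alternating matrices -/
def M (v : V6 F) : Matrix (Fin 4) (Fin 4) F :=
  !![0, v (.inl 0), v (.inl 1), v (.inl 2);
     -v (.inl 0), 0, v (.inr 2), -v (.inr 1);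
     -v (.inl 1), -v (.inr 2), 0, v (.inr 0);
     -v (.inl 2), v (.inr 1), -v (.inr 0), 0]

/-- coordinates -/
def N (A : Matrix (Fin 4) (Fin 4) F) : V6 F :=
  Sum.elim ![A 0 1, A 0 2, A 0 3] ![A 2 3, -A 1 3, A 1 2]

theorem N_M (v : V6 F) : N (M v) = v := by
  ext (i | i) <;> fin_cases i <;> simp [N, M]

theorem M_add (v w : V6 F) : M (v + w) = M v + M w := by
  ext i j
  fin_cases i <;> fin_cases j <;> simp [M] <;> ring

theorem M_smul (c : F) (v : V6 F) : M (c • v) = c • M v := by
  ext i j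
  fin_cases i <;> fin_cases j <;> simp [M]

theorem N_add (A B : Matrix (Fin 4) (Fin 4) F) : N (A + B) = N A + N B := by
  ext (i | i) <;> fin_cases i <;> simp [N] <;> ring

theorem N_smul (c : F) (A : Matrix (Fin 4) (Fin 4) F) : N (c • A) = c • N A := by
  ext (i | i) <;> fin_cases i <;> simp [N]

theorem M_N (A : Matrix (Fin 4) (Fin 4) F) (h0 : ∀ i, A i i = 0) (h1 : ∀ i j, A j i = -A i j) : M (N A) = A := by
  ext i j
  fin_cases i <;> fin_cases j <;> simp [M, N, h0, h1 0 1, h1 0 2, h1 0 3, h1 1 2, h1 1 3, h1 2 3]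

theorem M_diag (v : V6 F) (i : Fin 4) : M v i i = 0 := by
  fin_cases i <;> simp [M]

theorem M_skew (v : V6 F) (i j : Fin 4) : M v j i = -M v i j := by
  fin_cases i <;> fin_cases j <;> simp [M]

theorem conj_diag (g : Matrix (Fin 4) (Fin 4) F) (v : V6 F) (i : Fin 4) : (g * M v * gᵀ) i i = 0 := by
  simp only [Matrix.mul_apply, Fin.sum_univ_four, Matrix.transpose_apply]
  simp [M]
  ring

theorem conj_skew (g : Matrix (Fin 4) (Fin 4) F) (v : V6 F) (i j : Fin 4) : (g * M v * gᵀ) j i = -(g * M v * gᵀ) i j := by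
  simp only [Matrix.mul_apply, Fin.sum_univ_four, Matrix.transpose_apply]
  simp [M]
  ring

theorem M_N_conj (g : Matrix (Fin 4) (Fin 4) F) (v : V6 F) : M (N (g * M v * gᵀ)) = g * M v * gᵀ :=
  M_N _ (conj_diag g v) (conj_skew g v)

/-- the action -/
def act (g : Matrix (Fin 4) (Fin 4) F) (v : V6 F) : V6 F := N (g * M v * gᵀ)

theorem M_act (g : Matrix (Fin 4) (Fin 4) F) (v : V6 F) : M (act g v) = g * M v * gᵀ := M_N_conj g v

theorem act_one (v : V6 F) : act 1 v = v := by
  rw [act, one_mul, transpose_one, mul_one, N_M]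

theorem act_mul (g h : Matrix (Fin 4) (Fin 4) F) (v : V6 F) : act (g * h) v = act g (act h v) := by
  rw [act, act, M_act, transpose_mul]
  congr 1
  simp only [mul_assoc]

theorem act_add (g : Matrix (Fin 4) (Fin 4) F) (v w : V6 F) : act g (v + w) = act g v + act g w := by
  rw [act, act, act, M_add, mul_add, add_mul, N_add]

theorem act_smul (g : Matrix (Fin 4) (Fin 4) F) (c : F) (v : V6 F) : act g (c • v) = c • act g v := by
  rw [act, act, M_smul, mul_smul_comm, smul_mul_assoc, N_smul]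

set_option maxHeartbeats 4000000 in
theorem act_q (g : Matrix (Fin 4) (Fin 4) F) (v : V6 F) : quadFormPlus 3 F (act g v) = g.det * quadFormPlus 3 F v := by
  have hd : g.det = g 0 0 * (g 1 1 * (g 2 2 * g 3 3 - g 2 3 * g 3 2) - g 1 2 * (g 2 1 * g 3 3 - g 2 3 * g 3 1) + g 1 3 * (g 2 1 * g 3 2 - g 2 2 * g 3 1))
      - g 0 1 * (g 1 0 * (g 2 2 * g 3 3 - g 2 3 * g 3 2) - g 1 2 * (g 2 0 * g 3 3 - g 2 3 * g 3 0) + g 1 3 * (g 2 0 * g 3 2 - g 2 2 * g 3 0))
      + g 0 2 * (g 1 0 * (g 2 1 * g 3 3 - g 2 3 * g 3 1) - g 1 1 * (g 2 0 * g 3 3 - g 2 3 * g 3 0) + g 1 3 * (g 2 0 * g 3 1 - g 2 1 * g 3 0))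
      - g 0 3 * (g 1 0 * (g 2 1 * g 3 2 - g 2 2 * g 3 1) - g 1 1 * (g 2 0 * g 3 2 - g 2 2 * g 3 0) + g 1 2 * (g 2 0 * g 3 1 - g 2 1 * g 3 0)) := by
    rw [Matrix.det_succ_row_zero, Fin.sum_univ_four]
    simp [Matrix.det_fin_three, Fin.succAbove, Matrix.submatrix_apply]
    ring
  rw [hd]
  simp only [quadFormPlus, Fin.sum_univ_three, act, N, Sum.elim_inl, Sum.elim_inr, Matrix.cons_val_zero, Matrix.cons_val_one, Matrix.cons_val,
    Matrix.mul_apply, Fin.sum_univ_four, Matrix.transpose_apply]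
  simp only [M, Matrix.of_apply, Matrix.cons_val', Matrix.cons_val_zero, Matrix.cons_val_one, Matrix.cons_val]
  ring

/-- the representation -/
noncomputable def rho (F : Type*) [Field F] : Matrix.SpecialLinearGroup (Fin 4) F →* isometryGroup F (quadFormPlus 3 F) where
  toFun g := ⟨ofE (LinearEquiv.ofLinear
      { toFun := act g.1, map_add' := act_add g.1, map_smul' := act_smul g.1 }
      { toFun := act (g⁻¹).1, map_add' := act_add (g⁻¹).1, map_smul' := act_smul (g⁻¹).1 }
      (LinearMap.ext fun v => by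
        change act g.1 (act (g⁻¹).1 v) = v
        rw [← act_mul, ← Matrix.SpecialLinearGroup.coe_mul, mul_inv_cancel, Matrix.SpecialLinearGroup.coe_one, act_one])
      (LinearMap.ext fun v => by
        change act (g⁻¹).1 (act g.1 v) = v
        rw [← act_mul, ← Matrix.SpecialLinearGroup.coe_mul, inv_mul_cancel, Matrix.SpecialLinearGroup.coe_one, act_one])), by
    rw [Cfsg.Agent.H7.Quad.mem_isometryGroup]
    intro v
    rw [ap_ofE]
    change quadFormPlus 3 F (act g.1 v) = _
    rw [act_q, g.2, one_mul]⟩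
  map_one' := by
    apply Subtype.ext
    apply ap_ext
    intro v
    rw [ap_ofE]
    change act (1 : Matrix.SpecialLinearGroup (Fin 4) F).1 v = ap 1 v
    rw [ap_one, Matrix.SpecialLinearGroup.coe_one, act_one]
  map_mul' g h := by
    apply Subtype.ext
    apply ap_ext
    intro v
    change ap (ofE _) v = ap (ofE _ * ofE _) v
    rw [ap_mul, ap_ofE, ap_ofE, ap_ofE]
    change act (g * h).1 v = act g.1 (act h.1 v)
    rw [Matrix.SpecialLinearGroup.coe_mul, act_mul]

theorem rho_apply (g : Matrix.SpecialLinearGroup (Fin 4) F) (v : V6 F) : ap (rho F g).1 v = act g.1 v := by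
  change ap (ofE _) v = _
  rw [ap_ofE]; rfl

theorem mem_ker_rho (g : Matrix.SpecialLinearGroup (Fin 4) F) : g ∈ (rho F).ker ↔ ∀ v, act g.1 v = v := by
  rw [MonoidHom.mem_ker]
  constructor
  · intro h v
    rw [← rho_apply, h]
    exact ap_one v
  · intro h
    apply Subtype.ext
    apply ap_ext
    intro v
    rw [rho_apply, h]
    exact (ap_one v).symm

/-- the kernel consists of scalars -/
theorem fix_scalar (g : Matrix.SpecialLinearGroup (Fin 4) F) (h : ∀ v, act g.1 v = v) :
    ∃ c : F, c * c = 1 ∧ g.1 = c • (1 : Matrix (Fin 4) (Fin 4) F) := by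
  have h1 : ∀ v, g.1 * M v * g.1ᵀ = M v := by
    intro v; rw [← M_act, h]
  -- all elementary alternating matrices are fixed
  have h2 : ∀ i j : Fin 4, i ≠ j → g.1 * (Matrix.single i j 1 - Matrix.single j i 1) * g.1ᵀ = Matrix.single i j 1 - Matrix.single j i 1 := by
    intro i j hij
    have h3 : M (N (Matrix.single i j (1 : F) - Matrix.single j i 1)) = Matrix.single i j 1 - Matrix.single j i 1 := by
      apply M_N
      · intro k
        simp only [Matrix.sub_apply, Matrix.single_apply]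
        by_cases h1 : i = k
        · have h2 : ¬ j = k := fun h => hij (h1.trans h.symm)
          simp [h1, h2]
        · simp [h1]
      · intro k l
        simp only [Matrix.sub_apply, Matrix.single_apply]
        split_ifs <;> simp_all
    rw [← h3, h1]
  set B : Matrix (Fin 4) (Fin 4) F := ((g⁻¹).1)ᵀ with hB
  have hgB : g.1ᵀ * B = 1 := by
    rw [hB, ← transpose_mul, ← Matrix.SpecialLinearGroup.coe_mul, inv_mul_cancel, Matrix.SpecialLinearGroup.coe_one, transpose_one]
  have h3 : ∀ i j : Fin 4, i ≠ j → g.1 * (Matrix.single i j 1 - Matrix.single j i 1) = (Matrix.single i j 1 - Matrix.single j i 1) * B := by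
    intro i j hij
    calc g.1 * (Matrix.single i j 1 - Matrix.single j i 1) = g.1 * (Matrix.single i j 1 - Matrix.single j i 1) * (g.1ᵀ * B) := by
          rw [hgB, mul_one]
      _ = g.1 * (Matrix.single i j 1 - Matrix.single j i 1) * g.1ᵀ * B := by rw [mul_assoc _ g.1ᵀ B]
      _ = _ := by rw [h2 i j hij]
  have hoff : ∀ k i : Fin 4, k ≠ i → g.1 k i = 0 := by
    intro k i hki
    obtain ⟨j, hji, hjk⟩ : ∃ j : Fin 4, j ≠ i ∧ j ≠ k := by
      revert k i; decide
    have := congrFun (congrFun (h3 i j hji.symm) k) j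
    rw [mul_sub, sub_mul, Matrix.sub_apply, Matrix.sub_apply, Matrix.mul_single_apply_same, Matrix.mul_single_apply_of_ne _ _ _ _ _ hji,
      Matrix.single_mul_apply_of_ne _ _ _ _ _ hki, Matrix.single_mul_apply_of_ne _ _ _ _ _ hjk.symm] at this
    simpa using this
  have hdiag : g.1 = Matrix.diagonal (fun i => g.1 i i) := by
    ext i j
    by_cases hij : i = j
    · subst hij; simp
    · rw [hoff i j hij, Matrix.diagonal_apply_ne _ hij]
  have hprod : ∀ i j : Fin 4, i ≠ j → g.1 i i * g.1 j j = 1 := by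
    intro i j hij
    have := congrFun (congrFun (h2 i j hij) i) j
    rw [hdiag, Matrix.diagonal_transpose, Matrix.mul_diagonal, Matrix.diagonal_mul] at this
    simp only [Matrix.sub_apply, Matrix.single_apply, and_self, if_true, Matrix.diagonal_apply_eq] at this
    have h4 : ¬ (j = i ∧ i = j) := fun h => hij h.2
    rw [if_neg h4] at this
    simpa using this
  have heq : ∀ i j : Fin 4, g.1 i i = g.1 j j := by
    intro i j
    obtain ⟨k, hki, hkj⟩ : ∃ k : Fin 4, k ≠ i ∧ k ≠ j := by
      revert i j; decide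
    have h5 := hprod i k hki.symm
    have h6 := hprod j k hkj.symm
    have hk : g.1 k k ≠ 0 := by
      intro h0; rw [h0, mul_zero] at h5; exact zero_ne_one h5
    exact mul_right_cancel₀ hk (h5.trans h6.symm)
  refine ⟨g.1 0 0, ?_, ?_⟩
  · have := hprod 0 1 (by decide)
    rwa [heq 1 0] at this
  · rw [hdiag]
    ext i j
    by_cases hij : i = j
    · subst hij; simp [heq i 0]
    · simp [hij]

theorem ker_le (g : Matrix.SpecialLinearGroup (Fin 4) F) (h : ∀ v, act g.1 v = v) :
    g.1 = 1 ∨ g.1 = -1 := by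
  obtain ⟨c, hc, hg⟩ := fix_scalar g h
  have : (c - 1) * (c + 1) = 0 := by linear_combination hc
  rcases mul_eq_zero.1 this with h1 | h1
  · left; rw [hg, sub_eq_zero.1 h1, one_smul]
  · right; rw [hg, eq_neg_of_add_eq_zero_left h1, neg_smul, one_smul]

theorem act_neg (v : V6 F) : act (-1) v = v := by
  rw [act, neg_one_mul, transpose_neg, transpose_one, neg_mul_neg, mul_one, N_M]

/-- minus one -/
def ng (F : Type*) [Field F] : Matrix.SpecialLinearGroup (Fin 4) F := ⟨-1, by
  rw [Matrix.det_neg, Matrix.det_one, Fintype.card_fin]; norm_num⟩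

theorem ker_iff (g : Matrix.SpecialLinearGroup (Fin 4) F) : g ∈ (rho F).ker ↔ g = 1 ∨ g = ng F := by
  rw [mem_ker_rho]
  constructor
  · intro h
    rcases ker_le g h with h | h
    · exact Or.inl (Subtype.ext h)
    · exact Or.inr (Subtype.ext h)
  · rintro (rfl | rfl) v
    · exact act_one v
    · exact act_neg v

theorem ker_le_center : (rho F).ker ≤ Subgroup.center (Matrix.SpecialLinearGroup (Fin 4) F) := by
  intro g hg
  rw [Subgroup.mem_center_iff]
  intro z
  rcases (ker_iff g).1 hg with rfl | rfl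
  · rw [mul_one, one_mul]
  · apply Subtype.ext
    rw [Matrix.SpecialLinearGroup.coe_mul, Matrix.SpecialLinearGroup.coe_mul]
    change z.1 * (-1) = (-1) * z.1
    rw [mul_neg_one, neg_one_mul]

theorem card_ker_two (h2 : (2 : F) = 0) : Nat.card (rho F).ker = 1 := by
  rw [Nat.card_eq_one_iff_unique]
  refine ⟨⟨fun a b => ?_⟩, ⟨1⟩⟩
  have key : ∀ a : (rho F).ker, a = 1 := by
    intro a
    apply Subtype.ext
    rcases (ker_iff a.1).1 a.2 with h | h
    · exact h
    · rw [h]
      apply Subtype.ext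
      change (-1 : Matrix (Fin 4) (Fin 4) F) = 1
      rw [neg_eq_iff_add_eq_zero]
      have : (1 : Matrix (Fin 4) (Fin 4) F) + 1 = (2 : F) • 1 := by rw [two_smul]
      rw [this, h2, zero_smul]
  rw [key a, key b]

theorem card_ker_odd (h2 : (2 : F) ≠ 0) : Nat.card (rho F).ker = 2 := by
  rw [Nat.card_eq_two_iff]
  refine ⟨1, ⟨ng F, (ker_iff _).2 (Or.inr rfl)⟩, ?_, ?_⟩
  · intro h
    have h1 : (1 : Matrix (Fin 4) (Fin 4) F) = -1 := congrArg (fun x => x.1.1) h
    have h3 := congrFun (congrFun h1 0) 0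
    rw [Matrix.neg_apply, Matrix.one_apply_eq] at h3
    apply h2
    linear_combination h3
  · rw [Set.eq_univ_iff_forall]
    intro a
    rcases (ker_iff a.1).1 a.2 with h | h
    · left; exact Subtype.ext h
    · right; exact Subtype.ext h

end Cfsg.Agent.H7.Wedge
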