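import Cfsg.Agent.H7.Zas3
import Mathlib.GroupTheory.PGroup

/-!
Zassenhaus groups: the regular normal subgroup of a point stabiliser.
-/

set_option autoImplicit false
set_option linter.unusedSectionVars false

namespace Cfsg.Agent.H7.Zas3

open Cfsg MulAction

/-- the setup: a regular normal subgroup of a stabiliser -/
structure Ker {G Ω : Type*} [Group G] [MulAction G Ω] (a b : Ω) (F : Subgroup G) : Prop where
  hab : a ≠ b
  le : F ≤ stabilizer G a
  nor : ∀ g : G, g • a = a → ∀ u ∈ F, g * u * g⁻¹ ∈ F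
  reg : ∀ y z : Ω, y ≠ a → z ≠ a → ∃! u : F, (u : G) • y = z

variable {G Ω : Type*} [Group G] [Finite G] [MulAction G Ω] [Fintype Ω] {a b : Ω} {F : Subgroup G}

theorem ker_of {a b : Ω} (hab : a ≠ b) (hFle : F ≤ MulAction.stabilizer G a) (hFn : (F.subgroupOf (MulAction.stabilizer G a)).Normal)
    (hreg : ∀ y z : Ω, y ≠ a → z ≠ a → ∃! u : F, (u : G) • y = z) : Ker a b F where
  hab := hab
  le := hFle
  nor := fun g hg u hu => by
    have h1 : (⟨u, hFle hu⟩ : stabilizer G a) ∈ F.subgroupOf (stabilizer G a) := Subgroup.mem_subgroupOf.2 hu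
    have h2 := hFn.conj_mem _ h1 ⟨g, mem_stabilizer_iff.2 hg⟩
    exact Subgroup.mem_subgroupOf.1 h2
  reg := hreg

theorem Ker.ne (h : Ker a b F) {u : G} (hu : u ∈ F) (hu1 : u ≠ 1) {x : Ω} (hx : x ≠ a) : u • x ≠ x := by
  intro e
  obtain ⟨w, -, hw⟩ := h.reg x x hx hx
  have h1 := hw ⟨u, hu⟩ e
  have h2 := hw 1 (one_smul _ _)
  exact hu1 (congrArg Subtype.val (h1.trans h2.symm))

theorem Ker.ne_a (h : Ker a b F) {u : G} (hu : u ∈ F) {x : Ω} (hx : x ≠ a) : u • x ≠ a := by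
  intro e
  apply hx
  have h1 : u • a = a := mem_stabilizer_iff.1 (h.le hu)
  exact smul_left_cancel u (e.trans h1.symm)

theorem Ker.card (h : Ker a b F) : Nat.card F = Fintype.card Ω - 1 := by
  classical
  let f : F → {x : Ω // x ≠ a} := fun u => ⟨(u : G) • b, h.ne_a u.2 (Ne.symm h.hab)⟩
  have hf : Function.Bijective f := by
    constructor
    · intro u v e
      have e1 : (u : G) • b = (v : G) • b := congrArg Subtype.val e
      obtain ⟨w, -, hw⟩ := h.reg b ((v : G) • b) (Ne.symm h.hab) (h.ne_a v.2 (Ne.symm h.hab))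
      rw [hw u e1, hw v rfl]
    · intro x
      obtain ⟨w, hw, -⟩ := h.reg b x.1 (Ne.symm h.hab) x.2
      exact ⟨w, Subtype.ext hw⟩
  rw [Nat.card_congr (Equiv.ofBijective f hf), Nat.card_eq_fintype_card, Fintype.card_subtype_compl, Fintype.card_subtype_eq]

theorem Ker.semi (hZ : IsZassenhausGroup G Ω) (h : Ker a b F) {x u : G} (hx : x • a = a ∧ x • b = b) (hu : u ∈ F) (hu1 : u ≠ 1)
    (e : x * u * x⁻¹ = u) : x = 1 := by
  have h1 : u • b ≠ b := h.ne hu hu1 (Ne.symm h.hab)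
  have h2 : u • b ≠ a := h.ne_a hu (Ne.symm h.hab)
  apply three hZ h.hab (Ne.symm h2) (Ne.symm h1) hx.1 hx.2
  have h3 : x * u = u * x := by
    rw [mul_inv_eq_iff_eq_mul] at e
    exact e
  rw [← mul_smul, h3, mul_smul, hx.2]

/-- the orbit of an element -/
noncomputable def orb (a b : Ω) (u : G) : Finset G :=
  (Set.toFinite {v : G | ∃ x : G, (x • a = a ∧ x • b = b) ∧ x * u * x⁻¹ = v}).toFinset

theorem mem_orb {u v : G} : v ∈ orb a b u ↔ ∃ x : G, (x • a = a ∧ x • b = b) ∧ x * u * x⁻¹ = v := by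
  rw [orb, Set.Finite.mem_toFinset]
  rfl

theorem Ker.card_orb (hZ : IsZassenhausGroup G Ω) (h : Ker a b F) {u : G} (hu : u ∈ F) (hu1 : u ≠ 1) :
    (orb a b u).card = Nat.card ↥(stabilizer G a ⊓ stabilizer G b) := by
  classical
  haveI : Fintype ↥(stabilizer G a ⊓ stabilizer G b) := Fintype.ofFinite _
  have h0 : orb a b u = Finset.univ.image (fun x : ↥(stabilizer G a ⊓ stabilizer G b) => x.1 * u * x.1⁻¹) := by
    ext v
    rw [mem_orb, Finset.mem_image]
    constructor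
    · rintro ⟨x, hx, e⟩
      exact ⟨⟨x, mem_stab.2 hx⟩, Finset.mem_univ _, e⟩
    · rintro ⟨x, -, hx⟩
      exact ⟨x.1, mem_stab.1 x.2, hx⟩
  rw [h0, Finset.card_image_of_injective, Finset.card_univ, ← Nat.card_eq_fintype_card]
  intro x y e
  have e1 : x.1 * u * x.1⁻¹ = y.1 * u * y.1⁻¹ := e
  have h1 := mem_stab.1 x.2
  have h2 := mem_stab.1 y.2
  have h3 : (y.1⁻¹ * x.1) * u * (y.1⁻¹ * x.1)⁻¹ = u := by
    calc (y.1⁻¹ * x.1) * u * (y.1⁻¹ * x.1)⁻¹ = y.1⁻¹ * (x.1 * u * x.1⁻¹) * y.1 := by group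
      _ = y.1⁻¹ * (y.1 * u * y.1⁻¹) * y.1 := by rw [e1]
      _ = u := by group
  have h4 := h.semi hZ (x := y.1⁻¹ * x.1) ⟨by rw [mul_smul, h1.1, inv_smul_eq_iff, h2.1], by rw [mul_smul, h1.2, inv_smul_eq_iff, h2.2]⟩ hu hu1 h3
  apply Subtype.ext
  exact (inv_mul_eq_one.1 h4).symm

theorem Ker.orb_sub (h : Ker a b F) {u v : G} (hu : u ∈ F) (hu1 : u ≠ 1) (hv : v ∈ orb a b u) : v ∈ F ∧ v ≠ 1 := by
  obtain ⟨x, hx, rfl⟩ := mem_orb.1 hv
  refine ⟨h.nor x hx.1 u hu, ?_⟩
  intro e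
  apply hu1
  calc u = x⁻¹ * (x * u * x⁻¹) * x := by group
    _ = 1 := by rw [e]; group

/-- invariant subgroups are large -/
theorem Ker.eq_of_inv (hZ : IsZassenhausGroup G Ω) (h : Ker a b F) (hd : Fintype.card Ω - 2 ≤ 2 * Nat.card ↥(stabilizer G a ⊓ stabilizer G b))
    (K : Subgroup G) (hK : K ≤ F) (hinv : ∀ x : G, (x • a = a ∧ x • b = b) → ∀ u ∈ K, x * u * x⁻¹ ∈ K) {u : G} (hu : u ∈ K) (hu1 : u ≠ 1) : K = F := by
  classical
  haveI : Fintype K := Fintype.ofFinite _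
  have h1 : Nat.card ↥(stabilizer G a ⊓ stabilizer G b) + 1 ≤ Nat.card K := by
    rw [← h.card_orb hZ (hK hu) hu1, ← Finset.card_insert_of_notMem (s := orb a b u) (a := 1) (fun e => (h.orb_sub (hK hu) hu1 e).2 rfl),
      Nat.card_eq_fintype_card, ← Finset.card_univ, ← Finset.card_map ⟨Subtype.val, Subtype.val_injective⟩]
    apply Finset.card_le_card
    intro v hv
    rw [Finset.mem_map]
    rcases Finset.mem_insert.1 hv with rfl | hv
    · exact ⟨1, Finset.mem_univ _, rfl⟩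
    · obtain ⟨x, hx, rfl⟩ := mem_orb.1 hv
      exact ⟨⟨_, hinv x hx u hu⟩, Finset.mem_univ _, rfl⟩
  obtain ⟨c, hc⟩ := Subgroup.card_dvd_of_le hK
  have h2 := h.card
  have h3 : 0 < Nat.card F := Nat.card_pos
  have hc1 : c = 1 := by
    rcases Nat.lt_or_ge c 2 with h4 | h4
    · rcases Nat.eq_zero_or_pos c with h5 | h5
      · rw [h5, mul_zero] at hc; omega
      · omega
    · exfalso
      have : Nat.card K * 2 ≤ Nat.card K * c := Nat.mul_le_mul_left _ h4
      omega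
  apply Subgroup.eq_of_le_of_card_ge hK
  rw [hc, hc1, mul_one]

theorem Ker.comm_of_inv (hZ : IsZassenhausGroup G Ω) (h : Ker a b F) {z : G} (hz : z • a = a ∧ z • b = b) (hz1 : z ≠ 1) (hz2 : z * z = 1) :
    ∀ u ∈ F, z * u * z⁻¹ = u⁻¹ := by
  have hzi : z⁻¹ = z := inv_eq_of_mul_eq_one_left hz2
  let f : F → F := fun u => ⟨u.1⁻¹ * (z * u.1 * z⁻¹), mul_mem (inv_mem u.2) (h.nor z hz.1 u.1 u.2)⟩
  have hf : Function.Injective f := by
    intro u v e
    have e1 : u.1⁻¹ * (z * u.1 * z⁻¹) = v.1⁻¹ * (z * v.1 * z⁻¹) := congrArg Subtype.val e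
    by_contra hne
    have h1 : z * (v.1 * u.1⁻¹) * z⁻¹ = v.1 * u.1⁻¹ := by
      calc z * (v.1 * u.1⁻¹) * z⁻¹ = v.1 * (v.1⁻¹ * (z * v.1 * z⁻¹)) * (z * u.1 * z⁻¹)⁻¹ := by group
        _ = v.1 * (u.1⁻¹ * (z * u.1 * z⁻¹)) * (z * u.1 * z⁻¹)⁻¹ := by rw [e1]
        _ = _ := by group
    apply hz1
    apply h.semi hZ hz (mul_mem v.2 (inv_mem u.2)) _ h1
    intro h2
    apply hne
    exact Subtype.ext (mul_inv_eq_one.1 h2).symm
  intro u hu
  obtain ⟨w, hw⟩ := Finite.surjective_of_injective hf ⟨u, hu⟩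
  have e1 : w.1⁻¹ * (z * w.1 * z⁻¹) = u := congrArg Subtype.val hw
  rw [← e1]
  calc z * (w.1⁻¹ * (z * w.1 * z⁻¹)) * z⁻¹ = (z * w.1⁻¹ * z⁻¹) * ((z * z) * w.1 * (z * z)⁻¹) := by group
    _ = (z * w.1⁻¹ * z⁻¹) * w.1 := by rw [hz2]; group
    _ = _ := by group

theorem Ker.comm (hZ : IsZassenhausGroup G Ω) (h : Ker a b F) (hd : Fintype.card Ω - 2 ≤ 2 * Nat.card ↥(stabilizer G a ⊓ stabilizer G b)) :
    ∀ u ∈ F, ∀ v ∈ F, u * v = v * u := by
  classical
  haveI : Fintype F := Fintype.ofFinite _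
  by_cases hcase : ∃ z : G, (z • a = a ∧ z • b = b) ∧ z ≠ 1 ∧ z * z = 1
  · obtain ⟨z, hz, hz1, hz2⟩ := hcase
    have h1 := h.comm_of_inv hZ hz hz1 hz2
    intro u hu v hv
    have h2 := h1 (u * v) (mul_mem hu hv)
    have h3 : z * (u * v) * z⁻¹ = (z * u * z⁻¹) * (z * v * z⁻¹) := by group
    rw [h3, h1 u hu, h1 v hv, ← mul_inv_rev, inv_inj] at h2
    exact h2.symm
  · push Not at hcase
    have hno : ∀ z : G, (z • a = a ∧ z • b = b) → z * z = 1 → z = 1 := by
      intro z hz hz2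
      by_contra h1
      exact hcase z hz h1 hz2
    rcases subsingleton_or_nontrivial F with hs | hs
    · intro u hu v hv
      have e1 : (⟨u, hu⟩ : F) = 1 := Subsingleton.elim _ _
      have e2 : (⟨v, hv⟩ : F) = 1 := Subsingleton.elim _ _
      rw [show u = 1 from congrArg Subtype.val e1, show v = 1 from congrArg Subtype.val e2]
    have hn1 : Nat.card F ≠ 1 := (Finite.one_lt_card_iff_nontrivial.2 hs).ne'
    -- two primes
    have key : ∀ p q : ℕ, p.Prime → q.Prime → p ∣ Nat.card F → q ∣ Nat.card F → p ≠ 2 → q = p := by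
      intro p q hp hq hpd hqd hp2
      by_contra hqp
      haveI : Fact p.Prime := ⟨hp⟩
      haveI : Fact q.Prime := ⟨hq⟩
      obtain ⟨⟨u, hu⟩, hup⟩ := exists_prime_orderOf_dvd_card' (G := F) p hpd
      obtain ⟨⟨v, hv⟩, hvq⟩ := exists_prime_orderOf_dvd_card' (G := F) q hqd
      rw [Subgroup.orderOf_mk] at hup hvq
      have hu1 : u ≠ 1 := by rintro rfl; rw [orderOf_one] at hup; exact hp.one_lt.ne hup
      have hv1 : v ≠ 1 := by rintro rfl; rw [orderOf_one] at hvq; exact hq.one_lt.ne hvq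
      have hord : ∀ x w : G, orderOf (x * w * x⁻¹) = orderOf w := by
        intro x w
        have := (MulAut.conj x).orderOf_eq w
        rwa [MulAut.conj_apply] at this
      have hou : ∀ w ∈ orb a b u, orderOf w = p := by
        intro w hw
        obtain ⟨x, -, rfl⟩ := mem_orb.1 hw
        rw [hord, hup]
      have hou' : ∀ w ∈ orb a b u⁻¹, orderOf w = p := by
        intro w hw
        obtain ⟨x, -, rfl⟩ := mem_orb.1 hw
        rw [hord, orderOf_inv, hup]
      have hov : ∀ w ∈ orb a b v, orderOf w = q := by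
        intro w hw
        obtain ⟨x, -, rfl⟩ := mem_orb.1 hw
        rw [hord, hvq]
      have hd1 : Disjoint (orb a b u) (orb a b u⁻¹) := by
        rw [Finset.disjoint_left]
        intro w hw hw'
        obtain ⟨x, hx, e1⟩ := mem_orb.1 hw
        obtain ⟨y, hy, e2⟩ := mem_orb.1 hw'
        have hyx : (y⁻¹ * x) • a = a ∧ (y⁻¹ * x) • b = b :=
          ⟨by rw [mul_smul, hx.1, inv_smul_eq_iff, hy.1], by rw [mul_smul, hx.2, inv_smul_eq_iff, hy.2]⟩
        have e3 : (y⁻¹ * x) * u * (y⁻¹ * x)⁻¹ = u⁻¹ := by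
          calc (y⁻¹ * x) * u * (y⁻¹ * x)⁻¹ = y⁻¹ * (x * u * x⁻¹) * y := by group
            _ = y⁻¹ * (y * u⁻¹ * y⁻¹) * y := by rw [e1, e2]
            _ = u⁻¹ := by group
        generalize y⁻¹ * x = z at hyx e3
        have e4 : (z * z) * u * (z * z)⁻¹ = u := by
          calc (z * z) * u * (z * z)⁻¹ = z * (z * u * z⁻¹) * z⁻¹ := by group
            _ = z * u⁻¹ * z⁻¹ := by rw [e3]
            _ = (z * u * z⁻¹)⁻¹ := by group
            _ = u := by rw [e3, inv_inv]
        have e5 := h.semi hZ (x := z * z) ⟨by rw [mul_smul, hyx.1, hyx.1], by rw [mul_smul, hyx.2, hyx.2]⟩ hu hu1 e4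
        have e6 := hno z hyx e5
        rw [e6, one_mul, inv_one, mul_one] at e3
        have e7 : u * u = 1 := by
          nth_rw 1 [e3]
          exact inv_mul_cancel u
        have e8 := orderOf_two_iff.2 ⟨hu1, e7⟩
        rw [hup] at e8
        exact hp2 e8
      have hd2 : Disjoint (orb a b u ∪ orb a b u⁻¹) (orb a b v) := by
        rw [Finset.disjoint_left]
        intro w hw hw'
        have e1 := hov w hw'
        rcases Finset.mem_union.1 hw with h1 | h1
        · rw [hou w h1] at e1; exact hqp e1.symm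
        · rw [hou' w h1] at e1; exact hqp e1.symm
      have hui : u⁻¹ ≠ 1 := inv_ne_one.2 hu1
      have hcard : (insert 1 ((orb a b u ∪ orb a b u⁻¹) ∪ orb a b v)).card ≤ Nat.card F := by
        rw [Nat.card_eq_fintype_card, ← Finset.card_univ, ← Finset.card_map ⟨Subtype.val, Subtype.val_injective⟩]
        apply Finset.card_le_card
        intro w hw
        rw [Finset.mem_map]
        rcases Finset.mem_insert.1 hw with rfl | hw
        · exact ⟨1, Finset.mem_univ _, rfl⟩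
        · rcases Finset.mem_union.1 hw with hw | hw
          · rcases Finset.mem_union.1 hw with hw | hw
            · exact ⟨⟨w, (h.orb_sub hu hu1 hw).1⟩, Finset.mem_univ _, rfl⟩
            · exact ⟨⟨w, (h.orb_sub (inv_mem hu) hui hw).1⟩, Finset.mem_univ _, rfl⟩
          · exact ⟨⟨w, (h.orb_sub hv hv1 hw).1⟩, Finset.mem_univ _, rfl⟩
      rw [Finset.card_insert_of_notMem, Finset.card_union_of_disjoint hd2, Finset.card_union_of_disjoint hd1, h.card_orb hZ hu hu1,
        h.card_orb hZ (inv_mem hu) hui, h.card_orb hZ hv hv1, h.card] at hcard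
      · have : 0 < Nat.card ↥(stabilizer G a ⊓ stabilizer G b) := Nat.card_pos
        omega
      · intro hw
        rcases Finset.mem_union.1 hw with hw | hw
        · rcases Finset.mem_union.1 hw with hw | hw
          · exact (h.orb_sub hu hu1 hw).2 rfl
          · exact (h.orb_sub (inv_mem hu) hui hw).2 rfl
        · exact (h.orb_sub hv hv1 hw).2 rfl
    obtain ⟨p, hp, hpd⟩ := Nat.exists_prime_and_dvd hn1
    have hall : ∀ {q : ℕ}, q.Prime → q ∣ Nat.card F → q = p := by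
      intro q hq hqd
      by_cases hp2 : p = 2
      · by_cases hq2 : q = 2
        · rw [hp2, hq2]
        · exact (key q p hq hp hqd hpd hq2).symm
      · exact key p q hp hq hpd hqd hp2
    have hpow := Nat.eq_prime_pow_of_unique_prime_dvd (Nat.card_pos.ne') hall
    haveI : Fact p.Prime := ⟨hp⟩
    have hpg : IsPGroup p F := IsPGroup.of_card hpow
    have hcen := hpg.center_nontrivial
    obtain ⟨⟨z, hz⟩, hz1⟩ := exists_ne (1 : Subgroup.center F)
    have hzz : z.1 ≠ 1 := by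
      intro e
      apply hz1
      exact Subtype.ext (Subtype.ext e)
    have hK : (Subgroup.center F).map F.subtype = F := by
      apply h.eq_of_inv hZ hd _ (by
        rintro _ ⟨w, -, rfl⟩
        exact w.2) _ (u := z.1) (Subgroup.mem_map_of_mem F.subtype hz) hzz
      rintro x hx _ ⟨w, hw, rfl⟩
      refine ⟨⟨x * w.1 * x⁻¹, h.nor x hx.1 _ w.2⟩, ?_, rfl⟩
      rw [SetLike.mem_coe, Subgroup.mem_center_iff] at hw ⊢
      intro g
      apply Subtype.ext
      have hx' : x⁻¹ • a = a := by rw [inv_smul_eq_iff, hx.1]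
      have h1 := h.nor x⁻¹ hx' g.1 g.2
      have h2 := congrArg Subtype.val (hw ⟨_, h1⟩)
      change x⁻¹ * g.1 * x⁻¹⁻¹ * w.1 = w.1 * (x⁻¹ * g.1 * x⁻¹⁻¹) at h2
      rw [inv_inv] at h2
      change g.1 * (x * w.1 * x⁻¹) = x * w.1 * x⁻¹ * g.1
      calc g.1 * (x * w.1 * x⁻¹) = x * (x⁻¹ * g.1 * x * w.1) * x⁻¹ := by group
        _ = x * (w.1 * (x⁻¹ * g.1 * x)) * x⁻¹ := by rw [h2]
        _ = _ := by group
    intro u hu v hv
    rw [← hK] at hu
    obtain ⟨w, hw, rfl⟩ := hu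
    rw [SetLike.mem_coe, Subgroup.mem_center_iff] at hw
    exact (congrArg Subtype.val (hw ⟨v, hv⟩)).symm

theorem three_le (hZ : IsZassenhausGroup G Ω) : 3 ≤ Fintype.card Ω := by
  classical
  obtain ⟨g, hg, a, b, hab, ha, hb⟩ := hZ.2.2.2.1
  obtain ⟨x, hx⟩ := exists_moved hZ hg
  have hxa : a ≠ x := by rintro rfl; exact hx ha
  have hxb : b ≠ x := by rintro rfl; exact hx hb
  have h1 : ({a, b, x} : Finset Ω).card = 3 := Finset.card_eq_three.2 ⟨a, b, x, hab, hxa, hxb, rfl⟩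
  rw [← h1]
  exact Finset.card_le_univ _

end Cfsg.Agent.H7.Zas3
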